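import Cfsg.Agent.H3.UMonoBase
import Mathlib.Analysis.Fourier.FiniteAbelian.PontryaginDuality
import Mathlib.Analysis.RCLike.Basic

set_option autoImplicit false
set_option linter.unusedSectionVars false

/-!
# Norm-one combinations with prescribed sum and product

Fourier counting on `F × U` (`U` the norm-one group): ten terms always suffice.
Only second moments are used: the fourth moment of one norm-one sum and the sixth moment of three of them.
-/

namespace Cfsg.Agent.H60.SULow

open Finset Cfsg.Agent.H3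

/-- Parseval's inequality for a weighted pushforward. -/
theorem parseval_le {A T : Type*} [AddCommGroup A] [Fintype A] [DecidableEq A] [Fintype T] (f : T → A)
    (a : T → ℂ) (ha : ∀ p, ‖a p‖ ≤ 1) :
    ∑ ψ : AddChar A ℂ, ‖∑ p, a p * ψ (f p)‖ ^ 2 ≤
      (Fintype.card A * (univ.filter fun p : T × T => f p.1 = f p.2).card : ℕ) := by
  have key : ((∑ ψ : AddChar A ℂ, ‖∑ p, a p * ψ (f p)‖ ^ 2 : ℝ) : ℂ) =
      ∑ p : T × T, a p.1 * (starRingEnd ℂ) (a p.2) * ∑ ψ : AddChar A ℂ, ψ (f p.1 - f p.2) := by
    simp only [Complex.ofReal_sum, Complex.ofReal_pow, ← Complex.mul_conj', map_sum, map_mul]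
    simp_rw [Finset.sum_mul_sum]
    rw [Fintype.sum_prod_type, Finset.sum_comm]
    refine Finset.sum_congr rfl fun p _ => ?_
    rw [Finset.sum_comm]
    refine Finset.sum_congr rfl fun p' _ => ?_
    rw [Finset.mul_sum]
    refine Finset.sum_congr rfl fun ψ _ => ?_
    rw [sub_eq_add_neg, AddChar.map_add_eq_mul, AddChar.map_neg_eq_conj]
    ring
  have h1 : (∑ ψ : AddChar A ℂ, ‖∑ p, a p * ψ (f p)‖ ^ 2) =
      ‖((∑ ψ : AddChar A ℂ, ‖∑ p, a p * ψ (f p)‖ ^ 2 : ℝ) : ℂ)‖ := by
    rw [Complex.norm_real, Real.norm_eq_abs, abs_of_nonneg (Finset.sum_nonneg fun ψ _ => sq_nonneg _)]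
  rw [h1, key, Nat.cast_mul, Finset.card_filter, Nat.cast_sum, Finset.mul_sum]
  refine (norm_sum_le _ _).trans (Finset.sum_le_sum fun p _ => ?_)
  rw [norm_mul, norm_mul, RCLike.norm_conj, AddChar.sum_apply_eq_ite]
  by_cases h : f p.1 = f p.2
  · simp only [sub_eq_zero, h, if_true, Nat.cast_one, mul_one, Complex.norm_natCast]
    have : ‖a p.1‖ * ‖a p.2‖ ≤ 1 := mul_le_one₀ (ha _) (norm_nonneg _) (ha _)
    calc ‖a p.1‖ * ‖a p.2‖ * (Fintype.card A : ℝ) ≤ 1 * (Fintype.card A : ℝ) :=
          mul_le_mul_of_nonneg_right this (Nat.cast_nonneg _)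
      _ = _ := one_mul _
  · simp [sub_eq_zero, h]

variable {F : Type*} [Field F] [Fintype F] {q : ℕ}

variable (q F) in
/-- The norm-one group. -/
abbrev NOne : Type _ := ↥(rootsOfUnity (q + 1) F)

variable (q F) in
/-- Sums and products of norm-one elements live here. -/
abbrev SPGroup : Type _ := F × Additive (NOne F q)

/-- The field element. -/
def nv (u : NOne F q) : F := ((u : Fˣ) : F)

theorem nv_mul (u v : NOne F q) : nv (u * v) = nv u * nv v := rfl

theorem nv_injective : Function.Injective (nv : NOne F q → F) :=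
  fun _ _ h => Subtype.ext (Units.ext h)

theorem nv_pow (u : NOne F q) : nv u ^ (q + 1) = 1 := by
  have := u.2
  rw [mem_rootsOfUnity] at this
  exact congrArg Units.val this

theorem nv_ne_zero (u : NOne F q) : nv u ≠ 0 := Units.ne_zero _

theorem nv_conj (u : NOne F q) : nv u * nv u ^ q = 1 := by rw [← pow_succ']; exact nv_pow u

variable (hF : Fintype.card F = q ^ 2)
include hF

theorem card_nOne [Fintype (NOne F q)] : Fintype.card (NOne F q) = q + 1 := by
  classical
  rw [← card_normOne (F := F) hF, ← Finset.card_univ]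
  refine Finset.card_bij (fun u _ => nv u) (fun u _ => mem_normOne.mpr (nv_pow u))
    (fun u _ v _ h => nv_injective h) fun a ha => ?_
  rw [mem_normOne] at ha
  have ha0 : a ≠ 0 := fun h => by rw [h, zero_pow (by omega)] at ha; exact zero_ne_one ha
  exact ⟨⟨Units.mk0 a ha0, (mem_rootsOfUnity _ _).mpr (Units.ext (by simpa using ha))⟩, mem_univ _, rfl⟩

variable [Fintype (NOne F q)] [DecidableEq F]

/-- Two norm-one elements with given non-zero sum. -/
theorem pair_fibre_le {w : F} (hw : w ≠ 0) {u v : NOne F q} (huv : nv u + nv v = w) :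
    ∀ p : NOne F q × NOne F q, nv p.1 + nv p.2 = w → p = (u, v) ∨ p = (v, u) := by
  rintro ⟨x, y⟩ hxy
  simp only at hxy
  have e1 := congrArg (· ^ q) (hxy.trans huv.symm)
  simp only [add_pow_q hF] at e1
  have hux := nv_conj x
  have huy := nv_conj y
  have huu := nv_conj u
  have huv' := nv_conj v
  have e2 : w * (nv u * nv v - nv x * nv y) = 0 := by
    linear_combination (nv x * nv y * nv u * nv v) * e1 - nv u * nv v * nv y * hux
      - nv u * nv v * nv x * huy + nv x * nv y * nv v * huu + nv x * nv y * nv u * huv'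
      - nv u * nv v * hxy + nv x * nv y * huv
  have e3 := (mul_eq_zero.mp e2).resolve_left hw
  have e4 : (nv x - nv u) * (nv x - nv v) = 0 := by
    linear_combination e3 + nv x * (hxy.trans huv.symm)
  rcases mul_eq_zero.mp e4 with h | h
  · have hx : x = u := nv_injective (sub_eq_zero.mp h)
    subst hx
    exact Or.inl (Prod.ext rfl (nv_injective (by linear_combination hxy - huv)))
  · have hx : x = v := nv_injective (sub_eq_zero.mp h)
    subst hx
    exact Or.inr (Prod.ext rfl (nv_injective (by linear_combination hxy - huv)))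

/-- The energy of one norm-one circle. -/
theorem energy_four {c : F} (hc : c ≠ 0) :
    (univ.filter fun p : (NOne F q × NOne F q) × (NOne F q × NOne F q) =>
      c * (nv p.1.1 + nv p.1.2) = c * (nv p.2.1 + nv p.2.2)).card ≤ (q + 1) * (3 * q + 1) := by
  classical
  have hq := two_le_q hF
  rw [Finset.card_filter, Fintype.sum_prod_type]
  simp only [← Finset.card_filter]
  have hzero : (univ.filter fun p : NOne F q × NOne F q => nv p.1 + nv p.2 = 0).card ≤ q + 1 := by
    refine le_trans (Finset.card_le_card_of_injOn Prod.fst (fun _ _ => Finset.mem_coe.mpr (mem_univ _)) ?_)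
      (by rw [Finset.card_univ, card_nOne hF])
    intro p hp p' hp' h
    simp only [coe_filter, mem_univ, true_and, Set.mem_ofPred_eq] at hp hp'
    refine Prod.ext h (nv_injective ?_)
    rw [h] at hp
    linear_combination hp - hp'
  have hp : ∀ p : NOne F q × NOne F q,
      (univ.filter fun p' : NOne F q × NOne F q => c * (nv p.1 + nv p.2) = c * (nv p'.1 + nv p'.2)).card ≤
        2 + if nv p.1 + nv p.2 = 0 then q - 1 else 0 := by
    intro p
    by_cases h0 : nv p.1 + nv p.2 = 0
    · rw [if_pos h0]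
      refine le_trans (Finset.card_le_card fun p' hp' => ?_) (hzero.trans (by omega))
      rw [mem_filter] at hp' ⊢
      refine ⟨mem_univ _, ?_⟩
      have := mul_left_cancel₀ hc hp'.2
      rw [← this, h0]
    · rw [if_neg h0, add_zero]
      refine le_trans (Finset.card_le_card (t := {(p.1, p.2), (p.2, p.1)}) fun p' hp' => ?_) Finset.card_le_two
      rw [mem_filter] at hp'
      rw [mem_insert, mem_singleton]
      exact pair_fibre_le hF h0 rfl p' (mul_left_cancel₀ hc hp'.2).symm
  refine (Finset.sum_le_sum fun p _ => hp p).trans ?_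
  rw [Finset.sum_add_distrib, Finset.sum_const, Finset.card_univ, Fintype.card_prod, card_nOne hF,
    ← Finset.sum_filter, Finset.sum_const, smul_eq_mul, smul_eq_mul]
  calc (q + 1) * (q + 1) * 2 +
      (univ.filter fun p : NOne F q × NOne F q => nv p.1 + nv p.2 = 0).card * (q - 1)
      ≤ (q + 1) * (q + 1) * 2 + (q + 1) * (q - 1) := Nat.add_le_add_left (Nat.mul_le_mul_right _ hzero) _
    _ = (q + 1) * (3 * q + 1) := by
      rw [show (q + 1) * (q + 1) * 2 = (q + 1) * (2 * q + 2) by ring, ← mul_add]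
      congr 1
      omega

/-- The sum and the product. -/
def sp (a b c : F) (p : NOne F q × NOne F q × NOne F q) : SPGroup F q :=
  (a * nv p.1 + b * nv p.2.1 + c * nv p.2.2, Additive.ofMul (p.1 * (p.2.1 * p.2.2)))

omit [DecidableEq F] in
/-- The unknowns are recovered from the third one. -/
theorem triple_poly {a b c : F} {w : F} {π : NOne F q} {p : NOne F q × NOne F q × NOne F q}
    (hs : a * nv p.1 + b * nv p.2.1 + c * nv p.2.2 = w) (hp : p.1 * (p.2.1 * p.2.2) = π) :
    (a ^ q * a - b ^ q * b) * (nv p.1 * nv p.2.2 ^ 2) =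
        a ^ q * nv p.2.2 ^ 2 * (w - c * nv p.2.2) - b * nv π * (w ^ q * nv p.2.2 - c ^ q) ∧
      (a ^ q * a - b ^ q * b) * (nv p.2.1 * nv p.2.2 ^ 2) =
        a * nv π * (w ^ q * nv p.2.2 - c ^ q) - b ^ q * nv p.2.2 ^ 2 * (w - c * nv p.2.2) := by
  obtain ⟨x, y, z⟩ := p
  simp only at hs hp ⊢
  have hπ : nv π = nv x * (nv y * nv z) := by rw [← hp, nv_mul, nv_mul]
  have hw : w ^ q * (nv x * nv y * nv z) =
      a ^ q * nv y * nv z + b ^ q * nv x * nv z + c ^ q * nv x * nv y := by
    rw [← hs, add_pow_q hF, add_pow_q hF, mul_pow, mul_pow, mul_pow]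
    linear_combination (a ^ q * nv y * nv z) * nv_conj x + (b ^ q * nv x * nv z) * nv_conj y +
      (c ^ q * nv x * nv y) * nv_conj z
  rw [hπ]
  exact ⟨by linear_combination (a ^ q * nv z ^ 2) * hs + (b * nv z) * hw,
    by linear_combination (-(b ^ q) * nv z ^ 2) * hs - (a * nv z) * hw⟩

/-- At most six triples have given sum and product. -/
theorem triple_fibre_le {a b c : F} (ha : a ≠ 0) (hb : b ≠ 0) (hc : c ≠ 0) (x : SPGroup F q) :
    (univ.filter fun p : NOne F q × NOne F q × NOne F q => sp a b c p = x).card ≤ 6 := by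
  classical
  obtain ⟨w, π'⟩ := x
  set π : NOne F q := Additive.toMul π'
  set S := univ.filter fun p : NOne F q × NOne F q × NOne F q => sp a b c p = (w, π') with hS
  have hmem : ∀ p ∈ S, a * nv p.1 + b * nv p.2.1 + c * nv p.2.2 = w ∧ p.1 * (p.2.1 * p.2.2) = π := by
    intro p hp
    rw [hS, mem_filter] at hp
    simp only [sp, Prod.mk.injEq] at hp
    exact ⟨hp.2.1, by simp [π, ← hp.2.2]⟩
  set Δ : F := a ^ q * a - b ^ q * b with hΔ
  open Polynomial in
  let A : F[X] := C (-(a ^ q * c)) * X ^ 3 + C (a ^ q * w) * X ^ 2 + C (-(b * nv π * w ^ q)) * X +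
    C (b * nv π * c ^ q)
  open Polynomial in
  let B : F[X] := C (b ^ q * c) * X ^ 3 + C (-(b ^ q * w)) * X ^ 2 + C (a * nv π * w ^ q) * X +
    C (-(a * nv π * c ^ q))
  have hAd : A.natDegree = 3 := by
    exact Polynomial.natDegree_cubic (neg_ne_zero.mpr (mul_ne_zero (pow_ne_zero q ha) hc))
  have hBd : B.natDegree = 3 := by
    exact Polynomial.natDegree_cubic (mul_ne_zero (pow_ne_zero q hb) hc)
  have hA0 : A ≠ 0 := fun h => by rw [h, Polynomial.natDegree_zero] at hAd; omega
  have hB0 : B ≠ 0 := fun h => by rw [h, Polynomial.natDegree_zero] at hBd; omega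
  have hAe : ∀ p ∈ S, A.eval (nv p.2.2) = Δ * (nv p.1 * nv p.2.2 ^ 2) := fun p hp => by
    rw [(triple_poly hF (hmem p hp).1 (hmem p hp).2).1]
    simp [A]
    ring
  have hBe : ∀ p ∈ S, B.eval (nv p.2.2) = Δ * (nv p.2.1 * nv p.2.2 ^ 2) := fun p hp => by
    rw [(triple_poly hF (hmem p hp).1 (hmem p hp).2).2]
    simp [B]
    ring
  by_cases hΔ0 : Δ = 0
  · -- the third unknown satisfies a cubic, and the first a quadratic
    have h1 := Finset.card_le_mul_card_image (f := fun p => nv p.2.2) S 2 fun r hr => ?_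
    · refine h1.trans ?_
      have hsub : (S.image fun p => nv p.2.2) ⊆ A.roots.toFinset := fun r hr => by
        obtain ⟨p, hp, rfl⟩ := mem_image.mp hr
        rw [Multiset.mem_toFinset, Polynomial.mem_roots hA0, Polynomial.IsRoot, hAe p hp, hΔ0, zero_mul]
      have := (Finset.card_le_card hsub).trans ((Multiset.toFinset_card_le _).trans (Polynomial.card_roots' A))
      omega
    obtain ⟨p₀, hp₀, hr₀⟩ := mem_image.mp hr
    refine le_trans (Finset.card_le_card_of_injOn (fun p => nv p.1) (t := ({nv p₀.1, b * nv p₀.2.1 / a} : Finset F))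
      (fun p hp => ?_) ?_) Finset.card_le_two
    · rw [Finset.mem_coe, mem_filter] at hp
      have e1 := (hmem p hp.1).1
      have e2 := (hmem p₀ hp₀).1
      have e3 : nv p.1 * nv p.2.1 = nv p₀.1 * nv p₀.2.1 := by
        have h3 := congrArg nv ((hmem p hp.1).2.trans (hmem p₀ hp₀).2.symm)
        simp only [nv_mul, hp.2, hr₀] at h3
        exact mul_right_cancel₀ (hr₀ ▸ nv_ne_zero p₀.2.2) (by linear_combination h3)
      rw [hp.2] at e1
      rw [hr₀] at e2
      have e4 : (nv p.1 - nv p₀.1) * (a * nv p.1 - b * nv p₀.2.1) = 0 := by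
        linear_combination nv p.1 * (e1 - e2) - b * e3
      rw [Finset.mem_coe, mem_insert, mem_singleton]
      rcases mul_eq_zero.mp e4 with h | h
      · exact Or.inl (sub_eq_zero.mp h)
      · exact Or.inr (by field_simp; linear_combination h)
    · intro p hp p' hp' hpp'
      rw [Finset.mem_coe, mem_filter] at hp hp'
      have h13 : p.2.2 = p'.2.2 := nv_injective (hp.2.trans hp'.2.symm)
      refine Prod.ext (nv_injective hpp') (Prod.ext (nv_injective (mul_left_cancel₀ hb ?_)) h13)
      have e1 := (hmem p hp.1).1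
      have e1' := (hmem p' hp'.1).1
      rw [h13] at e1
      simp only at hpp'
      linear_combination e1 - e1' - a * hpp'
  · -- the third unknown satisfies a sextic and determines the others
    open Polynomial in
    let P : F[X] := A * B - C (Δ ^ 2 * nv π) * X ^ 3
    have hdeg : (A * B).natDegree = 6 := by rw [Polynomial.natDegree_mul hA0 hB0, hAd, hBd]
    have hC3 : (Polynomial.C (Δ ^ 2 * nv π) * Polynomial.X ^ 3).natDegree < (A * B).natDegree := by
      rw [hdeg]
      exact lt_of_le_of_lt (Polynomial.natDegree_C_mul_X_pow_le _ _) (by omega)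
    have hPd : P.natDegree = 6 := by rw [Polynomial.natDegree_sub_eq_left_of_natDegree_lt hC3, hdeg]
    have hP0 : P ≠ 0 := fun h => by rw [h, Polynomial.natDegree_zero] at hPd; omega
    refine le_trans (Finset.card_le_card_of_injOn (fun p => nv p.2.2) (t := P.roots.toFinset) (fun p hp => ?_) ?_)
      ((Multiset.toFinset_card_le _).trans ((Polynomial.card_roots' P).trans hPd.le))
    · rw [Finset.mem_coe] at hp ⊢
      rw [Multiset.mem_toFinset, Polynomial.mem_roots hP0, Polynomial.IsRoot]
      simp only [P, Polynomial.eval_sub, Polynomial.eval_mul, hAe p hp, hBe p hp, Polynomial.eval_C,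
        Polynomial.eval_pow, Polynomial.eval_X]
      have := congrArg nv (hmem p hp).2
      rw [nv_mul, nv_mul] at this
      linear_combination (Δ ^ 2 * nv p.2.2 ^ 3) * this
    · intro p hp p' hp' h
      rw [Finset.mem_coe] at hp hp'
      simp only at h
      have e1 := (hAe p hp).symm.trans (h ▸ hAe p' hp')
      have e2 := (hBe p hp).symm.trans (h ▸ hBe p' hp')
      have hz := pow_ne_zero 2 (nv_ne_zero p.2.2)
      refine Prod.ext (nv_injective ?_) (Prod.ext (nv_injective ?_) (nv_injective h))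
      · exact mul_right_cancel₀ hz (mul_left_cancel₀ hΔ0 e1)
      · exact mul_right_cancel₀ hz (mul_left_cancel₀ hΔ0 e2)

/-- The energy of three circles, at most the first of them degenerate. -/
theorem energy_six (a : F) {b c : F} (hb : b ≠ 0) (hc : c ≠ 0) :
    (univ.filter fun p : (NOne F q × NOne F q × NOne F q) × (NOne F q × NOne F q × NOne F q) =>
      sp a b c p.1 = sp a b c p.2).card ≤ 6 * (q + 1) ^ 3 := by
  classical
  rw [Finset.card_filter, Fintype.sum_prod_type]
  simp only [← Finset.card_filter]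
  have hcard : Fintype.card (NOne F q × NOne F q × NOne F q) = (q + 1) ^ 3 := by
    rw [Fintype.card_prod, Fintype.card_prod, card_nOne hF]; ring
  by_cases ha : a = 0
  swap
  · refine (Finset.sum_le_sum fun p _ => (Finset.card_le_card fun p' hp' => ?_).trans
      (triple_fibre_le hF ha hb hc (sp a b c p))).trans ?_
    · rw [mem_filter] at hp' ⊢
      exact ⟨hp'.1, hp'.2.symm⟩
    rw [Finset.sum_const, Finset.card_univ, hcard, smul_eq_mul, mul_comm]
  subst ha
  have hp : ∀ p : NOne F q × NOne F q × NOne F q,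
      (univ.filter fun p' => sp 0 b c p = sp 0 b c p').card ≤
        2 + if b * nv p.2.1 + c * nv p.2.2 = 0 then q + 1 else 0 := by
    intro p
    have hinj : Set.InjOn (fun p' : NOne F q × NOne F q × NOne F q => p'.2.1)
        ↑(univ.filter fun p' => sp 0 b c p = sp 0 b c p') := by
      intro x hx y hy hxy
      rw [Finset.mem_coe, mem_filter] at hx hy
      have h := hx.2.symm.trans hy.2
      simp only [sp, Prod.mk.injEq, zero_mul, zero_add] at h
      simp only at hxy
      have h2 : x.2.2 = y.2.2 := nv_injective (mul_left_cancel₀ hc (by rw [hxy] at h; linear_combination h.1))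
      refine Prod.ext ?_ (Prod.ext hxy h2)
      have h3 := h.2
      rw [hxy, h2] at h3
      exact mul_right_cancel (Additive.ofMul.injective h3)
    by_cases h0 : b * nv p.2.1 + c * nv p.2.2 = 0
    · rw [if_pos h0]
      refine le_trans (Finset.card_le_card_of_injOn _ (fun _ _ => Finset.mem_coe.mpr (mem_univ _)) hinj) ?_
      rw [Finset.card_univ, card_nOne hF]
      omega
    rw [if_neg h0, add_zero]
    set w := b * nv p.2.1 + c * nv p.2.2 with hw
    open Polynomial in
    let Q : F[X] := C (w ^ q * b) * X ^ 2 + C (c * c ^ q - b * b ^ q - w ^ q * w) * X + C (b ^ q * w)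
    have hQd : Q.natDegree = 2 := Polynomial.natDegree_quadratic (mul_ne_zero (pow_ne_zero q h0) hb)
    have hQ0 : Q ≠ 0 := fun h => by rw [h, Polynomial.natDegree_zero] at hQd; omega
    have hinj' : Set.InjOn (fun p' : NOne F q × NOne F q × NOne F q => nv p'.2.1)
        ↑(univ.filter fun p' => sp 0 b c p = sp 0 b c p') := fun x hx y hy h => hinj hx hy (nv_injective h)
    refine le_trans (Finset.card_le_card_of_injOn _ (t := Q.roots.toFinset) (fun x hx => ?_) hinj')
      ((Multiset.toFinset_card_le _).trans ((Polynomial.card_roots' Q).trans hQd.le))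
    rw [Finset.mem_coe, mem_filter] at hx
    rw [Finset.mem_coe, Multiset.mem_toFinset, Polynomial.mem_roots hQ0, Polynomial.IsRoot]
    have h := hx.2
    simp only [sp, Prod.mk.injEq, zero_mul, zero_add] at h
    have hs : b * nv x.2.1 + c * nv x.2.2 = w := h.1.symm
    have hsq := congrArg (· ^ q) hs
    simp only [add_pow_q hF, mul_pow] at hsq
    have hs2 : b ^ q * nv x.2.2 + c ^ q * nv x.2.1 = w ^ q * (nv x.2.1 * nv x.2.2) := by
      linear_combination (nv x.2.1 * nv x.2.2) * hsq - b ^ q * nv x.2.2 * nv_conj x.2.1 -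
        c ^ q * nv x.2.1 * nv_conj x.2.2
    simp only [Q, Polynomial.eval_add, Polynomial.eval_mul, Polynomial.eval_C, Polynomial.eval_pow,
      Polynomial.eval_X]
    linear_combination c * hs2 - (b ^ q - w ^ q * nv x.2.1) * hs
  have hzero : (univ.filter fun p : NOne F q × NOne F q × NOne F q => b * nv p.2.1 + c * nv p.2.2 = 0).card ≤
      (q + 1) ^ 2 := by
    refine le_trans (Finset.card_le_card_of_injOn (fun p => (p.1, p.2.1))
      (fun _ _ => Finset.mem_coe.mpr (mem_univ _)) ?_)
      (by rw [Finset.card_univ, Fintype.card_prod, card_nOne hF, sq])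
    intro x hx y hy hxy
    rw [Finset.mem_coe, mem_filter] at hx hy
    simp only [Prod.mk.injEq] at hxy
    refine Prod.ext hxy.1 (Prod.ext hxy.2 (nv_injective (mul_left_cancel₀ hc ?_)))
    have := hx.2
    rw [hxy.2] at this
    linear_combination this - hy.2
  refine (Finset.sum_le_sum fun p _ => hp p).trans ?_
  rw [Finset.sum_add_distrib, Finset.sum_const, Finset.card_univ, hcard, ← Finset.sum_filter,
    Finset.sum_const, smul_eq_mul, smul_eq_mul]
  refine (Nat.add_le_add_left (Nat.mul_le_mul_right _ hzero) _).trans ?_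
  nlinarith [Nat.zero_le ((q + 1) ^ 3)]

/-- The norm-one sum at a character. -/
noncomputable def circ (χ : AddChar (SPGroup F q) ℂ) (c : F) : ℂ :=
  ∑ u : NOne F q, χ (c * nv u, Additive.ofMul u)

/-- The sums are small at non-trivial characters. -/
theorem circ_pow_four_le {χ : AddChar (SPGroup F q) ℂ} (hχ : χ ≠ 0) {c : F} (hc : c ≠ 0) :
    ‖circ χ c‖ ^ 4 ≤ (q ^ 2 * (3 * q + 1) : ℕ) := by
  classical
  let ψ : AddChar F ℂ := χ.compAddMonoidHom (AddMonoidHom.inl F (Additive (NOne F q)))
  let η : AddChar (Additive (NOne F q)) ℂ := χ.compAddMonoidHom (AddMonoidHom.inr F (Additive (NOne F q)))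
  have hχsplit : ∀ x y, χ (x, y) = ψ x * η y := fun x y => by
    rw [show ((x, y) : SPGroup F q) = (x, 0) + (0, y) by simp, AddChar.map_add_eq_mul]
    rfl
  by_cases hψ : ψ = 0
  · have hη : η ≠ 0 := fun h => hχ (DFunLike.ext _ _ fun p => by
      obtain ⟨x, y⟩ := p
      rw [hχsplit, hψ, h]; simp)
    have h0 : circ χ c = 0 := by
      have h1 : circ χ c = ∑ u : NOne F q, η (Additive.ofMul u) :=
        Finset.sum_congr rfl fun u _ => by rw [hχsplit, hψ]; simp
      rw [h1, Fintype.sum_equiv Additive.ofMul (fun u => η (Additive.ofMul u)) η fun _ => rfl,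
        AddChar.sum_eq_ite, if_neg hη]
    rw [h0, norm_zero, zero_pow (by norm_num)]
    exact Nat.cast_nonneg _
  let a : NOne F q × NOne F q → ℂ := fun p => η (Additive.ofMul p.1) * η (Additive.ofMul p.2)
  have hpar := parseval_le (A := F) (fun p : NOne F q × NOne F q => c * (nv p.1 + nv p.2)) a
    fun p => by simp [a]
  let T : AddChar F ℂ → ℂ := fun ψ' => ∑ u : NOne F q, η (Additive.ofMul u) * ψ' (c * nv u)
  have hT : ∀ ψ' : AddChar F ℂ, (∑ p, a p * ψ' (c * (nv p.1 + nv p.2))) = T ψ' ^ 2 := fun ψ' => by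
    rw [sq, Finset.sum_mul_sum, Fintype.sum_prod_type]
    refine Finset.sum_congr rfl fun u _ => Finset.sum_congr rfl fun v _ => ?_
    simp only [a, mul_add, AddChar.map_add_eq_mul]
    ring
  simp only [hT, norm_pow] at hpar
  -- the orbit of `ψ`
  have hnorm : ∀ v : NOne F q, ‖T (ψ.mulShift (nv v))‖ = ‖circ χ c‖ := fun v => by
    have h1 : T (ψ.mulShift (nv v)) = η (-(Additive.ofMul v)) * circ χ c := by
      rw [circ, Finset.mul_sum]
      refine Fintype.sum_equiv (Equiv.mulLeft v) _ _ fun u => ?_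
      rw [hχsplit, Equiv.coe_mulLeft, nv_mul, ofMul_mul, AddChar.map_add_eq_mul, AddChar.mulShift_apply,
        show c * (nv v * nv u) = nv v * (c * nv u) by ring]
      have : η (-(Additive.ofMul v)) * η (Additive.ofMul v) = 1 := by
        rw [← AddChar.map_add_eq_mul, neg_add_cancel, AddChar.map_zero_eq_one]
      linear_combination (-(η (Additive.ofMul u) * ψ (nv v * (c * nv u)))) * this
    rw [h1, norm_mul, AddChar.norm_apply, one_mul]
  have hinj : Function.Injective fun v : NOne F q => ψ.mulShift (nv v) := by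
    intro v v' h
    by_contra hne
    refine hψ (DFunLike.ext _ _ fun x => ?_)
    have hd : nv v - nv v' ≠ 0 := sub_ne_zero.mpr fun e => hne (nv_injective e)
    have h1 := DFunLike.congr_fun h (x / (nv v - nv v'))
    simp only [AddChar.mulShift_apply] at h1
    rw [show nv v * (x / (nv v - nv v')) = nv v' * (x / (nv v - nv v')) + x by field_simp; ring,
      AddChar.map_add_eq_mul] at h1
    rw [AddChar.zero_apply]
    exact (mul_eq_left₀ (fun e => by simpa [e] using AddChar.norm_apply ψ (nv v' * (x / (nv v - nv v'))))).mp h1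
  have hsum : (q + 1 : ℝ) * ‖circ χ c‖ ^ 4 ≤ ∑ ψ' : AddChar F ℂ, (‖T ψ'‖ ^ 2) ^ 2 := by
    refine le_trans (le_of_eq ?_) (Finset.sum_le_sum_of_subset_of_nonneg
      (Finset.subset_univ (univ.image fun v : NOne F q => ψ.mulShift (nv v))) fun _ _ _ => by positivity)
    rw [Finset.sum_image fun v _ v' _ h => hinj h, Finset.sum_congr rfl fun v _ => by rw [hnorm v]]
    rw [Finset.sum_const, Finset.card_univ, card_nOne hF, nsmul_eq_mul]
    push_cast
    ring
  have hE : (Fintype.card F * (univ.filter fun p : (NOne F q × NOne F q) × (NOne F q × NOne F q) =>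
      c * (nv p.1.1 + nv p.1.2) = c * (nv p.2.1 + nv p.2.2)).card : ℕ) ≤ (q + 1) * (q ^ 2 * (3 * q + 1)) := by
    refine (Nat.mul_le_mul_left _ (energy_four hF hc)).trans (le_of_eq ?_)
    rw [hF]; ring
  have h5 := hsum.trans (hpar.trans (Nat.cast_le.mpr hE))
  rw [Nat.cast_mul (q + 1), Nat.cast_add_one] at h5
  exact le_of_mul_le_mul_left h5 (by positivity)

/-- The sixth moment of three sums. -/
theorem circ_triple_le (a : F) {b c : F} (hb : b ≠ 0) (hc : c ≠ 0) :
    ∑ χ ∈ univ.erase (0 : AddChar (SPGroup F q) ℂ), (‖circ χ a‖ * ‖circ χ b‖ * ‖circ χ c‖) ^ 2 ≤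
      6 * (q : ℝ) ^ 2 * (q + 1) ^ 4 - (q + 1) ^ 6 := by
  classical
  have hpar := parseval_le (A := SPGroup F q) (sp (q := q) a b c) (fun _ => (1 : ℂ)) fun _ => by simp
  have hT : ∀ χ : AddChar (SPGroup F q) ℂ, (∑ p, (1 : ℂ) * χ (sp a b c p)) = circ χ a * circ χ b * circ χ c := by
    intro χ
    simp only [one_mul, circ, Fintype.sum_prod_type, Finset.sum_mul]
    refine Finset.sum_congr rfl fun u _ => ?_
    rw [Finset.mul_sum univ _ (χ (a * nv u, Additive.ofMul u)), Finset.sum_mul]
    refine Finset.sum_congr rfl fun v _ => ?_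
    rw [Finset.mul_sum]
    refine Finset.sum_congr rfl fun w _ => ?_
    simp only [sp, ofMul_mul, ← AddChar.map_add_eq_mul, Prod.mk_add_mk]
    congr 2
    abel
  simp only [hT, norm_mul] at hpar
  have h0 : ∀ x : F, ‖circ (0 : AddChar (SPGroup F q) ℂ) x‖ = (q + 1 : ℝ) := fun x => by
    simp only [circ, AddChar.zero_apply, Finset.sum_const, Finset.card_univ, card_nOne hF, nsmul_eq_mul,
      mul_one, Complex.norm_natCast]
    push_cast
    ring
  rw [← Finset.sum_erase_add _ _ (mem_univ (0 : AddChar (SPGroup F q) ℂ)), h0, h0, h0] at hpar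
  have hE : (Fintype.card (SPGroup F q) * (univ.filter fun p : (NOne F q × NOne F q × NOne F q) ×
      (NOne F q × NOne F q × NOne F q) => sp a b c p.1 = sp a b c p.2).card : ℕ) ≤
      6 * q ^ 2 * (q + 1) ^ 4 := by
    refine (Nat.mul_le_mul_left _ (energy_six hF a hb hc)).trans (le_of_eq ?_)
    rw [Fintype.card_prod, Fintype.card_additive, card_nOne hF, hF]; ring
  have h5 := hpar.trans (Nat.cast_le.mpr hE)
  push_cast at h5
  linarith

end Cfsg.Agent.H60.SULow
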