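import Cfsg.Agent.H60.SULow.CharCount
import Cfsg.Agent.H3.UMonoCore

set_option autoImplicit false
set_option linter.unusedSectionVars false

/-!
# Killing a row by a diagonal element, from dimension ten
-/

namespace Cfsg.Agent.H60.SULow

open Finset Cfsg.Agent.H3
open scoped Matrix

variable {F : Type*} [Field F] [Fintype F] {q n : ℕ}

/-- The margin of the estimate is positive. -/
theorem margin_pos (hq : 2 ≤ q) :
    q ^ 2 * (3 * q + 1) * (5 * (q : ℤ) ^ 2 - 2 * q - 1) * (q + 1) + 100 * q ^ 2 < ((q : ℤ) + 1) ^ 7 := by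
  by_cases h9 : q ≤ 8
  · interval_cases q <;> norm_num
  · have h9' : (9 : ℤ) ≤ q := by exact_mod_cast (by omega : 9 ≤ q)
    nlinarith [pow_nonneg (by linarith : (0 : ℤ) ≤ q) 6, mul_nonneg (sub_nonneg.mpr h9') (pow_nonneg (by linarith : (0 : ℤ) ≤ q) 6),
      pow_nonneg (by linarith : (0 : ℤ) ≤ q) 5, pow_nonneg (by linarith : (0 : ℤ) ≤ q) 4,
      pow_nonneg (by linarith : (0 : ℤ) ≤ q) 3, mul_nonneg (sub_nonneg.mpr h9') (pow_nonneg (by linarith : (0 : ℤ) ≤ q) 5)]

theorem square_le_pow (hq : 2 ≤ q) (k : ℕ) : (10 + k) ^ 2 ≤ 100 * (q + 1) ^ k := by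
  induction k with
  | zero => simp
  | succ k ih =>
    have h3 : 3 ≤ q + 1 := by omega
    calc (10 + (k + 1)) ^ 2 ≤ 3 * (10 + k) ^ 2 := by ring_nf; nlinarith [Nat.zero_le (k * k)]
      _ ≤ (q + 1) * (100 * (q + 1) ^ k) := Nat.mul_le_mul h3 ih
      _ = _ := by ring

/-- A character turns sums into products. -/
theorem addChar_sum {A ι : Type*} [AddCommMonoid A] (χ : AddChar A ℂ) (s : Finset ι) (f : ι → A) :
    χ (∑ i ∈ s, f i) = ∏ i ∈ s, χ (f i) := by
  classical
  induction s using Finset.induction_on with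
  | empty => simp
  | insert a s ha ih => rw [Finset.sum_insert ha, Finset.prod_insert ha, AddChar.map_add_eq_mul, ih]

/-- Four small numbers have a small product. -/
theorem four_prod_le {a b c d B : ℝ} (ha : a ^ 4 ≤ B) (hb : b ^ 4 ≤ B) (hc : c ^ 4 ≤ B) (hd : d ^ 4 ≤ B) :
    a * b * c * d ≤ B := by
  nlinarith [sq_nonneg (a * b - c * d), sq_nonneg (a ^ 2 - b ^ 2), sq_nonneg (c ^ 2 - d ^ 2)]

/-- Ten factors written out. -/
theorem prod_ten (f : Fin 10 → ℝ) :
    ∏ l, f l = f 0 * f 1 * f 2 * f 3 * f 4 * f 5 * f 6 * f 7 * f 8 * f 9 := by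
  rw [Fin.prod_univ_castSucc, Fin.prod_univ_castSucc, Fin.prod_univ_eight]
  rfl

variable (hF : Fintype.card F = q ^ 2)
include hF

variable [Fintype (NOne F q)] [DecidableEq F]

/-- Ten terms: the number of solutions. -/
theorem count_ten (C : Fin 10 → F) (hC : ∀ l, l ≠ 4 → C l ≠ 0) (w : F) (P : NOne F q) :
    ((q : ℝ) + 1) ^ 10 - (q ^ 2 * (3 * q + 1)) * (6 * q ^ 2 * (q + 1) ^ 4 - (q + 1) ^ 6) ≤
      q ^ 2 * (q + 1) * (univ.filter fun δ : Fin 10 → NOne F q =>
        ∑ l, C l * nv (δ l) = w ∧ ∏ l, δ l = P).card := by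
  classical
  set x : SPGroup F q := (w, Additive.ofMul P) with hx
  set N := (univ.filter fun δ : Fin 10 → NOne F q => ∑ l, C l * nv (δ l) = w ∧ ∏ l, δ l = P).card with hN
  -- orthogonality
  have horth : ∑ χ : AddChar (SPGroup F q) ℂ, χ (-x) * ∏ l, circ χ (C l) =
      ((q ^ 2 * (q + 1) * N : ℕ) : ℂ) := by
    have h1 : ∀ χ : AddChar (SPGroup F q) ℂ, χ (-x) * ∏ l, circ χ (C l) =
        ∑ δ : Fin 10 → NOne F q, χ ((∑ l, C l * nv (δ l), Additive.ofMul (∏ l, δ l)) - x) := fun χ => by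
      simp only [circ]
      rw [Fintype.prod_sum, Finset.mul_sum]
      refine Finset.sum_congr rfl fun δ _ => ?_
      rw [sub_eq_add_neg, AddChar.map_add_eq_mul, mul_comm]
      congr 1
      rw [ofMul_prod, prod_mk_sum, addChar_sum]
    rw [Finset.sum_congr rfl fun χ _ => h1 χ, Finset.sum_comm]
    simp only [AddChar.sum_apply_eq_ite, sub_eq_zero, Fintype.card_prod, Fintype.card_additive, card_nOne hF, hF,
      ← Finset.sum_filter, Finset.sum_const, nsmul_eq_mul, hx, Prod.mk.injEq,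
      Equiv.apply_eq_iff_eq]
    rw [← hN]
    push_cast
    ring
  rw [← Finset.add_sum_erase _ _ (mem_univ (0 : AddChar (SPGroup F q) ℂ))] at horth
  have h0 : (0 : AddChar (SPGroup F q) ℂ) (-x) * ∏ l, circ (0 : AddChar (SPGroup F q) ℂ) (C l) =
      (((q + 1) ^ 10 : ℕ) : ℂ) := by
    simp [circ, card_nOne hF]
  rw [h0] at horth
  -- the error term
  let A : AddChar (SPGroup F q) ℂ → ℝ := fun χ => ‖circ χ (C 4)‖ * ‖circ χ (C 5)‖ * ‖circ χ (C 6)‖
  let B : AddChar (SPGroup F q) ℂ → ℝ := fun χ => ‖circ χ (C 7)‖ * ‖circ χ (C 8)‖ * ‖circ χ (C 9)‖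
  have hA := circ_triple_le hF (C 4) (hC 5 (by decide)) (hC 6 (by decide))
  have hB := circ_triple_le hF (C 7) (hC 8 (by decide)) (hC 9 (by decide))
  have herr : ‖∑ χ ∈ univ.erase (0 : AddChar (SPGroup F q) ℂ), χ (-x) * ∏ l, circ χ (C l)‖ ≤
      (q ^ 2 * (3 * q + 1)) * (6 * (q : ℝ) ^ 2 * (q + 1) ^ 4 - (q + 1) ^ 6) := by
    refine (norm_sum_le _ _).trans ?_
    refine le_trans (Finset.sum_le_sum fun χ hχ => ?_)
      (b := ∑ χ ∈ univ.erase (0 : AddChar (SPGroup F q) ℂ),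
        ((q : ℝ) ^ 2 * (3 * q + 1)) * ((A χ ^ 2 + B χ ^ 2) / 2)) ?_
    · have hχ0 : χ ≠ 0 := (Finset.mem_erase.mp hχ).1
      rw [norm_mul, AddChar.norm_apply, one_mul, norm_prod,
        show (∏ l : Fin 10, ‖circ χ (C l)‖) = (‖circ χ (C 0)‖ * ‖circ χ (C 1)‖ * ‖circ χ (C 2)‖ * ‖circ χ (C 3)‖) *
          (A χ * B χ) by rw [prod_ten]; simp only [A, B]; ring]
      have h4 : ∀ l : Fin 10, l ≠ 4 → ‖circ χ (C l)‖ ^ 4 ≤ (q : ℝ) ^ 2 * (3 * q + 1) := fun l hl => by
        have := circ_pow_four_le hF hχ0 (hC l hl)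
        push_cast at this
        exact this
      refine mul_le_mul (four_prod_le (h4 0 (by decide)) (h4 1 (by decide)) (h4 2 (by decide)) (h4 3 (by decide)))
        ?_ (by positivity) (by positivity)
      nlinarith [sq_nonneg (A χ - B χ)]
    · rw [← Finset.mul_sum, ← Finset.sum_div, Finset.sum_add_distrib]
      refine mul_le_mul_of_nonneg_left ?_ (by positivity)
      linarith
  have hre := congrArg Complex.re horth
  rw [Complex.add_re, Complex.natCast_re, Complex.natCast_re] at hre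
  have habs := (Complex.abs_re_le_norm _).trans herr
  rw [abs_le] at habs
  push_cast at hre
  linarith [habs.1]

/-- Prescribed sum and product on ten or more terms, in many ways. -/
theorem count_ge {k : ℕ} (C : Fin 10 ⊕ Fin k → F) (hC : ∀ l, l ≠ 4 → C (Sum.inl l) ≠ 0) (w : F) (P : NOne F q) :
    (10 + k) ^ 2 * (q + 1) ^ 2 < (univ.filter fun δ : Fin 10 ⊕ Fin k → NOne F q =>
      ∑ l, C l * nv (δ l) = w ∧ ∏ l, δ l = P).card := by
  classical
  have hq := two_le_q hF
  let S : (Fin k → NOne F q) → Finset (Fin 10 → NOne F q) := fun ρ => univ.filter fun δ =>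
    ∑ l, C (Sum.inl l) * nv (δ l) = w - ∑ l, C (Sum.inr l) * nv (ρ l) ∧ ∏ l, δ l = P * (∏ l, ρ l)⁻¹
  have hS : ∀ ρ, 100 * (q + 1) ^ 2 < (S ρ).card := by
    intro ρ
    by_contra hc
    push Not at hc
    have h1 := count_ten hF (fun l => C (Sum.inl l)) hC (w - ∑ l, C (Sum.inr l) * nv (ρ l)) (P * (∏ l, ρ l)⁻¹)
    have h2 : ((S ρ).card : ℝ) ≤ 100 * ((q : ℝ) + 1) ^ 2 := by exact_mod_cast hc
    have h3 : (((q : ℤ) ^ 2 * (3 * q + 1) * (5 * (q : ℤ) ^ 2 - 2 * q - 1) * (q + 1) + 100 * q ^ 2 : ℤ) : ℝ) <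
        ((((q : ℤ) + 1) ^ 7 : ℤ) : ℝ) := Int.cast_lt.mpr (margin_pos hq)
    push_cast at h3
    have h4 : (0 : ℝ) ≤ (q : ℝ) ^ 2 * (q + 1) := by positivity
    have h5 := mul_le_mul_of_nonneg_left h2 h4
    have h6 : (0 : ℝ) < ((q : ℝ) + 1) ^ 3 := by positivity
    have h7 := mul_lt_mul_of_pos_left h3 h6
    nlinarith
  have hle : ∑ ρ, (S ρ).card ≤ (univ.filter fun δ : Fin 10 ⊕ Fin k → NOne F q =>
      ∑ l, C l * nv (δ l) = w ∧ ∏ l, δ l = P).card := by
    rw [← Finset.card_sigma]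
    refine Finset.card_le_card_of_injOn (fun s : Sigma fun _ : Fin k → NOne F q => Fin 10 → NOne F q =>
      Sum.elim s.2 s.1) (fun s hs => ?_) fun s _ s' _ h => ?_
    · rw [Finset.mem_coe, mem_sigma] at hs
      obtain ⟨hs1, hs2⟩ := (mem_filter.mp hs.2).2
      rw [Finset.mem_coe, mem_filter, Fintype.sum_sum_type, Fintype.prod_sum_type]
      simp only [Sum.elim_inl, Sum.elim_inr, hs1, hs2, sub_add_cancel, inv_mul_cancel_right]
      exact ⟨mem_univ _, trivial, trivial⟩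
    · obtain ⟨ρ, δ⟩ := s
      obtain ⟨ρ', δ'⟩ := s'
      have e1 : ρ = ρ' := funext fun l => congrFun h (Sum.inr l)
      have e2 : δ = δ' := funext fun l => congrFun h (Sum.inl l)
      rw [e1, e2]
  refine lt_of_lt_of_le ?_ hle
  calc (10 + k) ^ 2 * (q + 1) ^ 2 ≤ 100 * (q + 1) ^ k * (q + 1) ^ 2 := Nat.mul_le_mul_right _ (square_le_pow hq k)
    _ = ∑ _ρ : Fin k → NOne F q, 100 * (q + 1) ^ 2 := by
      rw [Finset.sum_const, Finset.card_univ, Fintype.card_fun, card_nOne hF, Fintype.card_fin, smul_eq_mul]; ring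
    _ < _ := Finset.sum_lt_sum_of_nonempty univ_nonempty fun ρ _ => hS ρ

omit [Fintype (NOne F q)] in
local notation "Mat" => Matrix (Fin n) (Fin n) F

open scoped Classical in
/-- A diagonal element can kill a row without making the image small. -/
theorem exists_killing_ten (hn : 10 ≤ n) (g : GL (Fin n) F) (y : Fin n → F) (hy : ∀ l, y l ≠ 0) (d : Fin n)
    (hrow : ∀ l l', ((g : Mat) *ᵥ Pi.single l 1) d = 0 → ((g : Mat) *ᵥ Pi.single l' 1) d = 0 → l = l') :
    ∃ δ : Fin n → F, (∀ l, δ l ^ (q + 1) = 1) ∧ ∏ l, δ l = 1 ∧ ((g : Mat) *ᵥ (δ * y)) d = 0 ∧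
      2 < (univ.filter fun l => ((g : Mat) *ᵥ (δ * y)) l ≠ 0).card := by
  obtain ⟨k, rfl⟩ := Nat.exists_eq_add_of_le hn
  obtain ⟨bad, hbad⟩ : ∃ bad, ∀ l, l ≠ bad → (g : Matrix (Fin (10 + k)) (Fin (10 + k)) F) d l * y l ≠ 0 := by
    by_cases hz : ∃ l, (g : Matrix (Fin (10 + k)) (Fin (10 + k)) F) d l = 0
    · obtain ⟨bad, hb⟩ := hz
      refine ⟨bad, fun l hl => mul_ne_zero (fun h0 => hl (hrow l bad ?_ ?_)) (hy l)⟩
      · simpa using h0
      · simpa using hb
    · push Not at hz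
      exact ⟨d, fun l _ => mul_ne_zero (hz l) (hy l)⟩
  let e : Fin 10 ⊕ Fin k ≃ Fin (10 + k) := finSumFinEquiv.trans (Equiv.swap (finSumFinEquiv (Sum.inl 4)) bad)
  have he : e (Sum.inl 4) = bad := by simp [e]
  set D := univ.filter fun δ : Fin 10 ⊕ Fin k → NOne F q =>
      ∑ l, (g : Matrix (Fin (10 + k)) (Fin (10 + k)) F) d (e l) * y (e l) * nv (δ l) = 0 ∧ ∏ l, δ l = 1 with hD
  have hcount := count_ge hF (fun l => (g : Matrix (Fin (10 + k)) (Fin (10 + k)) F) d (e l) * y (e l))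
    (fun l hl => hbad _ fun h => hl (Sum.inl_injective (e.injective (h.trans he.symm)))) 0 1
  let val : (Fin 10 ⊕ Fin k → NOne F q) → Fin (10 + k) → F := fun δ l => nv (δ (e.symm l))
  have hval : ∀ δ ∈ D, (∀ l, val δ l ^ (q + 1) = 1) ∧ ∏ l, val δ l = 1 ∧
      ((g : Matrix (Fin (10 + k)) (Fin (10 + k)) F) *ᵥ (val δ * y)) d = 0 := by
    intro δ hδ
    obtain ⟨h1, h2⟩ := (mem_filter.mp hδ).2
    refine ⟨fun l => nv_pow _, ?_, ?_⟩
    · rw [Fintype.prod_equiv e.symm (fun l => val δ l) (fun l => nv (δ l)) fun l => rfl]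
      have h3 := congrArg (fun u : NOne F q => nv u) h2
      simp only [nv] at h3 ⊢
      simpa using h3
    · simp only [Matrix.mulVec, dotProduct, val, Pi.mul_apply]
      refine Eq.trans ?_ h1
      refine Fintype.sum_equiv e.symm _ _ fun l => ?_
      rw [Equiv.apply_symm_apply]
      ring
  by_contra hsmall
  push Not at hsmall
  -- every solution would land in a coordinate plane
  let inv : Fin (10 + k) → Fin (10 + k) → F := fun j =>
    ((g⁻¹ : GL (Fin (10 + k)) F) : Matrix (Fin (10 + k)) (Fin (10 + k)) F) *ᵥ Pi.single j 1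
  let Z : Fin (10 + k) × Fin (10 + k) → Finset (Fin 10 ⊕ Fin k → NOne F q) := fun ij =>
    univ.filter fun δ => ∃ a b : F, val δ * y = a • inv ij.1 + b • inv ij.2 ∧ ij.1 ≠ ij.2
  have hsub : D ⊆ univ.biUnion Z := by
    intro δ hδ
    obtain ⟨h1, h2, h3⟩ := hval δ hδ
    set v := (g : Matrix (Fin (10 + k)) (Fin (10 + k)) F) *ᵥ (val δ * y) with hv
    have hc := hsmall _ h1 h2 h3
    obtain ⟨T, hsT, -, hT⟩ := Finset.exists_subsuperset_card_eq (Finset.subset_univ _) hc (by simp; omega)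
    obtain ⟨i, j, hij, rfl⟩ := Finset.card_eq_two.mp hT
    refine mem_biUnion.mpr ⟨(i, j), mem_univ _, mem_filter.mpr ⟨mem_univ _, v i, v j, ?_, hij⟩⟩
    have hv2 : v = v i • Pi.single i 1 + v j • Pi.single j 1 := by
      funext l
      by_cases hli : l = i
      · subst hli; simp [hij]
      by_cases hlj : l = j
      · subst hlj; simp [Ne.symm hij]
      have : v l = 0 := by
        by_contra h'
        have := hsT (mem_filter.mpr ⟨mem_univ _, h'⟩)
        simp [hli, hlj] at this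
      simp [hli, hlj, this]
    have h4 := congrArg (fun z => ((g⁻¹ : GL (Fin (10 + k)) F) : Matrix (Fin (10 + k)) (Fin (10 + k)) F) *ᵥ z) hv2
    simp only [hv, Cfsg.Agent.H98.gl_inv_mulVec, Matrix.mulVec_add, Matrix.mulVec_smul] at h4
    exact h4
  have hZ : ∀ ij, (Z ij).card ≤ (q + 1) ^ 2 := by
    rintro ⟨i, j⟩
    by_cases hij : i = j
    · simp [Z, hij]
    -- two coordinates determine the pair of coefficients
    obtain ⟨r, hr⟩ := Function.ne_iff.mp (gl_single_ne_zero g⁻¹ i)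
    have hr : inv i r ≠ 0 := hr
    obtain ⟨s, hs⟩ : ∃ s, inv j s * inv i r - inv j r * inv i s ≠ 0 := by
      by_contra hc
      push Not at hc
      have h1 : inv i r • inv j = inv j r • inv i := funext fun s => by
        simp only [Pi.smul_apply, smul_eq_mul]; linear_combination hc s
      simp only [inv, ← Matrix.mulVec_smul] at h1
      have h2 := congrFun (Cfsg.Agent.H98.gl_mulVec_injective g⁻¹ h1) j
      simp [Ne.symm hij] at h2
      exact hr (by simpa [inv] using h2)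
    refine le_trans (Finset.card_le_card_of_injOn (fun δ => (δ (e.symm r), δ (e.symm s)))
      (fun _ _ => Finset.mem_coe.mpr (mem_univ _)) ?_) (by rw [Finset.card_univ, Fintype.card_prod, card_nOne hF, sq])
    intro δ hδ δ' hδ' h
    rw [Finset.mem_coe, mem_filter] at hδ hδ'
    obtain ⟨a, b, hab, -⟩ := hδ.2
    obtain ⟨a', b', hab', -⟩ := hδ'.2
    simp only [Prod.mk.injEq] at h
    have er := congrFun hab r
    have es := congrFun hab s
    have er' := congrFun hab' r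
    have es' := congrFun hab' s
    simp only [val, Pi.mul_apply, Pi.add_apply, Pi.smul_apply, smul_eq_mul, h.1, h.2] at er es er' es'
    have hb : b = b' := mul_right_cancel₀ hs (by linear_combination inv i r * (es' - es) - inv i s * (er' - er))
    have ha : a = a' := mul_right_cancel₀ hr (by subst hb; linear_combination er' - er)
    funext l
    have e1 := congrFun hab (e l)
    have e2 := congrFun hab' (e l)
    rw [ha, hb, ← e2] at e1
    simp only [val, Pi.mul_apply, Equiv.symm_apply_apply] at e1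
    exact nv_injective (mul_right_cancel₀ (hy _) e1)
  have h1 := (Finset.card_le_card hsub).trans (Finset.card_biUnion_le.trans (Finset.sum_le_sum fun ij _ => hZ ij))
  rw [Finset.sum_const, Finset.card_univ, Fintype.card_prod, Fintype.card_fin, smul_eq_mul] at h1
  rw [← sq] at h1
  exact absurd (hcount.trans_le h1) (lt_irrefl _)

end Cfsg.Agent.H60.SULow
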