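import Cfsg.Agent.H60.SULow.Mono

set_option autoImplicit false
set_option linter.unusedSectionVars false

/-!
# The monomial subgroup of `SU` in dimension six

For `q > 2`.  Conjugates of a monomial double transposition give elements with a zero on the diagonal; a pair of
compensated homologies then shows that mixed elements cannot spread.
-/

namespace Cfsg.Agent.H60.SULow

open scoped Matrix Classical
open Cfsg.Agent.H98 Cfsg.Agent.H3

variable {F : Type*} [Field F] [Fintype F] {q n t k : ℕ}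

local notation "Mat" => Matrix (Fin n) (Fin n) F
local notation "h" => Cfsg.hermForm n F q
local notation "G₁" => Cfsg.GU n F q ⊓ Cfsg.Geo.specialLinear (Fin n) F

/-- Products of monomial maps are monomial. -/
theorem monom_mul {a b : GL (Fin n) F} (ha : IsMonom a) (hb : IsMonom b) : IsMonom (a * b) := fun l => by
  obtain ⟨k, β, hβ, hk⟩ := exists_axis (hb l) (gl_single_ne_zero b l)
  obtain ⟨o, γ, hγ, ho⟩ := exists_axis (ha k) (gl_single_ne_zero a k)
  rw [Units.val_mul, ← Matrix.mulVec_mulVec, hk, Matrix.mulVec_smul, ho, smul_smul]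
  exact isAxis_smul_single _ _

variable (hF : Fintype.card F = q ^ 2)
include hF

/-- Conjugate of a pair of compensated homologies. -/
theorem conj_pair {g : GL (Fin n) F} (hgU : g ∈ Cfsg.GU n F q) {d d' : Fin n} (hdd : d ≠ d') {a : F}
    {δ : Fin n → F} (hδ : ∀ l, δ l ^ (q + 1) = 1) (hd : δ d = a) (hd' : δ d' = a ^ q)
    (ho : ∀ l, l ≠ d → l ≠ d' → δ l = 1) (v : Fin n → F) :
    ((g * (guDiag (q := q) δ hδ).1 * g⁻¹ : GL (Fin n) F) : Mat) *ᵥ v =
      v + ((a - 1) * h v ((g : Mat) *ᵥ Pi.single d 1)) • (g : Mat) *ᵥ Pi.single d 1 +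
        ((a ^ q - 1) * h v ((g : Mat) *ᵥ Pi.single d' 1)) • (g : Mat) *ᵥ Pi.single d' 1 := by
  rw [Units.val_mul, Units.val_mul, ← Matrix.mulVec_mulVec, ← Matrix.mulVec_mulVec,
    herm_image hF hgU, herm_image hF hgU]
  set w := ((g⁻¹ : GL (Fin n) F) : Mat) *ᵥ v with hw
  have hdw : ((guDiag (q := q) δ hδ).1 : Mat) *ᵥ w =
      w + ((a - 1) * w d) • Pi.single d 1 + ((a ^ q - 1) * w d') • Pi.single d' 1 := by
    ext l
    by_cases h1 : l = d
    · subst h1; simp [guDiag, Matrix.mulVec_diagonal, hd, hdd]; ring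
    by_cases h2 : l = d'
    · subst h2; simp [guDiag, Matrix.mulVec_diagonal, hd', h1]; ring
    simp [guDiag, Matrix.mulVec_diagonal, ho l h1 h2, h1, h2]
  rw [hdw, Matrix.mulVec_add, Matrix.mulVec_add, Matrix.mulVec_smul, Matrix.mulVec_smul, hw, gl_mulVec_inv]

section Spread

variable {M : Subgroup (GL (Fin n) F)} (hMK : M ≤ Cfsg.GU n F q ⊓ Cfsg.Geo.specialLinear (Fin n) F) (hdiag : HasDiag q M) (hspread : Spreading M)
include hMK hdiag hspread

/-- Two zeros in one row force two columns on two coordinates. -/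
theorem two_zeros_two (hq : 3 ≤ q) {g : GL (Fin n) F} (hg : g ∈ M) (hgm : ¬ IsMonom g) {c d d' : Fin n}
    (hdd : d ≠ d') (hd : ((g : Mat) *ᵥ Pi.single d 1) c = 0) (hd' : ((g : Mat) *ᵥ Pi.single d' 1) c = 0) :
    (Finset.univ.filter fun l => ((g : Mat) *ᵥ Pi.single d 1) l ≠ 0).card ≤ 2 ∧
      ∀ l, ((g : Mat) *ᵥ Pi.single d 1) l ≠ 0 → ((g : Mat) *ᵥ Pi.single d' 1) l ≠ 0 := by
  obtain ⟨-, hsub⟩ := two_zeros_row hF hMK hdiag hspread hg hgm hdd hd hd'
  refine ⟨?_, hsub⟩
  set r := (g : Mat) *ᵥ Pi.single d 1 with hrdef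
  set r' := (g : Mat) *ᵥ Pi.single d' 1 with hr'def
  by_contra hc
  push Not at hc
  obtain ⟨k, l, m, hk, hl, hm, hkl, hkm, hlm⟩ := Finset.two_lt_card_iff.mp hc
  rw [Finset.mem_filter] at hk hl hm
  let ρ : Fin n → F := fun o => (r k ^ q * r o / (r' k ^ q * r' o)) ^ q
  have hin : (normOne q F).erase 1 ⊆ ({ρ l, ρ m} : Finset F) := by
    intro a ha
    rw [Finset.mem_erase, mem_normOne] at ha
    obtain ⟨ha1, ha⟩ := ha
    have haa := norm_one_conj hF ha
    let δ : Fin n → F := fun o => if o = d then a else if o = d' then a ^ q else 1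
    have hδ : ∀ o, δ o ^ (q + 1) = 1 := fun o => by
      simp only [δ]
      split_ifs
      · exact ha
      · rw [← pow_mul, mul_comm, pow_mul, ha, one_pow]
      · exact one_pow _
    have hδp : ∏ o, δ o = 1 := by
      rw [Fintype.prod_eq_mul d d' hdd fun o ho => by simp [δ, ho.1, ho.2]]
      simp [δ, hdd.symm, haa]
    have hx := conj_pair hF (hMK hg).1 hdd hδ (a := a) (by simp [δ]) (by simp [δ, hdd.symm])
      (fun o h1 h2 => by simp [δ, h1, h2])
    have hmon := hspread _ (M.mul_mem (M.mul_mem hg (hdiag δ hδ hδp)) (M.inv_mem hg)) c (by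
      rw [hx, hermForm_single_left, hermForm_single_left, ← hrdef, ← hr'def, hd, hd', zero_pow (by omega)]
      simpa using isAxis_single c)
    have hent : ∀ o, o ≠ k → ((g * (guDiag (q := q) δ hδ).1 * g⁻¹ : GL (Fin n) F) : Mat).mulVec (Pi.single k 1) o =
        (a - 1) * (r k ^ q * r o - a ^ q * (r' k ^ q * r' o)) := fun o ho => by
      rw [hx, hermForm_single_left, hermForm_single_left]
      simp [ho, ← hrdef, ← hr'def]
      linear_combination (r' k ^ q * r' o) * haa
    have hval : ∀ o, (r o ≠ 0) → r k ^ q * r o = a ^ q * (r' k ^ q * r' o) → a = ρ o := fun o ho he => by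
      have h1 : r' k ^ q * r' o ≠ 0 := mul_ne_zero (pow_ne_zero q (hsub k hk.2)) (hsub o ho)
      simp only [ρ]
      rw [he, mul_div_assoc, div_self h1, mul_one, pow_q_pow_q hF]
    rw [Finset.mem_insert, Finset.mem_singleton]
    by_contra hne
    rw [not_or] at hne
    refine hlm (hmon k l m ?_ ?_)
    · rw [hent l (Ne.symm hkl)]
      exact mul_ne_zero (sub_ne_zero.mpr ha1) (sub_ne_zero.mpr fun he => hne.1 (hval l hl.2 he))
    · rw [hent m (Ne.symm hkm)]
      exact mul_ne_zero (sub_ne_zero.mpr ha1) (sub_ne_zero.mpr fun he => hne.2 (hval m hm.2 he))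
  have h1 := (Finset.card_le_card hin).trans Finset.card_le_two
  rw [Finset.card_erase_of_mem (mem_normOne.mpr (one_pow _)), card_normOne hF] at h1
  omega

/-- The rows through two small columns are small. -/
theorem row_small (hq : 3 ≤ q) {g : GL (Fin n) F} (hg : g ∈ M) (hgm : ¬ IsMonom g) {c d d' : Fin n}
    (hdd : d ≠ d') (hd : ((g : Mat) *ᵥ Pi.single d 1) c = 0) (hd' : ((g : Mat) *ᵥ Pi.single d' 1) c = 0)
    {p : Fin n} (hp : ((g : Mat) *ᵥ Pi.single d 1) p ≠ 0) {l : Fin n} (hld : l ≠ d) (hld' : l ≠ d') :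
    ((g : Mat) *ᵥ Pi.single l 1) p = 0 := by
  have hgI : ∀ a b, h ((g : Mat) *ᵥ a) ((g : Mat) *ᵥ b) = h a b := (hMK hg).1
  obtain ⟨hcard, hsub⟩ := two_zeros_two hF hMK hdiag hspread hq hg hgm hdd hd hd'
  obtain ⟨-, hsub'⟩ := two_zeros_two hF hMK hdiag hspread hq hg hgm (Ne.symm hdd) hd' hd
  set r := (g : Mat) *ᵥ Pi.single d 1 with hrdef
  set r' := (g : Mat) *ᵥ Pi.single d' 1 with hr'def
  set x := (g : Mat) *ᵥ Pi.single l 1 with hxdef
  have horth : h r r' = 0 := by rw [hrdef, hr'def, hgI, herm_single_right hF, Pi.single_eq_of_ne hdd.symm]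
  have hr'1 : h r' r' = 1 := by rw [hr'def, hgI, herm_single_right hF, Pi.single_eq_same]
  have hxr : h x r = 0 := by rw [hrdef, hxdef, hgI, herm_single_right hF, Pi.single_eq_of_ne hld.symm]
  have hxr' : h x r' = 0 := by rw [hr'def, hxdef, hgI, herm_single_right hF, Pi.single_eq_of_ne hld'.symm]
  obtain ⟨p', hp'ne, hp'⟩ : ∃ p', p' ≠ p ∧ r p' ≠ 0 := by
    by_contra hh
    push Not at hh
    have : h r r' = r p * r' p ^ q := by
      rw [Cfsg.hermForm]
      exact Fintype.sum_eq_single p fun o ho => by rw [hh o ho, zero_mul]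
    rw [horth] at this
    exact mul_ne_zero hp (pow_ne_zero q (hsub p hp)) this.symm
  have hsupp : ∀ o, o ≠ p → o ≠ p' → r o = 0 := fun o h1 h2 => by
    by_contra ho
    have := Finset.card_le_card (s := ({p, p', o} : Finset (Fin n)))
      (t := Finset.univ.filter fun z => r z ≠ 0) (fun z hz => by
        simp only [Finset.mem_insert, Finset.mem_singleton] at hz
        rw [Finset.mem_filter]
        rcases hz with rfl | rfl | rfl <;> exact ⟨Finset.mem_univ _, by assumption⟩)
    rw [Finset.card_eq_three.mpr ⟨p, p', o, hp'ne.symm, Ne.symm h1, Ne.symm h2, rfl⟩] at this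
    omega
  have hsupp' : ∀ o, o ≠ p → o ≠ p' → r' o = 0 := fun o h1 h2 => by
    by_contra ho
    exact hsub' o ho (hsupp o h1 h2)
  have hsum : ∀ u : Fin n → F, ∀ w : Fin n → F, (∀ o, o ≠ p → o ≠ p' → w o = 0) →
      h u w = u p * w p ^ q + u p' * w p' ^ q := fun u w hw => by
    rw [Cfsg.hermForm]
    exact Fintype.sum_eq_add p p' hp'ne.symm fun o ho => by
      rw [hw o ho.1 ho.2, zero_pow (by omega), mul_zero]
  rw [hsum _ _ hsupp'] at horth hr'1 hxr'
  rw [hsum _ _ hsupp] at hxr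
  have hD : r p * r' p' - r p' * r' p ≠ 0 := fun hD => hp (by
    linear_combination r' p * horth - r p * hr'1 + (r' p' ^ q) * hD)
  have hD' : r p ^ q * r' p' ^ q - r p' ^ q * r' p ^ q ≠ 0 := by
    intro h0
    refine hD (eq_zero_of_pow_eq_zero (n := q) ?_)
    rw [← conjQ_apply hF, map_sub, map_mul, map_mul, conjQ_apply hF, conjQ_apply hF, conjQ_apply hF, conjQ_apply hF]
    exact h0
  have : x p * (r p ^ q * r' p' ^ q - r p' ^ q * r' p ^ q) = 0 := by
    linear_combination r' p' ^ q * hxr - r p' ^ q * hxr'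
  exact (mul_eq_zero.mp this).resolve_right hD'

/-- Every row of a mixed element has at most one zero. -/
theorem one_zero_row₅ (hn : 5 ≤ n) (hq : 3 ≤ q) {g : GL (Fin n) F} (hg : g ∈ M) (hgm : ¬ IsMonom g) {c d d' : Fin n}
    (hd : ((g : Mat) *ᵥ Pi.single d 1) c = 0) (hd' : ((g : Mat) *ᵥ Pi.single d' 1) c = 0) : d = d' := by
  by_contra hdd
  obtain ⟨p, hp⟩ := Function.ne_iff.mp (gl_single_ne_zero g d)
  obtain ⟨l₁, -, h₁⟩ := Finset.exists_mem_notMem_of_card_lt_card (s := ({d, d'} : Finset (Fin n))) (t := Finset.univ)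
    (lt_of_le_of_lt Finset.card_le_two (by simp; omega))
  obtain ⟨l₂, -, h₂⟩ := Finset.exists_mem_notMem_of_card_lt_card (s := ({d, d', l₁} : Finset (Fin n)))
    (t := Finset.univ) (lt_of_le_of_lt Finset.card_le_three (by simp; omega))
  obtain ⟨l₃, -, h₃⟩ := Finset.exists_mem_notMem_of_card_lt_card (s := ({d, d', l₁, l₂} : Finset (Fin n)))
    (t := Finset.univ) (lt_of_le_of_lt Finset.card_le_four (by simp; omega))
  simp only [Finset.mem_insert, Finset.mem_singleton, not_or] at h₁ h₂ h₃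
  have hz := fun (l : Fin n) (ha : l ≠ d) (hb : l ≠ d') =>
    row_small hF hMK hdiag hspread hq hg hgm hdd hd hd' hp ha hb
  have z₁ := hz l₁ h₁.1 h₁.2
  have z₂ := hz l₂ h₂.1 h₂.2.1
  have z₃ := hz l₃ h₃.1 h₃.2.1
  obtain ⟨s, hs⟩ := Function.ne_iff.mp (gl_single_ne_zero g l₁)
  exact (two_zeros_two hF hMK hdiag hspread hq hg hgm (Ne.symm h₃.2.2.1) z₁ z₃).2 s hs
    (row_small hF hMK hdiag hspread hq hg hgm (Ne.symm h₂.2.2) z₁ z₂ hs h₃.2.2.1 h₃.2.2.2)

/-- Every column of a mixed element has at most one zero. -/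
theorem one_zero_col₅ (hn : 5 ≤ n) (hq : 3 ≤ q) {g : GL (Fin n) F} (hg : g ∈ M) (hgm : ¬ IsMonom g) {c c' d : Fin n}
    (hc : ((g : Mat) *ᵥ Pi.single d 1) c = 0) (hc' : ((g : Mat) *ᵥ Pi.single d 1) c' = 0) : c = c' := by
  have hq0 : q ≠ 0 := by omega
  exact one_zero_row₅ hF hMK hdiag hspread hn hq (M.inv_mem hg) (fun h' => hgm (monom_inv h'))
    (c := d) (by rw [inv_entry hF (hMK hg).1, hc, zero_pow hq0])
    (by rw [inv_entry hF (hMK hg).1, hc', zero_pow hq0])

end Spread

/-- Two trace images of norm-one circles meet doubly. -/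
theorem exists_double {A B : F} (hA : A ≠ 0) (hB : B ≠ 0) {z : F} (hz : z ^ q = z) :
    (∃ ν₁ ν₂ ν' : F, ν₁ ^ (q + 1) = 1 ∧ ν₂ ^ (q + 1) = 1 ∧ ν' ^ (q + 1) = 1 ∧ ν₁ ≠ ν₂ ∧
      ν₁ * A + (ν₁ * A) ^ q + (ν' * B + (ν' * B) ^ q) = z ∧ ν₂ * A + (ν₂ * A) ^ q + (ν' * B + (ν' * B) ^ q) = z) ∨
    (∃ ν₁ ν₂ ν' : F, ν₁ ^ (q + 1) = 1 ∧ ν₂ ^ (q + 1) = 1 ∧ ν' ^ (q + 1) = 1 ∧ ν₁ ≠ ν₂ ∧
      ν₁ * B + (ν₁ * B) ^ q + (ν' * A + (ν' * A) ^ q) = z ∧ ν₂ * B + (ν₂ * B) ^ q + (ν' * A + (ν' * A) ^ q) = z) := by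
  let f : F → F → F := fun A ν => ν * A + (ν * A) ^ q
  have hfix : ∀ A ν, f A ν ^ q = f A ν := fun A ν => by
    simp only [f]
    rw [add_pow_q hF, pow_q_pow_q hF, add_comm]
  have hfib : ∀ {A : F}, A ≠ 0 → ∀ t, ((normOne q F).filter fun ν => f A ν = t).card ≤ 2 := by
    intro A hA t
    by_cases he : ((normOne q F).filter fun ν => f A ν = t) = ∅
    · simp [he]
    obtain ⟨μ, hμ⟩ := Finset.nonempty_iff_ne_empty.mpr he
    rw [Finset.mem_filter, mem_normOne] at hμ
    refine (Finset.card_le_card (t := ({μ, (μ * A) ^ q / A} : Finset F)) fun ν hν => ?_).trans Finset.card_le_two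
    rw [Finset.mem_filter, mem_normOne] at hν
    have e1 : ν * A + (ν * A) ^ q = μ * A + (μ * A) ^ q := hν.2.trans hμ.2.symm
    have e2 : (ν * A) * (ν * A) ^ q = (μ * A) * (μ * A) ^ q := by
      rw [← pow_succ', ← pow_succ', mul_pow, mul_pow, hν.1, hμ.1]
    have e3 : (ν * A - μ * A) * (ν * A - (μ * A) ^ q) = 0 := by linear_combination (ν * A) * e1 - e2
    rw [Finset.mem_insert, Finset.mem_singleton]
    rcases mul_eq_zero.mp e3 with e | e
    · exact Or.inl (mul_right_cancel₀ hA (sub_eq_zero.mp e))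
    · exact Or.inr (by rw [eq_div_iff hA]; exact sub_eq_zero.mp e)
  set Q := Finset.univ.filter fun x : F => x ^ q = x with hQdef
  have hQ : Q.card = q := by
    rw [hQdef, ← Fintype.card_subtype, ← Nat.card_eq_fintype_card, card_fixed hF]
  let img : F → Finset F := fun A => (normOne q F).image (f A)
  let one : F → Finset F := fun A => (img A).filter fun t => ((normOne q F).filter fun ν => f A ν = t).card ≤ 1
  have hcount : ∀ {A : F}, A ≠ 0 → q + 1 + (one A).card ≤ 2 * (img A).card := by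
    intro A hA
    have h1 := Finset.card_eq_sum_card_image (f A) (normOne q F)
    rw [card_normOne hF] at h1
    rw [h1]
    simp only [one, Finset.card_filter (fun t => ((normOne q F).filter fun ν => f A ν = t).card ≤ 1) (img A)]
    rw [← Finset.sum_add_distrib]
    refine (Finset.sum_le_sum (g := fun _ => 2) fun t _ => ?_).trans (by simp [img, mul_comm])
    have := hfib hA t
    split_ifs <;> omega
  let img' : Finset F := (img B).image fun s => z - s
  have hi : img'.card = (img B).card := Finset.card_image_of_injective _ sub_right_injective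
  have hun : (img A ∪ img') ⊆ Q := fun t ht => by
    refine Finset.mem_filter.mpr ⟨Finset.mem_univ _, ?_⟩
    simp only [img, img', Finset.mem_union, Finset.mem_image] at ht
    rcases ht with ⟨ν, -, rfl⟩ | ⟨s, ⟨ν, -, rfl⟩, rfl⟩
    · exact hfix A ν
    · rw [← conjQ_apply hF, map_sub, conjQ_apply hF, conjQ_apply hF, hz, hfix]
  have hui := Finset.card_union_add_card_inter (img A) img'
  have hle := Finset.card_le_card hun
  have hcA := hcount hA
  have hcB := hcount hB
  obtain ⟨t, ht, hd⟩ : ∃ t ∈ img A ∩ img', t ∉ one A ∨ z - t ∉ one B := by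
    by_contra hc
    push Not at hc
    have h1 : (img A ∩ img').card ≤ (one A).card := Finset.card_le_card fun t ht => (hc t ht).1
    have h2 : (img A ∩ img').card ≤ (one B).card :=
      Finset.card_le_card_of_injOn (fun t => z - t) (fun t ht => (hc t ht).2) (sub_right_injective.injOn)
    omega
  obtain ⟨htA, htB⟩ := Finset.mem_inter.mp ht
  obtain ⟨s, hs, hst⟩ := Finset.mem_image.mp htB
  have hs' : z - t = s := by rw [← hst]; ring
  rcases hd with hd | hd
  · left
    have h2 : 1 < ((normOne q F).filter fun ν => f A ν = t).card :=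
      not_le.mp fun hh => hd (Finset.mem_filter.mpr ⟨htA, hh⟩)
    obtain ⟨ν₁, ν₂, h₁, h₂, hne⟩ := Finset.one_lt_card_iff.mp h2
    rw [Finset.mem_filter, mem_normOne] at h₁ h₂
    obtain ⟨ν', hν', e'⟩ := Finset.mem_image.mp hs
    refine ⟨ν₁, ν₂, ν', h₁.1, h₂.1, mem_normOne.mp hν', hne, ?_, ?_⟩
    · change f A ν₁ + f B ν' = z; rw [h₁.2, e', ← hs']; ring
    · change f A ν₂ + f B ν' = z; rw [h₂.2, e', ← hs']; ring
  · right
    rw [hs'] at hd
    have h2 : 1 < ((normOne q F).filter fun ν => f B ν = s).card :=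
      not_le.mp fun hh => hd (Finset.mem_filter.mpr ⟨hs, hh⟩)
    obtain ⟨ν₁, ν₂, h₁, h₂, hne⟩ := Finset.one_lt_card_iff.mp h2
    rw [Finset.mem_filter, mem_normOne] at h₁ h₂
    obtain ⟨ν', hν', e'⟩ := Finset.mem_image.mp htA
    refine ⟨ν₁, ν₂, ν', h₁.1, h₂.1, mem_normOne.mp hν', hne, ?_, ?_⟩
    · change f B ν₁ + f A ν' = z; rw [h₁.2, e', ← hs']; ring
    · change f B ν₂ + f A ν' = z; rw [h₂.2, e', ← hs']; ring

variable {M : Subgroup (GL (Fin n) F)}

/-- Some mixed element has a zero entry. -/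
theorem exists_zero₅ (hn : 5 ≤ n) (hMK : M ≤ G₁) (hmono : ∀ m ∈ G₁, IsMonom m → m ∈ M)
    {g : GL (Fin n) F} (hg : g ∈ M) (hgm : ¬ IsMonom g) :
    ∃ x ∈ M, ¬ IsMonom x ∧ ∃ c d, (((x : GL (Fin n) F) : Mat) *ᵥ Pi.single c 1) d = 0 := by
  by_cases hz : ∃ c d, ((g : Mat) *ᵥ Pi.single c 1) d = 0
  · exact ⟨g, hg, hgm, hz⟩
  push Not at hz
  have hq0 : q ≠ 0 := by have := two_le_q hF; omega
  have hgU : g ∈ Cfsg.GU n F q := (hMK hg).1
  have hgI : ∀ a b, h ((g : Mat) *ᵥ a) ((g : Mat) *ᵥ b) = h a b := hgU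
  let c : Fin n := ⟨0, by omega⟩
  set u := ((g⁻¹ : GL (Fin n) F) : Mat) *ᵥ Pi.single c 1 with hu
  let G : Fin n → F := fun l => ((g : Mat) *ᵥ Pi.single l 1) c
  have hul : ∀ l, u l = G l ^ q := fun l => by rw [hu, inv_entry hF hgU]
  -- the diagonal entries
  have hdiagonal : ∀ i j a b : Fin n, i ≠ j → a ≠ b → i ≠ a → i ≠ b → j ≠ a → j ≠ b → ∀ ν ν' : F,
      ν ^ (q + 1) = 1 → ν' ^ (q + 1) = 1 → ∃ m ∈ G₁, IsMonom m ∧
        (∀ v l, ((m : GL (Fin n) F) : Mat).mulVec v l = (if l = i then ν * v j else if l = j then ν ^ q * v i else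
          if l = a then ν' * v b else if l = b then ν' ^ q * v a else v l)) ∧
        (((g * m * g⁻¹ : GL (Fin n) F) : Mat) *ᵥ Pi.single c 1) c =
          ν * (G i * u j) + (ν * (G i * u j)) ^ q + (ν' * (G a * u b) + (ν' * (G a * u b)) ^ q) +
            ∑ l ∈ ({i, j, a, b} : Finset (Fin n))ᶜ, G l * u l := by
    intro i j a b hij hab hia hib hja hjb ν ν' hν hν'
    let s : Fin n → F := fun l =>
      if l = i then ν else if l = j then ν ^ q else if l = a then ν' else if l = b then ν' ^ q else 1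
    have hs : ∀ l, s l ^ (q + 1) = 1 := fun l => by
      simp only [s]
      split_ifs
      · exact hν
      · rw [← pow_mul, mul_comm, pow_mul, hν, one_pow]
      · exact hν'
      · rw [← pow_mul, mul_comm, pow_mul, hν', one_pow]
      · exact one_pow _
    have hsp : ∏ l, s l = 1 := by
      rw [← Finset.prod_subset (Finset.subset_univ ({i, j, a, b} : Finset (Fin n))) fun l _ hl => by
        simp only [Finset.mem_insert, Finset.mem_singleton, not_or] at hl
        simp [s, hl.1, hl.2.1, hl.2.2.1, hl.2.2.2]]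
      rw [Finset.prod_insert (by simp [hij, hia, hib]), Finset.prod_insert (by simp [hja, hjb]),
        Finset.prod_insert (by simp [hab]), Finset.prod_singleton]
      simp only [s, if_true, hij.symm, hia.symm, hja.symm, hib.symm, hjb.symm, hab.symm, if_false]
      linear_combination (ν' * ν' ^ q) * norm_one_conj hF hν + norm_one_conj hF hν'
    set π := Equiv.swap i j * Equiv.swap a b with hπ
    obtain ⟨m, hm, hmv⟩ := exists_mono_of_prod hF π s hs (by
      rw [hsp, hπ, map_mul, Equiv.Perm.sign_swap hij, Equiv.Perm.sign_swap hab]; norm_num)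
    have hπi : π.symm i = j := by rw [Equiv.symm_apply_eq, hπ, Equiv.Perm.mul_apply,
      Equiv.swap_apply_of_ne_of_ne hja hjb, Equiv.swap_apply_right]
    have hπj : π.symm j = i := by rw [Equiv.symm_apply_eq, hπ, Equiv.Perm.mul_apply,
      Equiv.swap_apply_of_ne_of_ne hia hib, Equiv.swap_apply_left]
    have hπa : π.symm a = b := by rw [Equiv.symm_apply_eq, hπ, Equiv.Perm.mul_apply,
      Equiv.swap_apply_right, Equiv.swap_apply_of_ne_of_ne hia.symm hja.symm]
    have hπb : π.symm b = a := by rw [Equiv.symm_apply_eq, hπ, Equiv.Perm.mul_apply,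
      Equiv.swap_apply_left, Equiv.swap_apply_of_ne_of_ne hib.symm hjb.symm]
    have hπo : ∀ l, l ≠ i → l ≠ j → l ≠ a → l ≠ b → π.symm l = l := fun l h1 h2 h3 h4 => by
      rw [Equiv.symm_apply_eq, hπ, Equiv.Perm.mul_apply, Equiv.swap_apply_of_ne_of_ne h3 h4,
        Equiv.swap_apply_of_ne_of_ne h1 h2]
    have hform : ∀ v l, (m : Mat).mulVec v l = (if l = i then ν * v j else if l = j then ν ^ q * v i else
        if l = a then ν' * v b else if l = b then ν' ^ q * v a else v l) := fun v l => by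
      rw [hmv]
      simp only [s]
      split_ifs with h1 h2 h3 h4
      · rw [h1, hπi]
      · rw [h2, hπj]
      · rw [h3, hπa]
      · rw [h4, hπb]
      · rw [hπo l h1 h2 h3 h4, one_mul]
    refine ⟨m, hm, isMonom_of_mono hmv, hform, ?_⟩
    rw [Units.val_mul, Units.val_mul, ← Matrix.mulVec_mulVec, ← Matrix.mulVec_mulVec, ← hu]
    set w := (m : Mat) *ᵥ u with hw
    have hgw : ((g : Mat) *ᵥ w) c = ∑ l, G l * w l := by
      simp only [G, Matrix.mulVec_single_one]; rfl
    rw [hgw, ← Finset.sum_add_sum_compl ({i, j, a, b} : Finset (Fin n))]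
    congr 1
    · rw [Finset.sum_insert (by simp [hij, hia, hib]), Finset.sum_insert (by simp [hja, hjb]),
        Finset.sum_insert (by simp [hab]), Finset.sum_singleton, hw, hform, hform, hform, hform]
      simp only [if_true, hij.symm, hia.symm, hja.symm, hib.symm, hjb.symm, hab.symm, if_false, hul]
      simp only [mul_pow, pow_q_pow_q hF]
      ring
    · refine Finset.sum_congr rfl fun l hl => ?_
      simp only [Finset.mem_compl, Finset.mem_insert, Finset.mem_singleton, not_or] at hl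
      rw [hw, hform, if_neg hl.1, if_neg hl.2.1, if_neg hl.2.2.1, if_neg hl.2.2.2]
  -- two choices differing by a pair of homologies
  have key : ∀ i j a b : Fin n, i ≠ j → a ≠ b → i ≠ a → i ≠ b → j ≠ a → j ≠ b → ∀ ν₁ ν₂ ν' : F,
      ν₁ ^ (q + 1) = 1 → ν₂ ^ (q + 1) = 1 → ν' ^ (q + 1) = 1 → ν₁ ≠ ν₂ →
      ν₁ * (G i * u j) + (ν₁ * (G i * u j)) ^ q + (ν' * (G a * u b) + (ν' * (G a * u b)) ^ q) =
        -∑ l ∈ ({i, j, a, b} : Finset (Fin n))ᶜ, G l * u l →
      ν₂ * (G i * u j) + (ν₂ * (G i * u j)) ^ q + (ν' * (G a * u b) + (ν' * (G a * u b)) ^ q) =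
        -∑ l ∈ ({i, j, a, b} : Finset (Fin n))ᶜ, G l * u l →
      ∃ x ∈ M, ¬ IsMonom x ∧ ∃ c d, (((x : GL (Fin n) F) : Mat) *ᵥ Pi.single c 1) d = 0 := by
    intro i j a b hij hab hia hib hja hjb ν₁ ν₂ ν' hν₁ hν₂ hν' hne e₁ e₂
    obtain ⟨m₁, hm₁, hm₁m, hf₁, hc₁⟩ := hdiagonal i j a b hij hab hia hib hja hjb ν₁ ν' hν₁ hν'
    obtain ⟨m₂, hm₂, hm₂m, hf₂, hc₂⟩ := hdiagonal i j a b hij hab hia hib hja hjb ν₂ ν' hν₂ hν'
    have hy₁ := M.mul_mem (M.mul_mem hg (hmono m₁ hm₁ hm₁m)) (M.inv_mem hg)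
    have hy₂ := M.mul_mem (M.mul_mem hg (hmono m₂ hm₂ hm₂m)) (M.inv_mem hg)
    by_cases hm1 : IsMonom (g * m₁ * g⁻¹)
    swap
    · exact ⟨_, hy₁, hm1, c, c, by rw [hc₁, e₁, neg_add_cancel]⟩
    by_cases hm2 : IsMonom (g * m₂ * g⁻¹)
    swap
    · exact ⟨_, hy₂, hm2, c, c, by rw [hc₂, e₂, neg_add_cancel]⟩
    exfalso
    set α := ν₁ * ν₂ ^ q with hα
    have hα1 : α ^ (q + 1) = 1 := by rw [hα, mul_pow, hν₁, ← pow_mul, mul_comm q, pow_mul, hν₂, one_pow, one_mul]
    have hαne : α ≠ 1 := fun e => hne (by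
      linear_combination ν₂ * e - ν₁ * norm_one_conj hF hν₂)
    let δ : Fin n → F := fun l => if l = i then α else if l = j then α ^ q else 1
    have hδ : ∀ l, δ l ^ (q + 1) = 1 := fun l => by
      simp only [δ]
      split_ifs
      · exact hα1
      · rw [← pow_mul, mul_comm, pow_mul, hα1, one_pow]
      · exact one_pow _
    have hm12 : (guDiag (q := q) δ hδ).1 * m₂ = m₁ := by
      refine gl_ext fun v => funext fun l => ?_
      rw [Units.val_mul, ← Matrix.mulVec_mulVec]
      simp only [guDiag, Matrix.mulVec_diagonal]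
      rw [hf₁, hf₂]
      simp only [δ]
      by_cases h1 : l = i
      · subst h1; simp [hα]; linear_combination (ν₁ * v j) * norm_one_conj hF hν₂
      by_cases h2 : l = j
      · subst h2
        simp [h1, hα, mul_pow, pow_q_pow_q hF]
        linear_combination (ν₁ ^ q * v i) * norm_one_conj hF hν₂
      simp [h1, h2]
    have hx : (g * (guDiag (q := q) δ hδ).1 * g⁻¹ : GL (Fin n) F) = g * m₁ * g⁻¹ * (g * m₂ * g⁻¹)⁻¹ := by
      rw [← hm12]; group
    have hmon : IsMonom (g * (guDiag (q := q) δ hδ).1 * g⁻¹) := by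
      rw [hx]; exact monom_mul hm1 (monom_inv (by rw [inv_inv]; exact hm2))
    have hform := conj_pair hF hgU hij hδ (a := α) (by simp [δ]) (by simp [δ, hij.symm])
      (fun l h1 h2 => by simp [δ, h1, h2])
    have hcard := rank_two_supp hF (r := (g : Mat) *ᵥ Pi.single i 1) (r' := (g : Mat) *ᵥ Pi.single j 1)
      (by rw [hgI, herm_single_right hF, Pi.single_eq_same]) (by rw [hgI, herm_single_right hF, Pi.single_eq_same])
      (by rw [hgI, herm_single_right hF, Pi.single_eq_of_ne hij.symm])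
      (sub_ne_zero.mpr hαne) (sub_ne_zero.mpr fun e => hαne (by
        have := norm_one_conj hF hα1; rwa [e, mul_one] at this)) hform hmon
    have hfull : (Finset.univ.filter fun l => ((g : Mat) *ᵥ Pi.single i 1) l ≠ 0 ∨
        ((g : Mat) *ᵥ Pi.single j 1) l ≠ 0) = Finset.univ :=
      Finset.filter_true_of_mem fun l _ => Or.inl (hz i l)
    rw [hfull, Finset.card_univ, Fintype.card_fin] at hcard
    omega
  let i : Fin n := ⟨1, by omega⟩
  let j : Fin n := ⟨2, by omega⟩
  let a : Fin n := ⟨3, by omega⟩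
  let b : Fin n := ⟨4, by omega⟩
  set K := ∑ l ∈ ({i, j, a, b} : Finset (Fin n))ᶜ, G l * u l with hK
  have hKq : (-K) ^ q = -K := by
    rw [← conjQ_apply hF, map_neg, hK, map_sum]
    congr 1
    refine Finset.sum_congr rfl fun l _ => ?_
    rw [conjQ_apply hF, hul, mul_pow, pow_q_pow_q hF, mul_comm]
  have hne : ∀ l o, G l * u o ≠ 0 := fun l o => by
    rw [hul]; exact mul_ne_zero (hz l c) (pow_ne_zero q (hz o c))
  rcases exists_double hF (hne i j) (hne a b) hKq with ⟨ν₁, ν₂, ν', h1, h2, h3, h4, h5, h6⟩ |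
    ⟨ν₁, ν₂, ν', h1, h2, h3, h4, h5, h6⟩
  · exact key i j a b (by simp [i, j]) (by simp [a, b]) (by simp [i, a]) (by simp [i, b]) (by simp [j, a])
      (by simp [j, b]) ν₁ ν₂ ν' h1 h2 h3 h4 h5 h6
  · have hset : ({a, b, i, j} : Finset (Fin n)) = {i, j, a, b} := by
      ext l; simp only [Finset.mem_insert, Finset.mem_singleton]; tauto
    exact key a b i j (by simp [a, b]) (by simp [i, j]) (by simp [i, a]) (by simp [j, a]) (by simp [i, b])
      (by simp [j, b]) ν₁ ν₂ ν' h1 h2 h3 h4 (by rw [hset]; exact h5) (by rw [hset]; exact h6)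

/-- Mixing is not total in dimension six. -/
theorem not_spreading₆ (hn : n = 6) (hq : 3 ≤ q) (hMK : M ≤ G₁) (hdiag : HasDiag q M)
    (hmono : ∀ m ∈ G₁, IsMonom m → m ∈ M) (hspread : Spreading M) {g : GL (Fin n) F} (hg : g ∈ M)
    (hgm : ¬ IsMonom g) : False := by
  have hq0 : q ≠ 0 := by omega
  obtain ⟨x, hx, hxm, c, d, hcd⟩ := exists_zero₅ hF (by omega) hMK hmono hg hgm
  have hxU : ∀ a b, h ((x : Mat) *ᵥ a) ((x : Mat) *ᵥ b) = h a b := (hMK hx).1
  have hvl : ∀ l, l ≠ d → ((x : Mat) *ᵥ Pi.single c 1) l ≠ 0 := fun l hl h0 =>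
    hl (one_zero_col₅ hF hMK hdiag hspread (by omega) hq hx hxm h0 hcd)
  set r₂ := ((x⁻¹ : GL (Fin n) F) : Mat) *ᵥ Pi.single d 1 with hr₂
  have hr₂c : r₂ c = 0 := by rw [hr₂, inv_entry hF (hMK hx).1, hcd, zero_pow hq0]
  have hr₂l : ∀ l, l ≠ c → r₂ l ≠ 0 := fun l hl h0 =>
    hl (one_zero_col₅ hF hMK hdiag hspread (by omega) hq (M.inv_mem hx) (fun h' => hxm (monom_inv h')) h0 hr₂c)
  by_cases hall : ∃ η : F, η ^ (q + 1) = 1 ∧ η ^ n ≠ 1
  · -- a scalar compensated at the zero
    obtain ⟨η, hη, hηn⟩ := hall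
    have hηη := norm_one_conj hF hη
    set θ := (η ^ q) ^ n with hθ
    have hθn : θ ^ (q + 1) = 1 := by
      rw [hθ, ← pow_mul, ← pow_mul, show q * (n * (q + 1)) = (q + 1) * (q * n) by ring, pow_mul, hη, one_pow]
    have hθθ : η ^ n * θ = 1 := by rw [hθ, ← mul_pow, hηη, one_pow]
    have hθ1 : θ ≠ 1 := fun h0 => hηn (by rwa [h0, mul_one] at hθθ)
    let δ : Fin n → F := fun l => η * if l = d then θ else 1
    have hδ : ∀ l, δ l ^ (q + 1) = 1 := fun l => by
      simp only [δ, mul_pow, hη, one_mul]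
      split_ifs
      · exact hθn
      · exact one_pow _
    have hδp : ∏ l, δ l = 1 := by
      simp only [δ, Finset.prod_mul_distrib, Finset.prod_const, Finset.card_univ, Fintype.card_fin,
        Finset.prod_ite_eq', Finset.mem_univ, if_true]
      exact hθθ
    set y := x⁻¹ * (guDiag (q := q) δ hδ).1 * x with hy
    have hyM : y ∈ M := M.mul_mem (M.mul_mem (M.inv_mem hx) (hdiag δ hδ hδp)) hx
    have hyv : ∀ v, (y : Mat) *ᵥ v = η • v + (η * (θ - 1) * ((x : Mat) *ᵥ v) d) • r₂ := by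
      intro v
      rw [hy, Units.val_mul, Units.val_mul, ← Matrix.mulVec_mulVec, ← Matrix.mulVec_mulVec]
      have : ((guDiag (q := q) δ hδ).1 : Mat) *ᵥ ((x : Mat) *ᵥ v) =
          η • ((x : Mat) *ᵥ v) + (η * (θ - 1) * ((x : Mat) *ᵥ v) d) • Pi.single d 1 := by
        funext l
        simp only [guDiag, Matrix.mulVec_diagonal, δ, Pi.add_apply, Pi.smul_apply, Pi.single_apply, smul_eq_mul]
        split_ifs with hl
        · subst hl; ring
        · ring
      rw [this, Matrix.mulVec_add, Matrix.mulVec_smul, Matrix.mulVec_smul, gl_inv_mulVec, hr₂]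
    have hyc : (y : Mat) *ᵥ Pi.single c 1 = η • Pi.single c 1 := by rw [hyv, hcd, mul_zero, zero_smul, add_zero]
    have hmon := hspread y hyM c (by rw [hyc]; exact isAxis_smul_single η c)
    obtain ⟨i, -, hi⟩ := Finset.exists_mem_notMem_of_card_lt_card (s := ({c} : Finset (Fin n))) (t := Finset.univ)
      (by simp; omega)
    obtain ⟨l, -, hl⟩ := Finset.exists_mem_notMem_of_card_lt_card (s := ({c, i} : Finset (Fin n))) (t := Finset.univ)
      (lt_of_le_of_lt Finset.card_le_two (by simp; omega))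
    obtain ⟨l', -, hl'⟩ := Finset.exists_mem_notMem_of_card_lt_card (s := ({c, i, l} : Finset (Fin n)))
      (t := Finset.univ) (lt_of_le_of_lt Finset.card_le_three (by simp; omega))
    simp only [Finset.mem_insert, Finset.mem_singleton, not_or] at hi hl hl'
    have hxi : ((x : Mat) *ᵥ Pi.single i 1) d ≠ 0 := fun h0 => hr₂l i hi (by
      rw [hr₂, inv_entry hF (hMK hx).1, h0, zero_pow hq0])
    have hne : ∀ o, o ≠ c → o ≠ i → ((y : Mat) *ᵥ Pi.single i 1) o ≠ 0 := fun o hoc hoi => by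
      rw [hyv]
      simp only [Pi.add_apply, Pi.smul_apply, Pi.single_eq_of_ne hoi, smul_eq_mul, mul_zero, zero_add]
      exact mul_ne_zero (mul_ne_zero (mul_ne_zero (left_ne_zero_of_mul (by rw [hηη]; exact one_ne_zero))
        (sub_ne_zero.mpr hθ1)) hxi) (hr₂l o hoc)
    exact hl'.2.2 (hmon i l' l (hne l' hl'.1 hl'.2.1) (hne l hl.1 hl.2))
  · -- two coordinates of equal norm; here `q < n` and the characteristic is odd
    push Not at hall
    have hle : (normOne q F).card ≤ (Polynomial.nthRootsFinset n (1 : F)).card :=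
      Finset.card_le_card fun a ha =>
        (Polynomial.mem_nthRootsFinset (by omega) _).mpr (hall a (mem_normOne.mp ha))
    have hnr : (Polynomial.nthRootsFinset n (1 : F)).card ≤ n := by
      rw [Polynomial.nthRootsFinset_def]
      exact (Multiset.toFinset_card_le _).trans (Polynomial.card_nthRoots _ _)
    rw [card_normOne hF] at hle
    have hnq : q < n := by omega
    have h2 : (2 : F) ≠ 0 := by
      intro h2
      haveI : CharP F 2 := CharTwo.of_one_ne_zero_of_two_eq_zero one_ne_zero h2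
      have hev := FiniteField.even_card_iff_char_two.mp (ringChar.eq F 2)
      rw [hF, Nat.pow_mod] at hev
      obtain ⟨a, ha, ha1, -⟩ := exists_norm_one_ne hF
      refine ha1 ?_
      have h4 : q = 4 := by
        subst hn
        have : q ≤ 5 := by omega
        interval_cases q <;> simp_all
      subst hn
      subst h4
      calc a = a ^ 6 * 1 := by rw [show a ^ 6 = a * a ^ (4 + 1) by ring, ha, mul_one, mul_one]
        _ = 1 := by rw [hall a ha, one_mul]
    set v := (x : Mat) *ᵥ Pi.single c 1 with hv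
    obtain ⟨p, hp, r, hr, hpr, hN⟩ := Finset.exists_ne_map_eq_of_card_lt_of_maps_to
      (s := Finset.univ.erase d) (t := (Finset.univ.filter fun z : F => z ^ q = z).erase 0)
      (f := fun l => v l ^ (q + 1)) (by
        rw [Finset.card_erase_of_mem (by simp [zero_pow hq0]), Finset.card_erase_of_mem (Finset.mem_univ _),
          Finset.card_univ, Fintype.card_fin, ← Fintype.card_subtype, ← Nat.card_eq_fintype_card, card_fixed hF]
        omega)
      (fun l hl => by
        rw [Finset.mem_coe, Finset.mem_erase] at hl ⊢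
        exact ⟨pow_ne_zero _ (hvl l hl.1), Finset.mem_filter.mpr ⟨Finset.mem_univ _, norm_pow_q hF _⟩⟩)
    rw [Finset.mem_erase] at hp hr
    have hvp := hvl p hp.1
    set μ := v r / v p with hμdef
    have hμ : μ ^ (q + 1) = 1 := by rw [hμdef, div_pow, ← hN, div_self (pow_ne_zero _ hvp)]
    have hμμ := norm_one_conj hF hμ
    have hvr : v r = μ * v p := (div_mul_cancel₀ _ hvp).symm
    let s : Fin n → F := fun l => if l = p then μ ^ q else if l = r then μ else if l = d then -1 else 1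
    have hs : ∀ l, s l ^ (q + 1) = 1 := fun l => by
      simp only [s]
      split_ifs
      · rw [← pow_mul, mul_comm, pow_mul, hμ, one_pow]
      · exact hμ
      · rw [pow_succ, ← conjQ_apply hF, map_neg, map_one]; ring
      · exact one_pow _
    have hsp : ∏ l, s l = -1 := by
      have : ∀ l, s l = (if l = p then μ ^ q else 1) * ((if l = r then μ else 1) * if l = d then -1 else 1) := by
        intro l
        by_cases h1 : l = p
        · subst h1; simp [s, hpr, hp.1]
        by_cases h2 : l = r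
        · subst h2; simp [s, h1, hr.1]
        simp [s, h1, h2]
      simp only [this, Finset.prod_mul_distrib, Finset.prod_ite_eq', Finset.mem_univ, if_true]
      rw [← mul_assoc, mul_comm (μ ^ q) μ, hμμ, one_mul]
    obtain ⟨m, hm, hmv⟩ := exists_mono_of_prod hF (Equiv.swap p r) s hs (by
      rw [hsp, Equiv.Perm.sign_swap hpr]; norm_num)
    obtain ⟨γ, hγ⟩ := exists_norm_eq hF (μ := ((2 : F))⁻¹) (by
      rw [inv_pow, ← conjQ_apply hF (2 : F), map_ofNat])
    have hγγ : 2 * (γ * γ ^ q) = 1 := by rw [← pow_succ', hγ, mul_inv_cancel₀ h2]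
    set w : Fin n → F := γ • (Pi.single p 1 - μ • Pi.single r 1) with hw
    have hwv : ∀ u, h u w = γ ^ q * (u p - μ ^ q * u r) := fun u => by
      rw [hw, hermForm_smul_right hF, sub_eq_add_neg, ← neg_smul, hermForm_add_right hF, hermForm_smul_right hF,
        herm_single_right hF, herm_single_right hF, ← conjQ_apply hF (-μ), map_neg, conjQ_apply hF]
      ring
    have hform : ∀ u, (m : Mat) *ᵥ u = u + ((-2) * h u w) • w + ((-2) * h u (Pi.single d 1)) • Pi.single d 1 := by
      intro u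
      rw [hmv, hwv, herm_single_right hF]
      funext l
      by_cases h1 : l = p
      · subst h1
        simp [s, hw, hpr, hp.1]
        linear_combination (u l - μ ^ q * u r) * hγγ
      by_cases h2' : l = r
      · subst h2'
        simp [s, hw, h1, hr.1]
        linear_combination (μ * (-(u p) + μ ^ q * u l)) * hγγ + u l * hμμ
      have h3 : Equiv.swap p r l = l := Equiv.swap_apply_of_ne_of_ne h1 h2'
      by_cases h4 : l = d
      · subst h4
        simp [s, hw, h1, h2', h3]
        ring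
      simp [s, hw, h1, h2', h3, h4]
    set y := x⁻¹ * m * x with hy
    have hyM : y ∈ M := M.mul_mem (M.mul_mem (M.inv_mem hx) (hmono m hm (isMonom_of_mono hmv))) hx
    set r₁ := ((x⁻¹ : GL (Fin n) F) : Mat) *ᵥ w with hr₁
    have hinv : ∀ a b, h (((x⁻¹ : GL (Fin n) F) : Mat) *ᵥ a) (((x⁻¹ : GL (Fin n) F) : Mat) *ᵥ b) = h a b :=
      ((Cfsg.GU n F q).inv_mem (hMK hx).1)
    have hswitch : ∀ a b, h ((x : Mat) *ᵥ a) b = h a (((x⁻¹ : GL (Fin n) F) : Mat) *ᵥ b) := fun a b => by
      conv_rhs => rw [← hxU, gl_mulVec_inv]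
    have hyv : ∀ u, (y : Mat) *ᵥ u = u + ((-2) * h u r₁) • r₁ + ((-2) * h u r₂) • r₂ := by
      intro u
      rw [hy, Units.val_mul, Units.val_mul, ← Matrix.mulVec_mulVec, ← Matrix.mulVec_mulVec, hform,
        Matrix.mulVec_add, Matrix.mulVec_add, Matrix.mulVec_smul, Matrix.mulVec_smul, gl_inv_mulVec, hswitch, hswitch,
        hr₁, hr₂]
      simp only [hw, Matrix.mulVec_smul]
    have hyc : (y : Mat) *ᵥ Pi.single c 1 = Pi.single c 1 := by
      rw [hyv, hr₁, hr₂, ← hswitch, ← hswitch, ← hv, hwv, herm_single_right hF, hcd, hvr]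
      have : v p - μ ^ q * (μ * v p) = 0 := by linear_combination (-(v p)) * hμμ
      simp [this]
    have hmon := hspread y hyM c (by rw [hyc]; exact isAxis_single c)
    have h22 : (-2 : F) ≠ 0 := neg_ne_zero.mpr h2
    have hunit : h w w = 1 := by
      rw [hwv]
      simp [hw, hpr, hpr.symm]
      linear_combination hγγ + (γ * γ ^ q) * hμμ
    have hcard := rank_two_supp hF (r := r₁) (r' := r₂) (by rw [hr₁, hinv, hunit])
      (by rw [hr₂, hinv, herm_single_right hF, Pi.single_eq_same])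
      (by rw [hr₁, hr₂, hinv, herm_single_right hF, hw]; simp [Ne.symm hp.1, Ne.symm hr.1]) h22 h22 hyv hmon
    have hsub : (Finset.univ.erase c) ⊆ Finset.univ.filter fun l => r₁ l ≠ 0 ∨ r₂ l ≠ 0 := fun l hl =>
      Finset.mem_filter.mpr ⟨Finset.mem_univ _, Or.inr (hr₂l l (Finset.mem_erase.mp hl).1)⟩
    have := Finset.card_le_card hsub
    rw [Finset.card_erase_of_mem (Finset.mem_univ _), Finset.card_univ, Fintype.card_fin] at this
    omega

/-- For `q > 2` an overgroup of the monomial group with a mixed element is `SU`. -/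
theorem su_le_of_monomial₆ (hn : n = 6) (hq : 3 ≤ q) (hMK : M ≤ G₁) (hmono : ∀ m ∈ G₁, IsMonom m → m ∈ M)
    (hdiag : HasDiag q M) {g : GL (Fin n) F} (hg : g ∈ M) (hgm : ¬ IsMonom g) : G₁ ≤ M := by
  have hf := Herm.isUnitary_std (n := n) hF
  let l₀ : Fin n := ⟨0, by omega⟩
  have hperm : ∀ π : Equiv.Perm (Fin n), ∃ m ∈ M, ∃ s : Fin n → F, (∀ l, s l ^ (q + 1) = 1) ∧
      ∀ v : Fin n → F, ((m : GL (Fin n) F) : Mat) *ᵥ v = fun l => s l * v (π.symm l) := fun π => by
    obtain ⟨m, hm, s, hs, hmv⟩ := exists_mono hF π l₀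
    exact ⟨m, hmono m hm (isMonom_of_mono hmv), s, hs, hmv⟩
  have hs0 : ∀ {a : F}, a ^ (q + 1) = 1 → a ≠ 0 := fun ha h0 => by
    rw [h0, zero_pow (by omega)] at ha; exact zero_ne_one ha
  by_cases hmix : ∃ y ∈ M, ∃ (c a : Fin n) (ρ : F), ((y : GL (Fin n) F) : Mat) *ᵥ Pi.single c 1 =
      ρ • Pi.single c 1 ∧ ¬ IsAxis ((y : Mat) *ᵥ Pi.single a 1)
  · obtain ⟨y, hy, c, a, ρ, hyc, hya⟩ := hmix
    have hac : a ≠ c := fun e => hya (by rw [e, hyc]; exact isAxis_smul_single ρ c)
    obtain ⟨i, j, hij, hW⟩ := exists_plane_low hF hq hMK hdiag _ c _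
      (inO_conj hF hMK (inO_single hF hdiag hac) hy hyc) hya le_rfl
    refine su_le_of_weight_two hF hq (by omega) hMK hdiag fun i' j' a' b' hij' hab => ?_
    let π : Equiv.Perm (Fin n) := Equiv.swap (Equiv.swap i i' j) j' * Equiv.swap i i'
    have hπi : π i = i' := by
      simp only [π, Equiv.Perm.mul_apply, Equiv.swap_apply_left]
      refine Equiv.swap_apply_of_ne_of_ne (fun e => hij ?_) hij'
      have := congrArg (Equiv.swap i i') e
      rwa [Equiv.swap_apply_self, Equiv.swap_apply_right] at this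
    have hπj : π j = j' := by simp [π]
    obtain ⟨m, hm, s, hs, hmv⟩ := hperm π
    have h1 := Herm.centres_conj hf (fun g hg => (hMK hg).1) hm (hW (a' / s i') (b' / s j') (by
      rw [div_pow, div_pow, hs, hs, div_one, div_one]; exact hab))
    convert h1 using 1
    rw [hmv]
    funext l
    have hli : π.symm l = i ↔ l = i' := by rw [Equiv.symm_apply_eq, hπi]
    have hlj : π.symm l = j ↔ l = j' := by rw [Equiv.symm_apply_eq, hπj]
    by_cases h2 : l = i'
    · subst h2
      simp [hli.mpr rfl, hij, hij', mul_div_cancel₀ _ (hs0 (hs l))]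
    by_cases h3 : l = j'
    · subst h3
      simp [hlj.mpr rfl, hij.symm, h2, mul_div_cancel₀ _ (hs0 (hs l))]
    simp [h2, h3, mt hli.mp h2, mt hlj.mp h3]
  exfalso
  push Not at hmix
  have hspread : Spreading M := fun m hm c hc a => by
    obtain ⟨l, ρ, -, hl⟩ := exists_axis hc (gl_single_ne_zero m c)
    obtain ⟨P, hP, s, hs, hPv⟩ := hperm (Equiv.swap c l)
    have h1 := hmix (P * m) (M.mul_mem hP hm) c a (s c * ρ) (by
      rw [Units.val_mul, ← Matrix.mulVec_mulVec, hl, hPv]
      funext o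
      by_cases ho : o = c
      · subst ho; simp
      · have : (Equiv.swap c l) o ≠ l := fun e => ho (by
          have := congrArg (Equiv.swap c l) e
          rwa [Equiv.swap_apply_self, Equiv.swap_apply_right] at this)
        simp [ho, this])
    intro i j hi hj
    refine (Equiv.swap c l).injective (h1 _ _ ?_ ?_) <;>
      rw [Units.val_mul, ← Matrix.mulVec_mulVec, hPv] <;>
      simp only [Equiv.symm_swap, Equiv.swap_apply_self]
    · exact mul_ne_zero (hs0 (hs _)) hi
    · exact mul_ne_zero (hs0 (hs _)) hj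
  exact not_spreading₆ hF hn hq hMK hdiag hmono hspread hg hgm

/-- The stabiliser of a decomposition into six lines is maximal. -/
theorem monomial_std_maximal₆ (hn : n = 6) (hq : 3 ≤ q) (ht : 2 ≤ t) (hk : k = 1) (idx : Fin t × Fin k ≃ Fin n) :
    Cfsg.Geo.IsMaximalIn G₁ (Cfsg.Geo.decompositionStabilizer (stdDec F idx) ⊓ G₁) := by
  subst hk
  refine isMaximalIn_of inf_le_right (std_proper hF (by omega) ht one_pos idx) fun M hHM hMK g hg hgH => ?_
  have hdiag := hasDiag_of_le hHM
  let b : Fin t → Fin n := fun i => idx (i, 0)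
  have hb : ∀ l, b (idx.symm l).1 = l := fun l => by
    simp only [b]
    rw [show ((idx.symm l).1, (0 : Fin 1)) = idx.symm l from Prod.ext rfl (Subsingleton.elim _ _),
      Equiv.apply_symm_apply]
  have hstab : ∀ m ∈ G₁, IsMonom m → m ∈ Cfsg.Geo.decompositionStabilizer (stdDec F idx) := by
    intro m hm hmon
    choose π a ha hπ using fun l => exists_axis (hmon l) (gl_single_ne_zero m l)
    have hinj : Function.Injective π := fun l l' he => by
      by_contra hne
      have h1 : (m : Mat) *ᵥ (a l' • Pi.single l 1 - a l • Pi.single l' 1) = (m : Mat) *ᵥ 0 := by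
        rw [Matrix.mulVec_sub, Matrix.mulVec_smul, Matrix.mulVec_smul, hπ, hπ, he, Matrix.mulVec_zero, smul_smul,
          smul_smul, mul_comm, sub_self]
      simpa [hne, ha l'] using congrFun (gl_mulVec_injective m h1) l
    let p : Equiv.Perm (Fin n) := Equiv.ofBijective π (Finite.injective_iff_bijective.mp hinj)
    obtain ⟨m₀, -, s, hs, hm₀⟩ := exists_mono hF p ⟨0, by omega⟩
    have hs0 : ∀ l, s l ≠ 0 := fun l h0 => by
      have := hs l; rw [h0, zero_pow (by omega)] at this; exact zero_ne_one this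
    let e : Fin t ≃ Fin n := (Equiv.prodUnique (Fin t) (Fin 1)).symm.trans idx
    have h0 : m₀ ∈ Cfsg.Geo.decompositionStabilizer (stdDec F idx) := by
      refine mono_stab idx p ((e.trans p).trans e.symm) (fun l => ?_) hs0 hm₀
      have : e (idx.symm l).1 = l := hb l
      simp only [Equiv.trans_apply, this]
      rfl
    have h1 : m₀⁻¹ * m ∈ Cfsg.Geo.decompositionStabilizer (stdDec F idx) := by
      refine stab_of_members fun i w hw => ?_
      have hw' : w = w (b i) • Pi.single (b i) 1 := by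
        funext l
        by_cases hl : l = b i
        · subst hl; simp
        · rw [hw l (fun e => hl (by rw [← hb l, e]))]; simp [hl]
      rw [hw', Units.val_mul, ← Matrix.mulVec_mulVec, Matrix.mulVec_smul, hπ]
      have h2 : (m₀ : Mat) *ᵥ Pi.single (b i) 1 = s (π (b i)) • Pi.single (π (b i)) 1 := by
        rw [hm₀]
        funext l
        by_cases hl : l = π (b i)
        · subst hl; simp [show p.symm (π (b i)) = b i from p.symm_apply_apply _]
        · have : p.symm l ≠ b i := fun e => hl (by rw [← e]; exact (p.apply_symm_apply l).symm)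
          simp [hl, this]
      have h3 : ((m₀⁻¹ : GL (Fin n) F) : Mat) *ᵥ Pi.single (π (b i)) 1 = (s (π (b i)))⁻¹ • Pi.single (b i) 1 := by
        have := gl_inv_mulVec m₀ (Pi.single (b i) 1)
        rw [h2, Matrix.mulVec_smul] at this
        rw [← this, smul_smul, inv_mul_cancel₀ (hs0 _), one_smul]
      rw [Matrix.mulVec_smul, Matrix.mulVec_smul, h3]
      refine Submodule.smul_mem _ _ (Submodule.smul_mem _ _ (Submodule.smul_mem _ _ ?_))
      have := single_mem_stdDec (F := F) idx (b i) 1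
      simpa [b] using this
    simpa using Subgroup.mul_mem _ h0 h1
  have hmono : ∀ m ∈ G₁, IsMonom m → m ∈ M := fun m hm hmon => hHM ⟨hstab m hm hmon, hm⟩
  have hgm : ¬ IsMonom g := fun hh => hgH ⟨hstab g (hMK hg) hh, hMK hg⟩
  exact su_le_of_monomial₆ hF hn hq hMK hmono hdiag hg hgm

/-- Stabilisers of orthogonal decompositions into six lines are maximal. -/
theorem monomial_maximal₆ (hn : n = 6) (hq : 3 ≤ q) {D : Fin t → Submodule F (Fin n → F)}
    (hD : Cfsg.Geo.IsNondegenerateMDecomposition (Cfsg.hermForm n F q) 1 D) :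
    Cfsg.Geo.IsMaximalIn G₁ (Cfsg.Geo.decompositionStabilizer D ⊓ G₁) :=
  maximal_of_std hF hD fun idx => monomial_std_maximal₆ hF hn hq hD.decomp.two_le rfl idx

end Cfsg.Agent.H60.SULow
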