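import Cfsg.Agent.H3.UPair

set_option autoImplicit false
set_option linter.unusedSectionVars false

/-!
# Stabilisers of pairs of totally singular subspaces in small dimensions

The argument of `H3.su_pair_maximal` with members of dimension at least three.  When the vector `x` orthogonal to
the mixed line lies in its projection, commutators with both pairings present are additive up to transvections
centred at `x`.
-/

namespace Cfsg.Agent.H60.SULow

open scoped Matrix
open Cfsg.Agent.H98 Cfsg.Agent.H3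

section

variable {ι : Type} [Fintype ι] [DecidableEq ι] {F : Type*} [Field F]
variable {σ : F ≃+* F} {f : (ι → F) → (ι → F) → F} (hf : Cfsg.Geo.IsUnitaryForm σ f)

local notation "Mat" => Matrix ι ι F

include hf

theorem uX_swap {p r : ι → F} (hp : f p p = 0) (hr : f r r = 0) (h : f p r = 0) (d : F) :
    uX hf hr hp ((Herm.eq_zero_comm hf).mp h) d = uX hf hp hr h (-σ d) := by
  refine gl_ext fun y => ?_
  simp only [uX_mulVec, map_neg, hf.involutive d]
  module

theorem comm_mulVec {x z p r : ι → F} (hx : f x x = 0) (hz : f z z = 0) (hxz : f x z = 0)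
    (hp : f p p = 0) (hr : f r r = 0) (hpr : f p r = 0) (hxp : f x p = 0) (hxr : f x r = 0) (c d : F) (v : ι → F) :
    (uX hf hx hz hxz c * uX hf hp hr hpr d * (uX hf hx hz hxz c)⁻¹ * (uX hf hp hr hpr d)⁻¹ : GL ι F).1 *ᵥ v =
      v + (c * d * f v r * f p z - c * σ d * f v p * f r z +
            c * σ c * f v x * (d * f p z * σ (f r z) - σ d * σ (f p z) * f r z)) • x -
        f v x • (σ (c * d * f p z) • r - (σ c * d * σ (f r z)) • p) := by
  have h1 := (Herm.eq_zero_comm hf).mp hxz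
  have h2 := (Herm.eq_zero_comm hf).mp hpr
  have h3 := (Herm.eq_zero_comm hf).mp hxp
  have h4 := (Herm.eq_zero_comm hf).mp hxr
  rw [uX_inv, uX_inv]
  simp only [Units.val_mul, ← Matrix.mulVec_mulVec, uX_mulVec, Herm.sub_left hf, hf.add_left, hf.smul_left,
    ← Herm.sigma_apply hf p z, ← Herm.sigma_apply hf r z,
    hx, hz, hxz, hp, hr, hpr, hxp, hxr, h1, h2, h3, h4, map_neg, map_mul, map_one, hf.involutive, mul_zero,
    add_zero, zero_add, sub_zero, zero_sub, one_mul]
  module

/-- The defect of additivity of the commutators is a transvection. -/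
theorem comm_add {x z p r : ι → F} (hx : f x x = 0) (hz : f z z = 0) (hxz : f x z = 0)
    (hp : f p p = 0) (hr : f r r = 0) (hpr : f p r = 0) (hxp : f x p = 0) (hxr : f x r = 0) (c c' d : F) :
    uX hf hx hz hxz c * uX hf hp hr hpr d * (uX hf hx hz hxz c)⁻¹ * (uX hf hp hr hpr d)⁻¹ *
        (uX hf hx hz hxz c' * uX hf hp hr hpr d * (uX hf hx hz hxz c')⁻¹ * (uX hf hp hr hpr d)⁻¹) =
      Herm.uT hf hx (-((c * σ c' + c' * σ c) * (d * f p z * σ (f r z) - σ d * σ (f p z) * f r z))) *
        (uX hf hx hz hxz (c + c') * uX hf hp hr hpr d * (uX hf hx hz hxz (c + c'))⁻¹ *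
          (uX hf hp hr hpr d)⁻¹) := by
  have h2 := (Herm.eq_zero_comm hf).mp hpr
  have h3 := (Herm.eq_zero_comm hf).mp hxp
  have h4 := (Herm.eq_zero_comm hf).mp hxr
  refine gl_ext fun v => ?_
  obtain ⟨C₁, hC₁⟩ : ∃ C, C = uX hf hx hz hxz c * uX hf hp hr hpr d * (uX hf hx hz hxz c)⁻¹ *
    (uX hf hp hr hpr d)⁻¹ := ⟨_, rfl⟩
  obtain ⟨C₂, hC₂⟩ : ∃ C, C = uX hf hx hz hxz c' * uX hf hp hr hpr d * (uX hf hx hz hxz c')⁻¹ *
    (uX hf hp hr hpr d)⁻¹ := ⟨_, rfl⟩
  obtain ⟨C₃, hC₃⟩ : ∃ C, C = uX hf hx hz hxz (c + c') * uX hf hp hr hpr d * (uX hf hx hz hxz (c + c'))⁻¹ *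
    (uX hf hp hr hpr d)⁻¹ := ⟨_, rfl⟩
  rw [← hC₁, ← hC₂, ← hC₃, Units.val_mul, Units.val_mul, ← Matrix.mulVec_mulVec, ← Matrix.mulVec_mulVec,
    hC₁, hC₂, hC₃, comm_mulVec hf hx hz hxz hp hr hpr hxp hxr, comm_mulVec hf hx hz hxz hp hr hpr hxp hxr,
    comm_mulVec hf hx hz hxz hp hr hpr hxp hxr, Herm.uT_mulVec]
  simp only [Herm.sub_left hf, hf.add_left, hf.smul_left, hx, hp, hr, hpr, h2, h3, h4, hxp, hxr, map_mul, map_add,
    mul_zero, add_zero, zero_add, sub_zero]
  module

end

variable {F : Type*} [Field F] [Fintype F] {q n k : ℕ} (hF : Fintype.card F = q ^ 2)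
variable {D : Fin 2 → Submodule F (Fin n → F)}

local notation "Mat" => Matrix (Fin n) (Fin n) F
local notation "h" => Cfsg.hermForm n F q
local notation "G₁" => Cfsg.GU n F q ⊓ Cfsg.Geo.specialLinear (Fin n) F

include hF

/-- A root group of a mixed line and a vector of a member in its projection give a transvection. -/
theorem trans_of_mixed (hD : Cfsg.Geo.IsMDecomposition k D) (hts : ∀ i, ∀ u ∈ D i, ∀ v ∈ D i, h u v = 0)
    {M : Subgroup (GL (Fin n) F)} (hHM : Cfsg.Geo.decompositionStabilizer D ⊓ G₁ ≤ M) {i j : Fin 2} (hij : i ≠ j)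
    (hfind : ∀ {i j : Fin 2}, i ≠ j → ∀ a ∈ D i, ∀ S : Submodule F (Fin n → F), a ∉ S →
      ∃ z ∈ D j, h a z = 1 ∧ ∀ w ∈ D i, w ∈ S → h w z = 0)
    {p r x : Fin n → F} (hpp : h p p = 0) (hrr : h r r = 0) (hpr : h p r = 0)
    (hgX : ∀ d, uX (Herm.isUnitary_std hF) hpp hrr hpr d ∈ M)
    (hxi : x ∈ D i) (hxp : h x p = 0) (hxr : h x r = 0) (hp : comp hD i p ≠ 0)
    (hr : comp hD i r ∉ Submodule.span F {comp hD i p}) {α β : F} (hβ : β ≠ 0)
    (hαβ : α • comp hD i p + β • comp hD i r = x) :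
    x ∈ Herm.centres (Herm.isUnitary_std (n := n) hF) M := by
  classical
  have hf := Herm.isUnitary_std (n := n) hF
  have hxx := hts i x hxi x hxi
  have hsum : ∀ v, comp hD i v + comp hD j v = v := fun v => by
    conv_rhs => rw [← sum_comp hD v, Fin.sum_univ_two]
    fin_cases i <;> fin_cases j <;> first | exact absurd rfl hij | exact add_comm _ _ | rfl
  obtain ⟨z, hz, hz1, hz2⟩ := hfind hij (comp hD i p) (comp_mem hD i p) (Submodule.span F {x}) (fun hm => by
    obtain ⟨a, ha⟩ := Submodule.mem_span_singleton.mp hm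
    refine hr (Submodule.mem_span_singleton.mpr ⟨(1 - a * α) * (a * β)⁻¹, ?_⟩)
    have ha0 : a ≠ 0 := fun e => hp (by rw [← ha, e, zero_smul])
    have hab : a * β ≠ 0 := mul_ne_zero ha0 hβ
    have e1 : (a * β) • comp hD i r = (1 - a * α) • comp hD i p := by
      rw [← hαβ, smul_add, smul_smul, smul_smul] at ha
      linear_combination (norm := module) ha
    rw [mul_comm, ← smul_smul, ← e1, smul_smul, inv_mul_cancel₀ hab, one_smul])
  have hright : ∀ v, h v z = h (comp hD i v) z := fun v => by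
    conv_lhs => rw [← hsum v, hf.add_left, hts j _ (comp_mem hD j v) z hz, add_zero]
  have hxz : h x z = 0 := hz2 x hxi (Submodule.mem_span_singleton_self x)
  have hpz : h p z = 1 := by rw [hright, hz1]
  have hrz : h r z = -(α * β⁻¹) := by
    have := hxz
    rw [← hαβ, hf.add_left, hf.smul_left, hf.smul_left, hz1, ← hright] at this
    field_simp
    linear_combination this
  have hzz := hts j z hz z hz
  refine ⟨hxx, fun t ht => ?_⟩
  have hmem : ∀ c, uX hf hxx hzz hxz c ∈ M := fun c =>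
    hHM ⟨uX_stab hf hts hij hxi hz hxx hzz hxz c, uX_mem_su hF hxx hzz hxz _⟩
  have hC : ∀ c d, uX hf hxx hzz hxz c * uX hf hpp hrr hpr d * (uX hf hxx hzz hxz c)⁻¹ *
      (uX hf hpp hrr hpr d)⁻¹ ∈ M := fun c d =>
    M.mul_mem (M.mul_mem (M.mul_mem (hmem c) (hgX d)) (M.inv_mem (hmem c))) (M.inv_mem (hgX d))
  obtain ⟨c₀, hc₀⟩ : ∃ c, c - Herm.frobQ hF c = t := by
    obtain ⟨y, hy⟩ := exists_sub_eq hF (a := t) (by rw [← Herm.frobQ_apply hF, ht, add_neg_cancel])
    first
      | exact ⟨y, by rw [Herm.frobQ_apply hF]; linear_combination hy⟩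
      | exact ⟨-y, by rw [map_neg, Herm.frobQ_apply hF]; linear_combination hy⟩
  by_cases hα : α = 0
  · -- only one pairing: a root group of `x` and `r`
    rw [hα, zero_mul, neg_zero] at hrz
    rw [hα, zero_smul, zero_add] at hαβ
    have hzr : h z r = 0 := (Herm.eq_zero_comm hf).mp hrz
    obtain ⟨r', hr'⟩ : ∃ r', r' = comp hD j r := ⟨_, rfl⟩
    have hrsum : r = β⁻¹ • x + r' := by
      rw [← hαβ, smul_smul, inv_mul_cancel₀ hβ, one_smul, hr', hsum]
    have hxr' : h x r' = 0 := by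
      rw [hrsum, Herm.add_right hf, Herm.smul_right hf, hxx, mul_zero, zero_add] at hxr
      exact hxr
    have hr'j : r' ∈ D j := hr' ▸ comp_mem hD j r
    have hr'r' := hts j _ hr'j _ hr'j
    obtain ⟨c, hc⟩ : ∃ c, c * Herm.frobQ hF β⁻¹ = c₀ :=
      ⟨c₀ * (Herm.frobQ hF β⁻¹)⁻¹, by rw [mul_assoc, inv_mul_cancel₀ (by simpa using hβ), mul_one]⟩
    have h1 : uX hf hxx hrr hxr c ∈ M := by
      have := hC c 1
      rwa [uX_commutator hf hxx hzz hxz hpp hrr hpr hxp hxr hzr, hpz, mul_one, mul_one] at this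
    have h2 := hHM ⟨uX_stab hf hts hij hxi hr'j hxx hr'r' hxr' c, uX_mem_su hF hxx hr'r' hxr' c⟩
    convert M.mul_mem h1 (M.inv_mem h2) using 1
    refine gl_ext fun v => ?_
    rw [uX_inv]
    simp only [Units.val_mul, ← Matrix.mulVec_mulVec, uX_mulVec, Herm.uT_mulVec, Herm.sub_left hf, hf.add_left,
      hf.smul_left, hxx, hxr', (Herm.eq_zero_comm hf).mp hxr', hr'r', map_neg, mul_zero, add_zero, zero_add,
      sub_zero]
    rw [hrsum]
    simp only [Herm.sub_left hf, hf.add_left, hf.smul_left, hxx, Herm.add_right hf, Herm.smul_right hf, hxr', hr'r',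
      (Herm.eq_zero_comm hf).mp hxr', mul_zero, add_zero, zero_add, sub_zero, ← hc₀, ← hc, map_mul, map_neg, hf.involutive β⁻¹]
    module
  · obtain ⟨w, hw⟩ : ∃ w, Herm.frobQ hF w ≠ w := by
      by_contra hn
      push Not at hn
      exact hf.ne_refl (RingEquiv.ext hn)
    set b := h r z with hb
    have hb0 : Herm.frobQ hF b ≠ 0 := by
      rw [map_ne_zero, hrz]; exact neg_ne_zero.mpr (mul_ne_zero hα (inv_ne_zero hβ))
    set d := w * (Herm.frobQ hF b)⁻¹ with hd
    set t₀ := d * Herm.frobQ hF b - Herm.frobQ hF d * b with ht₀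
    have ht₀' : t₀ = w - Herm.frobQ hF w := by
      rw [ht₀, hd, mul_assoc, inv_mul_cancel₀ hb0, mul_one, map_mul, map_inv₀, hf.involutive b, mul_assoc,
        inv_mul_cancel₀ (by simpa using hb0), mul_one]
    have ht₀0 : t₀ ≠ 0 := by rw [ht₀']; exact sub_ne_zero.mpr (Ne.symm hw)
    have hreal : Herm.frobQ hF (-t / t₀) = -t / t₀ := by
      rw [map_div₀, map_neg, ht, ht₀', map_sub, hf.involutive w, show Herm.frobQ hF w - w = -(w - Herm.frobQ hF w) by ring,
        neg_div_neg_eq]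
    obtain ⟨c, hc⟩ : ∃ c, c + Herm.frobQ hF c = -t / t₀ := by
      obtain ⟨c, hc⟩ := exists_trace_eq hF (a := -t / t₀) (by rw [← Herm.frobQ_apply hF]; exact hreal)
      exact ⟨c, by rw [Herm.frobQ_apply hF]; linear_combination hc⟩
    have hm := M.mul_mem (hC c d) (hC 1 d)
    rw [comm_add hf hxx hzz hxz hpp hrr hpr hxp hxr, hpz] at hm
    simp only [map_one, mul_one, one_mul, ← hb, ← ht₀, hc, show -(-t / t₀ * t₀) = t by field_simp] at hm
    exact (M.mul_mem_cancel_right (hC (c + 1) d)).mp hm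

/-- Stabilisers of pairs of complementary totally singular subspaces are maximal in `SU`. -/
theorem su_pair_maximal (hk3 : 3 ≤ k) (hk : 2 * k = n) (hD : Cfsg.Geo.IsMDecomposition k D)
    (hts : ∀ i, ∀ u ∈ D i, ∀ v ∈ D i, h u v = 0) :
    Cfsg.Geo.IsMaximalIn G₁ (Cfsg.Geo.decompositionStabilizer D ⊓ G₁) := by
  classical
  have hf := Herm.isUnitary_std (n := n) hF
  obtain ⟨ζ, hζ0, hζ⟩ := Herm.exists_skew hf
  have hinv : ∀ d : F, Herm.frobQ hF d = -d → Herm.frobQ hF d⁻¹ = -d⁻¹ := fun d hd => by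
    rw [map_inv₀, hd, inv_neg]
  have hsum : ∀ {i j : Fin 2}, i ≠ j → ∀ v, comp hD i v + comp hD j v = v := by
    intro i j hij v
    conv_rhs => rw [← sum_comp hD v, Fin.sum_univ_two]
    fin_cases i <;> fin_cases j <;> first | exact absurd rfl hij | exact add_comm _ _ | rfl
  -- vectors in the other member with prescribed values
  have hfind : ∀ {i j : Fin 2}, i ≠ j → ∀ a ∈ D i, ∀ S : Submodule F (Fin n → F), a ∉ S →
      ∃ z ∈ D j, h a z = 1 ∧ ∀ w ∈ D i, w ∈ S → h w z = 0 := by
    intro i j hij a ha S hS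
    obtain ⟨φ, h1, h2⟩ := exists_functional hS
    obtain ⟨v, hv⟩ := Herm.fl_surjective hf φ
    have hval : ∀ w ∈ D i, h w (comp hD j v) = φ w := by
      intro w hw
      rw [← hv, Herm.fl_apply]
      conv_rhs => rw [← hsum hij v, Herm.add_right hf, hts i w hw _ (comp_mem hD i v), zero_add]
    exact ⟨comp hD j v, comp_mem hD j v, by rw [hval a ha, h1],
      fun w hw hwS => by rw [hval w hw]; exact LinearMap.mem_ker.mp (h2 hwS)⟩
  have hne0 : ∀ i, ∃ w ∈ D i, w ≠ (0 : Fin n → F) := fun i => Submodule.exists_mem_ne_zero_of_ne_bot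
    (p := D i) (by intro hb; have := hD.finrank_eq i; rw [hb, finrank_bot] at this; exact hD.pos.ne this)
  refine isMaximalIn_of inf_le_right ?_ ?_
  · obtain ⟨u, hu, hu0⟩ := hne0 0
    obtain ⟨w, hw, hwu, -⟩ := hfind (i := 0) (j := 1) (by decide) u hu ⊥ (by simpa using hu0)
    have hwu' : h w u = 1 := by rw [← Herm.sigma_apply hf u w, hwu, map_one]
    have huu := hts 0 u hu u hu
    refine ⟨Herm.uT hf huu ζ, Herm.uT_mem_su hF huu hζ, fun hh => ?_⟩
    refine not_stab_of_spread hD hw (a := 0) (b := 1) (by decide) ?_ ?_ hh.1 <;>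
      rw [Herm.uT_mulVec, map_add, map_smul, hwu', mul_one]
    · rw [comp_other hD (by decide) hw, comp_same hD hu, zero_add]
      exact smul_ne_zero hζ0 hu0
    · rw [comp_same hD hw, comp_other hD (by decide) hu, smul_zero, add_zero]
      rintro rfl
      rw [Herm.zero_right hf] at hwu
      exact zero_ne_one hwu
  intro M hHM hMK g hg hgH
  have hiso : ∀ m ∈ M, ∀ a b, h ((m : Mat) *ᵥ a) ((m : Mat) *ᵥ b) = h a b := fun m hm => (hMK hm).1
  -- a mixed element
  obtain ⟨i₀, z₀, hz₀, a, b, hab, ha, hb⟩ := exists_spread hD (fun hh => hgH ⟨hh, hMK hg⟩)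
  set p := (g : Mat) *ᵥ z₀ with hpdef
  have hp : ∀ i, comp hD i p ≠ 0 := fun i => by
    rcases (show i = a ∨ i = b by omega) with rfl | rfl <;> assumption
  obtain ⟨j₀, hij₀⟩ : ∃ j : Fin 2, i₀ ≠ j := exists_ne i₀ |>.imp fun _ h' => h'.symm
  have hpp : h p p = 0 := by rw [hpdef, hiso g hg]; exact hts i₀ z₀ hz₀ z₀ hz₀
  have hdimV : Module.finrank F (Fin n → F) = k + k := by rw [Module.finrank_fin_fun]; omega
  have hker : ∀ v : Fin n → F, k + k ≤ Module.finrank F (LinearMap.ker (Herm.fl hf v)) + 1 := fun v => by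
    have := (Herm.fl hf v).finrank_range_add_finrank_ker
    have := Submodule.finrank_le (LinearMap.range (Herm.fl hf v))
    rw [Module.finrank_self] at this
    omega
  let Z : Submodule F (Fin n → F) := D j₀ ⊓ LinearMap.ker (Herm.fl hf z₀)
  let T : Fin 2 → (Z →ₗ[F] (Fin n → F)) := fun i => comp hD i ∘ₗ Matrix.mulVecLin (g : Mat) ∘ₗ Z.subtype
  have hZ : k ≤ Module.finrank F Z + 1 := by
    have h1 := Submodule.finrank_sup_add_finrank_inf_eq (D j₀) (LinearMap.ker (Herm.fl hf z₀))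
    have h2 := Submodule.finrank_le (D j₀ ⊔ LinearMap.ker (Herm.fl hf z₀))
    have := hker z₀
    rw [hD.finrank_eq] at h1
    change k ≤ Module.finrank F ↥(D j₀ ⊓ LinearMap.ker (Herm.fl hf z₀)) + 1
    omega
  obtain ⟨i, x₀, hx₀, hr⟩ : ∃ i, ∃ x₀ : Fin n → F, x₀ ∈ Z ∧
      comp hD i ((g : Mat) *ᵥ x₀) ∉ Submodule.span F {comp hD i p} := by
    by_contra hcon
    push Not at hcon
    -- the image of `Z` and of `z₀` would lie in a plane
    set P : Submodule F (Fin n → F) := Submodule.span F {comp hD 0 p, comp hD 1 p} with hP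
    have hP2 : Module.finrank F P ≤ 2 := by
      classical
      calc Module.finrank F P
          = Module.finrank F (Submodule.span F (({comp hD 0 p, comp hD 1 p} : Finset (Fin n → F)) :
              Set (Fin n → F))) := by rw [Finset.coe_pair]
        _ ≤ ({comp hD 0 p, comp hD 1 p} : Finset (Fin n → F)).card := finrank_span_finset_le_card _
        _ ≤ 2 := Finset.card_le_two
    have hz0ne : z₀ ≠ 0 := fun h0 => hp 0 (by rw [hpdef, h0, Matrix.mulVec_zero, map_zero])
    have hz0Z : z₀ ∉ Z := fun hm => hz0ne (by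
      have e1 := comp_same hD hz₀
      rw [comp_other hD hij₀.symm hm.1] at e1
      exact e1.symm)
    set W : Submodule F (Fin n → F) := Z ⊔ Submodule.span F {z₀} with hW
    have hWP : W.map (Matrix.mulVecLin (g : Mat)) ≤ P := by
      rw [hW, Submodule.map_sup, sup_le_iff]
      refine ⟨?_, ?_⟩
      · rintro _ ⟨x, hx, rfl⟩
        rw [Matrix.mulVecLin_apply, ← hsum (show (0 : Fin 2) ≠ 1 by decide) ((g : Mat) *ᵥ x)]
        exact add_mem (Submodule.span_mono (by simp) (hcon 0 x hx)) (Submodule.span_mono (by simp) (hcon 1 x hx))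
      · rw [Submodule.map_span, Submodule.span_le]
        rintro _ ⟨x, rfl, rfl⟩
        rw [Matrix.mulVecLin_apply, ← hpdef, ← hsum (show (0 : Fin 2) ≠ 1 by decide) p]
        exact add_mem (Submodule.subset_span (by simp)) (Submodule.subset_span (by simp))
    have h1 := Submodule.finrank_mono hWP
    rw [← (Submodule.equivMapOfInjective (Matrix.mulVecLin (g : Mat)) (fun x y hxy => gl_mulVec_injective g
      (by simpa using hxy)) W).finrank_eq] at h1
    have h2 : Module.finrank F Z < Module.finrank F W := Submodule.finrank_lt_finrank_of_lt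
      (lt_of_le_of_ne le_sup_left fun e => hz0Z (e ▸ Submodule.mem_sup_right (Submodule.mem_span_singleton_self z₀)))
    omega
  set r := (g : Mat) *ᵥ x₀ with hrdef
  have hz₀x₀ : h z₀ x₀ = 0 := (Herm.eq_zero_comm hf).mp hx₀.2
  have hrr : h r r = 0 := by rw [hrdef, hiso g hg]; exact hts j₀ x₀ hx₀.1 x₀ hx₀.1
  have hpr : h p r = 0 := by rw [hpdef, hrdef, hiso g hg]; exact hz₀x₀
  have hri : comp hD i r ≠ 0 := fun h' => hr (h' ▸ zero_mem _)
  obtain ⟨j, hji⟩ := exists_ne i
  -- `x ∈ D i` orthogonal to `p` and `r`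
  let K₂ : Submodule F (Fin n → F) := D i ⊓ (LinearMap.ker (Herm.fl hf p) ⊓ LinearMap.ker (Herm.fl hf r))
  let S₂ : Submodule F (Fin n → F) := Submodule.span F {comp hD i p, comp hD i r}
  obtain ⟨x, hxK, hx0⟩ : ∃ x ∈ K₂, x ≠ 0 := by
    refine Submodule.exists_mem_ne_zero_of_ne_bot fun hb => ?_
    have a1 := Submodule.finrank_sup_add_finrank_inf_eq (LinearMap.ker (Herm.fl hf p)) (LinearMap.ker (Herm.fl hf r))
    have a2 := Submodule.finrank_le (LinearMap.ker (Herm.fl hf p) ⊔ LinearMap.ker (Herm.fl hf r))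
    have a3 := Submodule.finrank_sup_add_finrank_inf_eq (D i)
      (LinearMap.ker (Herm.fl hf p) ⊓ LinearMap.ker (Herm.fl hf r))
    have a4 := Submodule.finrank_le (D i ⊔ (LinearMap.ker (Herm.fl hf p) ⊓ LinearMap.ker (Herm.fl hf r)))
    rw [hD.finrank_eq] at a3
    have := hker p
    have := hker r
    change D i ⊓ (LinearMap.ker (Herm.fl hf p) ⊓ LinearMap.ker (Herm.fl hf r)) = ⊥ at hb
    rw [hb, finrank_bot] at a3
    omega
  have hxi : x ∈ D i := hxK.1
  have hxp : h x p = 0 := hxK.2.1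
  have hxr : h x r = 0 := hxK.2.2
  have hxx := hts i x hxi x hxi
  have hgX : ∀ d, uX hf hpp hrr hpr d ∈ M := fun d => by
    rw [← conj_uX hf (hiso g hg) (hts i₀ z₀ hz₀ z₀ hz₀) (hts j₀ x₀ hx₀.1 x₀ hx₀.1) hz₀x₀ d hpp hrr hpr]
    exact M.mul_mem (M.mul_mem hg (hHM ⟨uX_stab hf hts hij₀ hz₀ hx₀.1 _ _ _ d, uX_mem_su hF _ _ _ d⟩))
      (M.inv_mem hg)
  have hright : ∀ v, ∀ z' ∈ D j, h v z' = h (comp hD i v) z' := by
    intro v z' hz'
    conv_lhs => rw [← hsum hji.symm v, hf.add_left, hts j _ (comp_mem hD j v) z' hz', add_zero]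
  have hxC : x ∈ Herm.centres hf M := by
    by_cases hxS : x ∈ S₂
    · obtain ⟨α, β, hαβ⟩ := Submodule.mem_span_pair.mp hxS
      have hgX' : ∀ d, uX hf hrr hpp ((Herm.eq_zero_comm hf).mp hpr) d ∈ M := fun d => by
        rw [uX_swap hf hpp hrr hpr]; exact hgX _
      by_cases hβ : β = 0
      · refine trans_of_mixed hF hD hts hHM hji.symm hfind hrr hpp ((Herm.eq_zero_comm hf).mp hpr) hgX'
          hxi hxr hxp hri (fun hm => hr ?_) (α := β) (β := α) ?_ (by rw [add_comm]; exact hαβ)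
        · obtain ⟨e, he⟩ := Submodule.mem_span_singleton.mp hm
          have : e ≠ 0 := fun e0 => hp i (by rw [← he, e0, zero_smul])
          exact Submodule.mem_span_singleton.mpr ⟨e⁻¹, by rw [← he, smul_smul, inv_mul_cancel₀ this, one_smul]⟩
        · rintro rfl
          rw [hβ, zero_smul, zero_smul, add_zero] at hαβ
          exact hx0 hαβ.symm
      · exact trans_of_mixed hF hD hts hHM hji.symm hfind hpp hrr hpr hgX hxi hxp hxr (hp i) hr hβ hαβ
    · 
      -- `z ∈ D j`
      obtain ⟨z, hz, hz1, hz2⟩ := hfind hji.symm (comp hD i p) (comp_mem hD i p)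
        (Submodule.span F {comp hD i r, x}) (fun hmem => by
          obtain ⟨a', b', hab'⟩ := Submodule.mem_span_pair.mp hmem
          by_cases hb' : b' = 0
          · rw [hb', zero_smul, add_zero] at hab'
            refine hr (Submodule.mem_span_singleton.mpr ⟨a'⁻¹, ?_⟩)
            have : a' ≠ 0 := fun h' => hp i (by rw [← hab', h', zero_smul])
            rw [← hab', smul_smul, inv_mul_cancel₀ this, one_smul]
          · refine hxS ?_
            have e : x = b'⁻¹ • comp hD i p - (b'⁻¹ * a') • comp hD i r := by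
              rw [← hab', smul_add, smul_smul, smul_smul, inv_mul_cancel₀ hb', one_smul]; abel
            rw [e]
            exact sub_mem (Submodule.smul_mem _ _ (Submodule.subset_span (by simp)))
              (Submodule.smul_mem _ _ (Submodule.subset_span (by simp))))
      have hzr : h z r = 0 := (Herm.eq_zero_comm hf).mp (by
        rw [hright r z hz]; exact hz2 _ (comp_mem hD i r) (Submodule.subset_span (by simp)))
      have hxz : h x z = 0 := hz2 x hxi (Submodule.subset_span (by simp))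
      have hpz : h p z = 1 := by rw [hright p z hz, hz1]
      have hzz := hts j z hz z hz
      have hxrM : ∀ c, uX hf hxx hrr hxr c ∈ M := fun c => by
        have hmem := hHM ⟨uX_stab hf hts hji.symm hxi hz hxx hzz hxz c, uX_mem_su hF hxx hzz hxz c⟩
        have := M.mul_mem (M.mul_mem (M.mul_mem hmem (hgX 1)) (M.inv_mem hmem)) (M.inv_mem (hgX 1))
        rwa [uX_commutator hf hxx hzz hxz hpp hrr hpr hxp hxr hzr, hpz, mul_one, mul_one] at this
      -- a transvection with centre `x`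
      obtain ⟨z', hz', hz'1, hz'2⟩ := hfind hji.symm (comp hD i r) (comp_mem hD i r) (Submodule.span F {x})
        (fun hmem => by
          obtain ⟨a', ha'⟩ := Submodule.mem_span_singleton.mp hmem
          refine hxS ?_
          have : a' ≠ 0 := fun h' => hri (by rw [← ha', h', zero_smul])
          rw [show x = a'⁻¹ • comp hD i r by rw [← ha', smul_smul, inv_mul_cancel₀ this, one_smul]]
          exact Submodule.smul_mem _ _ (Submodule.subset_span (by simp)))
      have hxz' : h x z' = 0 := hz'2 x hxi (Submodule.mem_span_singleton_self x)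
      have hrz' : h r z' = 1 := by rw [hright r z' hz', hz'1]
      have hz'z' := hts j z' hz' z' hz'
      exact ⟨hxx, fun d hd => by
        obtain ⟨c, hc⟩ : ∃ c, c - Herm.frobQ hF c = d := by
          obtain ⟨y, hy⟩ := exists_sub_eq hF (a := d) (by rw [← Herm.frobQ_apply hF, hd, add_neg_cancel])
          first
            | exact ⟨y, by rw [Herm.frobQ_apply hF]; linear_combination hy⟩
            | exact ⟨-y, by rw [map_neg, Herm.frobQ_apply hF]; linear_combination hy⟩
        have hmem := hHM ⟨uX_stab hf hts hji.symm hxi hz' hxx hz'z' hxz' 1, uX_mem_su hF hxx hz'z' hxz' 1⟩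
        have := M.mul_mem (M.mul_mem (M.mul_mem hmem (hxrM c)) (M.inv_mem hmem)) (M.inv_mem (hxrM c))
        rwa [uX_commutator_trans hf hxx hz'z' hxz' hrr hxr hrz', hc] at this⟩
  -- the members are covered
  have hcover : ∀ (l l' : Fin 2), l ≠ l' → ∀ u ∈ D l, u ≠ 0 → u ∈ Herm.centres hf M →
      ∀ u' ∈ D l, u' ∈ Herm.centres hf M := by
    intro l l' hll u hu hu0 huC u' hu'
    by_cases hsp : u' ∈ Submodule.span F {u}
    · obtain ⟨a', rfl⟩ := Submodule.mem_span_singleton.mp hsp
      exact Herm.centres_smul hf huC a'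
    obtain ⟨w, hw, hw1, hw2⟩ := hfind hll u hu (Submodule.span F {u' - u}) (fun hmem => by
      obtain ⟨a', ha'⟩ := Submodule.mem_span_singleton.mp hmem
      have : a' ≠ 0 := fun h' => hu0 (by rw [← ha', h', zero_smul])
      refine hsp (Submodule.mem_span_singleton.mpr ⟨a'⁻¹ + 1, ?_⟩)
      rw [add_smul, one_smul]
      conv_lhs => arg 1; rw [← ha', smul_smul, inv_mul_cancel₀ this, one_smul]
      abel)
    have h0 : h (u' - u) w = 0 := hw2 _ ((D l).sub_mem hu' hu) (Submodule.mem_span_singleton_self _)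
    have hd := (D l).sub_mem hu' hu
    have hmem := hHM ⟨uX_stab hf hts hll hd hw (hts l _ hd _ hd) (hts l' w hw w hw) h0 1,
      uX_mem_su hF (hts l _ hd _ hd) (hts l' w hw w hw) h0 1⟩
    have := Herm.centres_conj hf hiso hmem huC
    rw [uX_mulVec, hts l u hu _ hd, hw1, one_mul, one_smul, mul_zero, zero_smul, sub_zero,
      add_sub_cancel] at this
    exact this
  obtain ⟨s, hs, hsmap⟩ := exists_upair_swap hF hD hts
  have hxC' := Herm.centres_conj hf hiso (hHM hs) hxC
  have hsx0 : (s : Mat) *ᵥ x ≠ 0 := fun h' =>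
    hx0 (gl_mulVec_injective s (h'.trans (Matrix.mulVec_zero _).symm))
  have hCD : ∀ l, ∀ v ∈ D l, v ∈ Herm.centres hf M := by
    intro l v hv
    by_cases hl : l = i
    · exact hcover i j hji.symm x hxi hx0 hxC v (hl ▸ hv)
    · exact hcover l i hl _ (hsmap i l (Ne.symm hl) x hxi) hsx0 hxC' v hv
  -- transvections centred in the members generate everything
  have h01 : (0 : Fin 2) ≠ 1 := by decide
  have hgen : ∀ u ∈ D 0, ∀ w ∈ D 1, h u w + h w u = 0 → h w u ≠ 0 → u + w ∈ Herm.centres hf M := by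
    intro u hu w hw huw hne
    have hsk : Herm.frobQ hF (h w u) = -h w u := by
      rw [Herm.sigma_apply hf]; linear_combination huw
    obtain ⟨huu, hTu⟩ := hCD 0 u hu
    have := Herm.centres_conj hf hiso (hTu _ (hinv _ hsk)) (hCD 1 w hw)
    rw [Herm.uT_mulVec, inv_mul_cancel₀ hne, one_smul, add_comm] at this
    exact this
  refine Herm.su_le_of_uT hF (by omega) fun v hvv d hd => ?_
  suffices hv : v ∈ Herm.centres hf M by
    obtain ⟨_, hv'⟩ := hv
    exact hv' d hd
  set u := comp hD 0 v with hu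
  set w := comp hD 1 v with hw
  have hv : v = u + w := (hsum h01 v).symm
  have hu' : u ∈ D 0 := comp_mem hD 0 v
  have hw' : w ∈ D 1 := comp_mem hD 1 v
  by_cases hw0 : w = 0
  · exact hCD 0 v (by rw [hv, hw0, add_zero]; exact hu')
  have huw : h u w + h w u = 0 := by
    rw [hv, hf.add_left, Herm.add_right hf, Herm.add_right hf, hts 0 u hu' u hu', hts 1 w hw' w hw'] at hvv
    linear_combination hvv
  by_cases hμ : h w u = 0
  · obtain ⟨u₁, hu₁, hu₁1, -⟩ := hfind h01.symm w hw' ⊥ (by simpa using hw0)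
    have hu₁w : h (ζ • u₁) w = ζ := by
      rw [hf.smul_left, ← Herm.sigma_apply hf w u₁, hu₁1, map_one, mul_one]
    have hwu₁ : h w (ζ • u₁) = -ζ := by rw [← Herm.sigma_apply hf _ w, hu₁w, hζ]
    have hu₁' : ζ • u₁ ∈ D 0 := (D 0).smul_mem _ hu₁
    obtain ⟨hmm, hTm⟩ := hgen _ hu₁' w hw' (by rw [hu₁w, hwu₁, add_neg_cancel])
      (by rw [hwu₁]; exact neg_ne_zero.mpr hζ0)
    have := Herm.centres_conj hf hiso (hTm _ (hinv _ (by rw [map_neg, hζ]) : _)) (hCD 0 _ ((D 0).sub_mem hu' hu₁'))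
    rw [Herm.uT_mulVec, Herm.add_right hf, hts 0 _ ((D 0).sub_mem hu' hu₁') _ hu₁', zero_add,
      Herm.sub_left hf, show h u w = 0 by linear_combination huw - hμ, hu₁w, zero_sub,
      inv_mul_cancel₀ (neg_ne_zero.mpr hζ0), one_smul] at this
    rw [hv]
    convert this using 1
    abel
  · rw [hv]; exact hgen u hu' w hw' huw hμ

end Cfsg.Agent.H60.SULow
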