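import Cfsg.Agent.H98.USubOddMain
import Cfsg.Agent.H60.SULow.Stab

set_option autoImplicit false
set_option linter.unusedSectionVars false

/-!
# Odd degree subfield subgroups of `SU` from dimension six

The argument of `H98/USubOdd*`; rational hyperbolic pairs are found outside the radical.
-/

namespace Cfsg.Agent.H60.SULow

open scoped Matrix
open Cfsg.Agent.H98 Cfsg.Agent.H98.Herm

variable {F : Type*} [Field F] [Fintype F] {q n : ℕ}

local notation "Mat" => Matrix (Fin n) (Fin n) F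

section
/-- Hypotheses for an odd prime degree rational structure. -/
structure OddRatL (hF : Fintype.card F = q ^ 2) (F₀ : Subfield F) (r : ℕ) (P : GL (Fin n) F) : Prop where
  hn : 6 ≤ n
  prime : r.Prime
  odd : Odd r
  card : Fintype.card F = Nat.card F₀ ^ r
  rat : ∀ u v : Fin n → F, IsRatVec F₀ u → IsRatVec F₀ v → pullForm n q P u v ∈ F₀

variable {hF : Fintype.card F = q ^ 2} {F₀ : Subfield F} {r : ℕ} {P : GL (Fin n) F} (H : OddRatL hF F₀ r P)

include H

theorem OddRatL.herm : Cfsg.Geo.IsUnitaryForm (frobQ hF) (pullForm n q P) := isUnitary_pull hF P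

theorem OddRatL.sigma_mem {x : F} (hx : x ∈ F₀) : frobQ hF x ∈ F₀ := by
  rw [frobQ_apply]; exact pow_mem hx q

/-- The involution does not fix the subfield. -/
theorem OddRatL.sigma_ne : ∃ x, x ∈ F₀ ∧ frobQ hF x ≠ x := by
  classical
  haveI := Fintype.ofFinite F₀
  by_contra hall
  push Not at hall
  obtain ⟨s, hs⟩ := H.odd
  have hc : 2 ≤ Nat.card F₀ := by rw [Nat.card_eq_fintype_card]; exact Fintype.one_lt_card
  have hq : q ^ 2 = Nat.card F₀ ^ (2 * s + 1) := by rw [← hs, ← H.card, hF]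
  obtain ⟨m, hm⟩ : Nat.card F₀ ^ s ∣ q := by
    refine (Nat.pow_dvd_pow_iff two_ne_zero).mp ⟨Nat.card F₀, ?_⟩
    rw [← pow_mul, hq, mul_comm s 2, pow_succ]
  have hmm : Nat.card F₀ = m * m := by
    rw [hm, mul_pow, ← pow_mul, mul_comm s 2, pow_succ] at hq
    rw [← pow_two]
    exact (mul_left_cancel₀ (pow_ne_zero _ (by omega)) hq).symm
  have hpow : ∀ (t : ℕ) (x : F₀), x ^ (Nat.card F₀ ^ t) = x := fun t => by
    induction t with
    | zero => simp
    | succ t ih => intro x; rw [pow_succ, mul_comm, pow_mul, Nat.card_eq_fintype_card, FiniteField.pow_card,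
        ← Nat.card_eq_fintype_card, ih]
  have hm2 : 2 ≤ m := by
    rcases m with _ | _ | m <;> omega
  have hroots : ∀ x : F₀, x ^ m = x := fun x => Subtype.ext (by
    have h := hall (x : F) x.2
    rw [frobQ_apply, hm, pow_mul, ← SubmonoidClass.coe_pow, hpow s x] at h
    rw [SubmonoidClass.coe_pow]; exact h)
  set Pm : Polynomial F₀ := Polynomial.X ^ m - Polynomial.X
  have hdeg : Pm.natDegree = m := FiniteField.X_pow_card_sub_X_natDegree_eq F₀ hm2
  have hne : Pm ≠ 0 := FiniteField.X_pow_card_sub_X_ne_zero F₀ hm2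
  have hsub : (Finset.univ : Finset F₀) ⊆ Pm.roots.toFinset := fun x _ => by
    rw [Multiset.mem_toFinset, Polynomial.mem_roots hne, Polynomial.IsRoot]
    simp [Pm, hroots x]
  have h1 := ((Finset.card_le_card hsub).trans (Multiset.toFinset_card_le _)).trans Pm.card_roots'
  rw [Finset.card_univ, ← Nat.card_eq_fintype_card, hmm, hdeg] at h1
  nlinarith

/-- The restricted automorphism. -/
noncomputable def OddRatL.sigma₀ : F₀ ≃+* F₀ where
  toFun x := ⟨frobQ hF x, H.sigma_mem x.2⟩
  invFun x := ⟨frobQ hF x, H.sigma_mem x.2⟩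
  left_inv x := Subtype.ext (H.herm.involutive x)
  right_inv x := Subtype.ext (H.herm.involutive x)
  map_mul' x y := Subtype.ext (map_mul (frobQ hF) (x : F) y)
  map_add' x y := Subtype.ext (map_add (frobQ hF) (x : F) y)

theorem OddRatL.coe_sigma₀ (x : F₀) : (H.sigma₀ x : F) = frobQ hF x := rfl

/-- The form on coordinates in the subfield. -/
def OddRatL.form₀ : (Fin n → F₀) → (Fin n → F₀) → F₀ :=
  fun a b => ⟨pullForm n q P (incV a) (incV b), H.rat _ _ (incV_rat a) (incV_rat b)⟩

theorem OddRatL.coe_form₀ (a b : Fin n → F₀) : (H.form₀ a b : F) = pullForm n q P (incV a) (incV b) := rfl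

/-- A rational vector with non-zero product. -/
theorem OddRatL.exists_nonorth {w : Fin n → F} (hw : w ≠ 0) :
    ∃ z : Fin n → F, IsRatVec F₀ z ∧ pullForm n q P z w ≠ 0 := by
  by_contra hc
  push Not at hc
  obtain ⟨x, hx⟩ := (H.herm.nondegenerate w hw).1
  rw [← fl_apply H.herm, pi_eq_sum_univ' x, map_sum] at hx
  exact hx (Finset.sum_eq_zero fun i _ => by rw [map_smul, fl_apply, hc _ (isRat_single i), smul_zero])

theorem OddRatL.herm₀ : Cfsg.Geo.IsUnitaryForm H.sigma₀ H.form₀ := by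
  refine ⟨fun h => ?_, fun a => Subtype.ext (H.herm.involutive _), fun x y v => Subtype.ext (H.herm.add_left _ _ _),
    fun c x v => Subtype.ext (H.herm.smul_left _ _ _), fun v w => Subtype.ext (H.herm.herm _ _), fun v hv => ?_⟩
  · obtain ⟨x, hx, hne⟩ := H.sigma_ne
    exact hne (congrArg Subtype.val (RingEquiv.congr_fun h (⟨x, hx⟩ : F₀)))
  · obtain ⟨z, hz, hne⟩ := H.exists_nonorth (w := incV v) (fun h => hv (incV_injective (h.trans incV_zero.symm)))
    obtain ⟨a, rfl⟩ := exists_incV hz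
    refine ⟨⟨a, fun h => hne (congrArg Subtype.val h)⟩, ⟨a, fun h => hne ?_⟩⟩
    exact (eq_zero_comm H.herm).mp (congrArg Subtype.val h)

theorem OddRatL.exists_skew₀ : ∃ ζ : F, ζ ∈ F₀ ∧ ζ ≠ 0 ∧ frobQ hF ζ = -ζ := by
  obtain ⟨ζ, hζ, hζ'⟩ := exists_skew H.herm₀
  exact ⟨ζ, ζ.2, fun h => hζ (Subtype.ext h), congrArg Subtype.val hζ'⟩

/-- Rational hyperbolic pairs orthogonal to few rational vectors. -/
theorem OddRatL.exists_pair {k : ℕ} (hk : k ≤ 2) (v : Fin k → Fin n → F) (hv : ∀ i, IsRatVec F₀ (v i)) :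
    ∃ z y, IsRatVec F₀ z ∧ IsRatVec F₀ y ∧ (∀ i, pullForm n q P z (v i) = 0) ∧ (∀ i, pullForm n q P y (v i) = 0) ∧
      pullForm n q P z z = 0 ∧ pullForm n q P y y = 0 ∧ pullForm n q P z y = 1 ∧ pullForm n q P y z = 1 := by
  choose w hw using fun i => exists_incV (hv i)
  set U := LinearMap.ker (LinearMap.pi fun i => fl H.herm₀ (w i))
  obtain ⟨z, hz, y, hy, e1, e2, e3, e4⟩ := exists_pair_of_radical H.herm₀ U (by
    have h1 := finrank_perp H.herm₀ w
    change _ ≤ Module.finrank F₀ U + k at h1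
    have hle : perp H.herm₀ U ≤ Submodule.span F₀ (Set.range w) := by
      conv_rhs => rw [← perp_perp H.herm₀ (Submodule.span F₀ (Set.range w))]
      refine perpW_antitone H.herm₀ fun x hx => (mem_perp H.herm₀ w x).mpr fun i => ?_
      exact (mem_perpW H.herm₀).mp hx _ (Submodule.subset_span ⟨i, rfl⟩)
    have h2 : Module.finrank F₀ ↥(U ⊓ perp H.herm₀ U) ≤ k :=
      (Submodule.finrank_mono (inf_le_right.trans hle)).trans
        ((finrank_range_le_card w).trans (Fintype.card_fin k).le)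
    rw [Fintype.card_fin] at h1
    have := H.hn
    omega)
  refine ⟨incV z, incV y, incV_rat z, incV_rat y, fun i => ?_, fun i => ?_, congrArg Subtype.val e1,
    congrArg Subtype.val e2, congrArg Subtype.val e3, congrArg Subtype.val e4⟩
  · rw [← hw i]; exact congrArg Subtype.val ((mem_perp H.herm₀ w z).mp hz i)
  · rw [← hw i]; exact congrArg Subtype.val ((mem_perp H.herm₀ w y).mp hy i)

/-- A rational isotropic vector orthogonal to two orthogonal rational hyperbolic pairs. -/
theorem OddRatL.exists_iso_four {e f e' f' : Fin n → F} (he : IsRatVec F₀ e) (hf : IsRatVec F₀ f)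
    (he' : IsRatVec F₀ e') (hf' : IsRatVec F₀ f')
    (h11 : pullForm n q P e e = 0) (h22 : pullForm n q P f f = 0) (h33 : pullForm n q P e' e' = 0)
    (h44 : pullForm n q P f' f' = 0) (h12 : pullForm n q P e f = 1) (h34 : pullForm n q P e' f' = 1)
    (h13 : pullForm n q P e e' = 0) (h14 : pullForm n q P e f' = 0) (h23 : pullForm n q P f e' = 0)
    (h24 : pullForm n q P f f' = 0) :
    ∃ u, IsRatVec F₀ u ∧ u ≠ 0 ∧ pullForm n q P u u = 0 ∧
      ∀ i, pullForm n q P u (![e, f, e', f'] i) = 0 := by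
  obtain ⟨e, rfl⟩ := exists_incV he
  obtain ⟨f, rfl⟩ := exists_incV hf
  obtain ⟨e', rfl⟩ := exists_incV he'
  obtain ⟨f', rfl⟩ := exists_incV hf'
  set w : Fin 4 → Fin n → F₀ := ![e, f, e', f'] with hw
  set U := LinearMap.ker (LinearMap.pi fun i => fl H.herm₀ (w i))
  have h1 := finrank_perp H.herm₀ w
  change _ ≤ Module.finrank F₀ U + 4 at h1
  rw [Fintype.card_fin] at h1
  have hrad : U ⊓ perp H.herm₀ U = ⊥ := by
    refine (Submodule.eq_bot_iff _).mpr fun x hx => ?_
    have hle : perp H.herm₀ U ≤ Submodule.span F₀ (Set.range w) := by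
      conv_rhs => rw [← perp_perp H.herm₀ (Submodule.span F₀ (Set.range w))]
      refine perpW_antitone H.herm₀ fun y hy => (mem_perp H.herm₀ w y).mpr fun i => ?_
      exact (mem_perpW H.herm₀).mp hy _ (Submodule.subset_span ⟨i, rfl⟩)
    obtain ⟨c, hc⟩ := (Submodule.mem_span_range_iff_exists_fun F₀).mp (hle hx.2)
    have hxw := (mem_perp H.herm₀ w x).mp hx.1
    have g : ∀ i, ∑ j, (c j : F) * pullForm n q P (incV (w j)) (incV (w i)) = 0 := fun i => by
      have e1 := hxw i
      rw [← hc, ← fl_apply H.herm₀, map_sum] at e1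
      have e2 := congrArg Subtype.val e1
      simp only [map_smul, fl_apply, smul_eq_mul] at e2
      push_cast at e2
      exact e2
    have g0 := g 0; have g1 := g 1; have g2 := g 2; have g3 := g 3
    have h21 : pullForm n q P (incV f) (incV e) = 1 := by rw [H.herm.herm, h12, map_one]
    have h43 : pullForm n q P (incV f') (incV e') = 1 := by rw [H.herm.herm, h34, map_one]
    simp only [hw, Fin.sum_univ_four, Matrix.cons_val_zero, Matrix.cons_val_one, Matrix.cons_val, h11, h22, h33, h44,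
      h12, h34, h21, h43, h13, h14, h23, h24, (eq_zero_comm H.herm).mp h13, (eq_zero_comm H.herm).mp h14,
      (eq_zero_comm H.herm).mp h23, (eq_zero_comm H.herm).mp h24, mul_zero, mul_one, add_zero, zero_add] at g0 g1 g2 g3
    rw [← hc]
    refine Finset.sum_eq_zero fun i _ => ?_
    have : c i = 0 := by
      apply Subtype.ext
      fin_cases i
      · exact g1
      · exact g0
      · exact g3
      · exact g2
    rw [this, zero_smul]
  obtain ⟨z, hz, y, -, e1, -, e3, -⟩ := exists_pair_of_radical H.herm₀ U (by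
    rw [hrad, finrank_bot]; have := H.hn; omega)
  refine ⟨incV z, incV_rat z, fun h => ?_, congrArg Subtype.val e1, fun i => ?_⟩
  · have h0 : z = 0 := incV_injective (h.trans incV_zero.symm)
    rw [h0, zero_left H.herm₀] at e3
    exact zero_ne_one e3
  · have hall : ∀ i, pullForm n q P (incV z) (incV (w i)) = 0 := fun i =>
      congrArg Subtype.val ((mem_perp H.herm₀ w z).mp hz i)
    fin_cases i
    · exact hall 0
    · exact hall 1
    · exact hall 2
    · exact hall 3

/-- Rational vectors are spanned over the subfield by rational isotropic vectors. -/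
theorem OddRatL.rat_span {p : (Fin n → F) → Prop} (h0 : p 0) (hadd : ∀ a b, p a → p b → p (a + b))
    (hsmul : ∀ (c : F), c ∈ F₀ → ∀ a, p a → p (c • a))
    (hiso : ∀ z, IsRatVec F₀ z → pullForm n q P z z = 0 → p z) {x : Fin n → F} (hx : IsRatVec F₀ x) : p x := by
  obtain ⟨a, rfl⟩ := exists_incV hx
  let S : Submodule F₀ (Fin n → F₀) :=
    { carrier := {b | p (incV b)}
      add_mem' := fun {b c} hb hc => hadd _ _ hb hc
      zero_mem' := h0
      smul_mem' := fun c b hb => hsmul _ c.2 _ hb }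
  obtain ⟨e, -, e', -, q1, q2, q3, q4⟩ := exists_pair_in H.herm₀ ⊤ (by
    rw [finrank_top, Module.finrank_pi, Fintype.card_fin]; have := H.hn; omega)
  exact le_of_isotropic H.herm₀ (S := S) Submodule.mem_top Submodule.mem_top q1 q2 q3 q4
    (fun w _ hw => hiso _ (incV_rat w) (congrArg Subtype.val hw)) (Submodule.mem_top (x := a))

/-- A rational partner of a rational isotropic vector. -/
theorem OddRatL.partner {z : Fin n → F} (hz : IsRatVec F₀ z) (hzz : pullForm n q P z z = 0) (hz0 : z ≠ 0) :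
    ∃ y, IsRatVec F₀ y ∧ pullForm n q P y y = 0 ∧ pullForm n q P z y = 1 ∧ pullForm n q P y z = 1 := by
  obtain ⟨a, rfl⟩ := exists_incV hz
  obtain ⟨b, hb⟩ := (H.herm₀.nondegenerate a (fun h => hz0 (by rw [h, incV_zero]))).2
  obtain ⟨y, -, e1, e2, e3⟩ := partner_in H.herm₀ (U := ⊤) (e := a) (y := b) Submodule.mem_top Submodule.mem_top
    (Subtype.ext hzz) hb
  exact ⟨incV y, incV_rat y, congrArg Subtype.val e1, congrArg Subtype.val e2, congrArg Subtype.val e3⟩

/-- Independence over the subfield of two rational vectors gives independence. -/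
theorem OddRatL.indep_of₀ {a b : Fin n → F₀} (ha : a ≠ 0) (hind : ∀ k : F₀, b ≠ k • a) (s t : F)
    (h : s • incV a + t • incV b = 0) : s = 0 ∧ t = 0 := by
  rcases eq_or_ne t 0 with rfl | ht
  · rw [zero_smul, add_zero, smul_eq_zero] at h
    exact ⟨h.resolve_right (fun h' => ha (incV_injective (h'.trans incV_zero.symm))), rfl⟩
  exfalso
  obtain ⟨x, hx⟩ := Function.ne_iff.mp ha
  refine hind (b x / a x) (funext fun i => Subtype.ext ?_)
  have e1 := congrFun h x
  have e2 := congrFun h i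
  simp only [Pi.add_apply, Pi.smul_apply, smul_eq_mul, Pi.zero_apply, incV] at e1 e2
  have hax : (a x : F) ≠ 0 := fun h' => hx (Subtype.ext h')
  change (b i : F) = ((b x / a x : F₀) : F) * (a i : F)
  push_cast
  rw [div_mul_eq_mul_div, eq_div_iff hax]
  refine mul_left_cancel₀ ht ?_
  linear_combination (a x : F) * e2 - (a i : F) * e1

/-- An isotropic rational vector with prescribed products. -/
theorem OddRatL.exists_iso_prescribed {a b : Fin n → F} (ha : IsRatVec F₀ a) (hb : IsRatVec F₀ b)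
    (hind : ∀ s t : F, s • a + t • b = 0 → s = 0 ∧ t = 0) {A B : F} (hA : A ∈ F₀) (hB : B ∈ F₀) :
    ∃ z, IsRatVec F₀ z ∧ pullForm n q P z z = 0 ∧ pullForm n q P z a = A ∧ pullForm n q P z b = B := by
  obtain ⟨a', rfl⟩ := exists_incV ha
  obtain ⟨b', rfl⟩ := exists_incV hb
  have dual : ∀ u w : Fin n → F₀, (∀ s t : F, s • incV u + t • incV w = 0 → s = 0 ∧ t = 0) →
      ∃ p, H.form₀ p u = 1 ∧ H.form₀ p w = 0 := by
    intro u w h
    obtain ⟨φ, hφ1, hφ2⟩ := exists_functional (S := Submodule.span F₀ {w}) (x := u) fun hm => by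
      obtain ⟨k, hk⟩ := Submodule.mem_span_singleton.mp hm
      exact one_ne_zero (h 1 (-(k : F)) (by rw [← hk, incV_smul, one_smul, neg_smul, add_neg_cancel])).1
    obtain ⟨p, hp⟩ := fl_surjective H.herm₀ φ
    refine ⟨p, ?_, ?_⟩
    · rw [H.herm₀.herm, ← fl_apply H.herm₀, hp, hφ1, map_one]
    · rw [H.herm₀.herm, ← fl_apply H.herm₀, hp, LinearMap.mem_ker.mp (hφ2 (Submodule.mem_span_singleton_self w)),
        map_zero]
  obtain ⟨p, hpa, hpb⟩ := dual a' b' hind
  obtain ⟨s, hsb, hsa⟩ := dual b' a' (fun u t h => (hind t u (by rw [add_comm]; exact h)).symm)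
  set x₁ := incV ((⟨A, hA⟩ : F₀) • p + (⟨B, hB⟩ : F₀) • s) with hx₁
  have ea₁ : pullForm n q P x₁ (incV a') = A := by
    rw [hx₁, ← H.coe_form₀, H.herm₀.add_left, H.herm₀.smul_left, H.herm₀.smul_left, hpa, hsa, mul_one, mul_zero,
      add_zero]
  have eb₁ : pullForm n q P x₁ (incV b') = B := by
    rw [hx₁, ← H.coe_form₀, H.herm₀.add_left, H.herm₀.smul_left, H.herm₀.smul_left, hpb, hsb, mul_zero, mul_one,
      zero_add]
  obtain ⟨e, e', he, he', oe, oe', hee, he'e', hee', he'e⟩ := H.exists_pair (show 2 ≤ 2 by norm_num)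
    ![incV a', incV b'] (fun i => by fin_cases i <;> exact incV_rat _)
  have a0 := oe 0; have a1 := oe 1
  have b0 := oe' 0; have b1 := oe' 1
  simp at a0 a1 b0 b1
  set x₀ := x₁ - pullForm n q P x₁ e' • e - pullForm n q P x₁ e • e' with hx₀
  have hx₀r : IsRatVec F₀ x₀ :=
    isRat_sub (isRat_sub (incV_rat _) (isRat_smul (H.rat _ _ (incV_rat _) he') he))
      (isRat_smul (H.rat _ _ (incV_rat _) he) he')
  have ea : pullForm n q P x₀ (incV a') = A := by
    rw [hx₀, sub_left H.herm, sub_left H.herm, H.herm.smul_left, H.herm.smul_left, ea₁, a0, b0]; ring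
  have eb : pullForm n q P x₀ (incV b') = B := by
    rw [hx₀, sub_left H.herm, sub_left H.herm, H.herm.smul_left, H.herm.smul_left, eb₁, a1, b1]; ring
  have ee : pullForm n q P x₀ e = 0 := by
    rw [hx₀, sub_left H.herm, sub_left H.herm, H.herm.smul_left, H.herm.smul_left, hee, he'e]; ring
  have ee' : pullForm n q P x₀ e' = 0 := by
    rw [hx₀, sub_left H.herm, sub_left H.herm, H.herm.smul_left, H.herm.smul_left, hee', he'e']; ring
  have a2 := (eq_zero_comm H.herm).mp ee
  have b2 := (eq_zero_comm H.herm).mp ee'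
  clear_value x₀
  obtain ⟨μ, hμ⟩ := exists_trace H.herm₀ (a := (⟨- pullForm n q P x₀ x₀,
    neg_mem (H.rat _ _ hx₀r hx₀r)⟩ : F₀)) (Subtype.ext (by
      rw [H.coe_sigma₀, map_neg, sigma_apply H.herm]))
  have hμ' : (μ : F) + frobQ hF (μ : F) = - pullForm n q P x₀ x₀ := congrArg Subtype.val hμ
  refine ⟨x₀ + e + (μ : F) • e', isRat_add (isRat_add hx₀r he) (isRat_smul μ.2 he'), ?_, ?_, ?_⟩
  · simp only [H.herm.add_left, add_right H.herm, H.herm.smul_left, smul_right H.herm, a2, b2,
      (eq_zero_comm H.herm).mp a2, (eq_zero_comm H.herm).mp b2, hee, he'e', hee', he'e]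
    linear_combination hμ'
  · rw [H.herm.add_left, H.herm.add_left, H.herm.smul_left, ea, a0, b0]; ring
  · rw [H.herm.add_left, H.herm.add_left, H.herm.smul_left, eb, a1, b1]; ring

/-- Two independent rational vectors combine to a rational isotropic vector. -/
theorem OddRatL.iso_of_two {U : Submodule F (Fin n → F)} {a b : Fin n → F} (ha : IsRatVec F₀ a) (hb : IsRatVec F₀ b)
    (haU : a ∈ U) (hbU : b ∈ U) (hind : ∀ s t : F, s • a + t • b = 0 → s = 0 ∧ t = 0) :
    ∃ u ∈ U, IsRatVec F₀ u ∧ u ≠ 0 ∧ pullForm n q P u u = 0 := by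
  have ha0 : a ≠ 0 := fun h => one_ne_zero (hind 1 0 (by rw [h, smul_zero, zero_smul, add_zero])).1
  by_cases hfa : pullForm n q P a a = 0
  · exact ⟨a, haU, ha, ha0, hfa⟩
  set t := pullForm n q P b a / pullForm n q P a a with ht
  have htF : t ∈ F₀ := div_mem (H.rat _ _ hb ha) (H.rat _ _ ha ha)
  set b' := b - t • a with hb'
  have hb'r : IsRatVec F₀ b' := isRat_sub hb (isRat_smul htF ha)
  have hb'U : b' ∈ U := U.sub_mem hbU (U.smul_mem _ haU)
  have hb'0 : b' ≠ 0 := fun h => one_ne_zero (hind (-t) 1 (by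
    rw [one_smul, neg_smul, add_comm, ← sub_eq_add_neg]; exact h)).2
  have hba : pullForm n q P b' a = 0 := by
    rw [hb', sub_left H.herm, H.herm.smul_left, ht, div_mul_cancel₀ _ hfa, sub_self]
  by_cases hfb : pullForm n q P b' b' = 0
  · exact ⟨b', hb'U, hb'r, hb'0, hfb⟩
  obtain ⟨l, hl⟩ := exists_norm H.herm₀ (a := (⟨- pullForm n q P a a / pullForm n q P b' b',
    div_mem (neg_mem (H.rat _ _ ha ha)) (H.rat _ _ hb'r hb'r)⟩ : F₀)) (Subtype.ext (by
      rw [H.coe_sigma₀, map_div₀, map_neg, sigma_apply H.herm, sigma_apply H.herm]))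
  have hl' : (l : F) * frobQ hF (l : F) = - pullForm n q P a a / pullForm n q P b' b' := congrArg Subtype.val hl
  refine ⟨a + (l : F) • b', U.add_mem haU (U.smul_mem _ hb'U), isRat_add ha (isRat_smul l.2 hb'r), fun h => ?_, ?_⟩
  · have : pullForm n q P (a + (l : F) • b') a = 0 := by rw [h, zero_left H.herm]
    rw [H.herm.add_left, H.herm.smul_left, hba, mul_zero, add_zero] at this
    exact hfa this
  · clear_value b'
    rw [H.herm.add_left, add_right H.herm, add_right H.herm, H.herm.smul_left, H.herm.smul_left, smul_right H.herm,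
      smul_right H.herm, hba, (eq_zero_comm H.herm).mp hba, ← mul_assoc, hl', div_mul_cancel₀ _ hfb]
    ring

/-- Rational transvections. -/
theorem OddRatL.uT_rat {u : Fin n → F} (hu : IsRatVec F₀ u) (huu : pullForm n q P u u = 0) {d : F}
    (hdF : d ∈ F₀) (hd : frobQ hF d = -d) :
    uT H.herm huu d ∈ subGroupF (Fin n) F₀ ⊓ isoSL (pullForm n q P) := by
  haveI : Nonempty (Fin n) := ⟨⟨0, by have := H.hn; omega⟩⟩
  refine ⟨mem_subGroupF.mpr ⟨1, one_ne_zero, fun a b => ?_⟩, fun x y => uT_iso H.herm huu hd x y,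
    transGL_mem_sl _ _ _⟩
  have h := congrFun (uT_mulVec H.herm huu d (Pi.single b 1)) a
  rw [Matrix.mulVec_single_one, Matrix.col_apply] at h
  rw [one_mul, h]
  exact isRat_add (isRat_single b) (isRat_smul (mul_mem hdF (H.rat _ _ (isRat_single b) hu)) hu) a

/-- Rational Siegel elements. -/
theorem OddRatL.eich_rat {x z : Fin n → F} (hx : IsRatVec F₀ x) (hz : IsRatVec F₀ z)
    (hzz : pullForm n q P z z = 0) (hxz : pullForm n q P x z = 0) :
    ∃ γ, γ ∈ F₀ ∧ eich H.herm hzz hxz γ ∈ subGroupF (Fin n) F₀ ⊓ isoSL (pullForm n q P) := by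
  haveI : Nonempty (Fin n) := ⟨⟨0, by have := H.hn; omega⟩⟩
  obtain ⟨μ, hμ⟩ := exists_trace H.herm₀ (a := (⟨- pullForm n q P x x, neg_mem (H.rat _ _ hx hx)⟩ : F₀))
    (Subtype.ext (by rw [H.coe_sigma₀, map_neg, sigma_apply H.herm]))
  have hμ' : (μ : F) + frobQ hF (μ : F) = - pullForm n q P x x := congrArg Subtype.val hμ
  refine ⟨(μ : F), μ.2, mem_subGroupF.mpr ⟨1, one_ne_zero, fun a b => ?_⟩,
    fun u v => eich_iso H.herm hzz hxz (by linear_combination hμ') u v, eich_mem_sl H.herm hzz hxz _⟩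
  have h := congrFun (eich_mulVec H.herm hzz hxz (μ : F) (Pi.single b 1)) a
  rw [Matrix.mulVec_single_one, Matrix.col_apply] at h
  rw [one_mul, h]
  exact isRat_add (isRat_sub (isRat_single b) (isRat_smul (H.rat _ _ (isRat_single b) hx) hz))
    (isRat_smul (H.rat _ _ (isRat_single b) hz) (isRat_add hx (isRat_smul μ.2 hz))) a

/-- Rational elements are transitive on non-zero rational isotropic vectors. -/
theorem OddRatL.move {a b : Fin n → F} (ha : IsRatVec F₀ a) (hb : IsRatVec F₀ b) (haa : pullForm n q P a a = 0)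
    (hbb : pullForm n q P b b = 0) (ha0 : a ≠ 0) (hb0 : b ≠ 0) :
    ∃ g ∈ subGroupF (Fin n) F₀ ⊓ isoSL (pullForm n q P), (g : Mat) *ᵥ a = b := by
  obtain ⟨ζ, hζF, hζ0, hζ⟩ := H.exists_skew₀
  have step : ∀ a b, IsRatVec F₀ a → IsRatVec F₀ b → pullForm n q P a a = 0 → pullForm n q P b b = 0 →
      pullForm n q P a b ≠ 0 → frobQ hF (pullForm n q P a b) = - pullForm n q P a b →
      ∃ g ∈ subGroupF (Fin n) F₀ ⊓ isoSL (pullForm n q P), (g : Mat) *ᵥ a = b := by
    intro a b ha hb haa hbb hne hsk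
    have hba : pullForm n q P b a = - pullForm n q P a b := by rw [← hsk, sigma_apply H.herm]
    have hiso : pullForm n q P (b - a) (b - a) = 0 := by
      rw [sub_left H.herm, sub_right H.herm, sub_right H.herm, haa, hbb, hba]; ring
    refine ⟨_, H.uT_rat (isRat_sub hb ha) hiso (d := (pullForm n q P a b)⁻¹) (inv_mem (H.rat _ _ ha hb))
      (by rw [map_inv₀, hsk, inv_neg]), ?_⟩
    rw [uT_mulVec, sub_right H.herm, haa, sub_zero, inv_mul_cancel₀ hne, one_smul, add_sub_cancel]
  have indep_case : ∀ a b, IsRatVec F₀ a → IsRatVec F₀ b → pullForm n q P a a = 0 → pullForm n q P b b = 0 →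
      (∀ s t : F, s • a + t • b = 0 → s = 0 ∧ t = 0) →
      ∃ g ∈ subGroupF (Fin n) F₀ ⊓ isoSL (pullForm n q P), (g : Mat) *ᵥ a = b := by
    intro a b ha hb haa hbb hind
    obtain ⟨z, hz, hzz, hza, hzb⟩ := H.exists_iso_prescribed ha hb hind hζF hζF
    have haz : pullForm n q P a z = -ζ := by rw [H.herm.herm, hza, hζ]
    obtain ⟨g₁, hg₁, e₁⟩ := step a z ha hz haa hzz (by rw [haz]; exact neg_ne_zero.mpr hζ0)
      (by rw [haz, map_neg, hζ])
    obtain ⟨g₂, hg₂, e₂⟩ := step z b hz hb hzz hbb (by rw [hzb]; exact hζ0) (by rw [hzb, hζ])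
    exact ⟨g₂ * g₁, Subgroup.mul_mem _ hg₂ hg₁, by rw [Units.val_mul, ← Matrix.mulVec_mulVec, e₁, e₂]⟩
  obtain ⟨c, c', hc, hc', oc, oc', hcc, hc'c', hcc', hc'c⟩ := H.exists_pair (show 2 ≤ 2 by norm_num) ![a, b]
    (fun i => by fin_cases i <;> assumption)
  have hind : ∀ w : Fin n → F, w ≠ 0 → pullForm n q P c' w = 0 → ∀ s t : F, s • w + t • c = 0 → s = 0 ∧ t = 0 :=
    fun w hw hcw s t h => by
    have := congrArg (fun v => pullForm n q P v c') h
    simp only [H.herm.add_left, H.herm.smul_left, (eq_zero_comm H.herm).mp hcw, hcc', mul_zero, mul_one, zero_add,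
      zero_left H.herm] at this
    exact ⟨(smul_eq_zero.mp (by rwa [this, zero_smul, add_zero] at h)).resolve_right hw, this⟩
  obtain ⟨g₁, hg₁, e₁⟩ := indep_case a c ha hc haa hcc (hind a ha0 (by simpa using oc' 0))
  obtain ⟨g₂, hg₂, e₂⟩ := indep_case c b hc hb hcc hbb
    (fun s t h => (hind b hb0 (by simpa using oc' 1) t s (by rw [add_comm]; exact h)).symm)
  exact ⟨g₂ * g₁, Subgroup.mul_mem _ hg₂ hg₁, by rw [Units.val_mul, ← Matrix.mulVec_mulVec, e₁, e₂]⟩

end

section
variable {hF : Fintype.card F = q ^ 2} {F₀ : Subfield F} {r : ℕ} {P : GL (Fin n) F} (H : OddRatL hF F₀ r P)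
include H

/-- Rational Siegel elements with given parameter. -/
theorem OddRatL.eich_rat_of {x z : Fin n → F} (hx : IsRatVec F₀ x) (hz : IsRatVec F₀ z)
    (hzz : pullForm n q P z z = 0) (hxz : pullForm n q P x z = 0) {γ : F} (hγ : γ ∈ F₀)
    (hγ' : γ + frobQ hF γ + pullForm n q P x x = 0) :
    eich H.herm hzz hxz γ ∈ subGroupF (Fin n) F₀ ⊓ isoSL (pullForm n q P) := by
  haveI : Nonempty (Fin n) := ⟨⟨0, by have := H.hn; omega⟩⟩
  refine ⟨mem_subGroupF.mpr ⟨1, one_ne_zero, fun a b => ?_⟩,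
    fun u v => eich_iso H.herm hzz hxz hγ' u v, eich_mem_sl H.herm hzz hxz _⟩
  have h := congrFun (eich_mulVec H.herm hzz hxz γ (Pi.single b 1)) a
  rw [Matrix.mulVec_single_one, Matrix.col_apply] at h
  rw [one_mul, h]
  exact isRat_add (isRat_sub (isRat_single b) (isRat_smul (H.rat _ _ (isRat_single b) hx) hz))
    (isRat_smul (H.rat _ _ (isRat_single b) hz) (isRat_add hx (isRat_smul hγ hz))) a

/-- Skew elements in the subfield, and the ratio of the degrees, give a generator outside. -/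
theorem OddRatL.finrank_prime : (Module.finrank F₀ F).Prime := by
  haveI := Fintype.ofFinite F₀
  have h1 : Fintype.card F = Fintype.card F₀ ^ Module.finrank F₀ F := Module.card_eq_pow_finrank
  rw [H.card, Nat.card_eq_fintype_card] at h1
  rw [← Nat.pow_right_injective (Fintype.one_lt_card (α := F₀)) h1]
  exact H.prime

variable {M : Subgroup (GL (Fin n) F)} (hle : subGroupF (Fin n) F₀ ⊓ isoSL (pullForm n q P) ≤ M)
  (hsu : M ≤ isoSL (pullForm n q P))
include hle hsu

/-- A new scalar gives all short Siegel elements between rational isotropic vectors. -/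
theorem OddRatL.short_all {u : Fin n → F} (hu : IsRatVec F₀ u) (hu0 : u ≠ 0) (huu : pullForm n q P u u = 0)
    {d : F} (hd : frobQ hF d = -d) (hdn : d ∉ F₀) (hmem : uT H.herm huu d ∈ M)
    {z x : Fin n → F} (hz : IsRatVec F₀ z) (hx : IsRatVec F₀ x) (hzz : pullForm n q P z z = 0)
    (hxx : pullForm n q P x x = 0) (hzx : pullForm n q P z x = 0) (c : F)
    (hcx : pullForm n q P (c • x) z = 0) : eich H.herm hzz hcx 0 ∈ M := by
  have hT : ∀ w, IsRatVec F₀ w → ∀ hww : pullForm n q P w w = 0, uT H.herm hww d ∈ M := by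
    intro w hw hww
    rcases eq_or_ne w 0 with h0 | h0
    · rw [uT_eq_one H.herm hww d h0]; exact M.one_mem
    obtain ⟨g, hg, e⟩ := H.move hu hw huu hww hu0 h0
    subst e
    rw [← conj_uT H.herm (mem_isoSL.mp hg.2).1 huu]
    exact M.mul_mem (M.mul_mem (hle hg) hmem) (M.inv_mem (hle hg))
  let S : Subalgebra F₀ F :=
    { carrier := {c | ∀ z x : Fin n → F, IsRatVec F₀ z → IsRatVec F₀ x → ∀ hzz : pullForm n q P z z = 0,
        pullForm n q P x x = 0 → pullForm n q P z x = 0 → ∀ hcx : pullForm n q P (c • x) z = 0,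
        eich H.herm hzz hcx 0 ∈ M}
      mul_mem' := fun {c c'} hc hc' z x hz hx hzz hxx hzx hcx => by
        obtain ⟨p, p', hp, hp', op, op', hpp, hp'p', hpp', hp'p⟩ := H.exists_pair (show 2 ≤ 2 by norm_num) ![z, x]
          (fun i => by fin_cases i <;> assumption)
        have b0 := op 0; have b1 := op 1; have b2 := op' 0; have b3 := op' 1
        simp at b0 b1 b2 b3
        have hA : ∀ h, eich H.herm hzz (x := (-c) • p) h 0 ∈ M := fun h => by
          have a : pullForm n q P (c • p) z = 0 := by rw [H.herm.smul_left, b0, mul_zero]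
          have e : eich H.herm hzz (x := (-c) • p) h 0 = (eich H.herm hzz a 0)⁻¹ := by
            refine (eq_inv_of_mul_eq_one_left ?_)
            have hsum : pullForm n q P ((-c) • p + c • p) z = 0 := by rw [H.herm.add_left, h, a, add_zero]
            rw [eich_mul_eich H.herm hzz h a hsum, add_zero, H.herm.smul_left, smul_right H.herm, hpp, mul_zero, mul_zero, sub_zero]
            exact gl_ext fun y => by
              rw [eich_mulVec, ← add_smul, neg_add_cancel, zero_smul, zero_smul, zero_right H.herm]; simp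
          rw [e]
          exact M.inv_mem (hc z p hz hp hzz hpp ((eq_zero_comm H.herm).mp b0) a)
        have a1 : pullForm n q P ((-c) • p) z = 0 := by rw [H.herm.smul_left, b0, mul_zero]
        have a2 : pullForm n q P (c' • x) p' = 0 := by
          rw [H.herm.smul_left, (eq_zero_comm H.herm).mp b3, mul_zero]
        have a3 : pullForm n q P ((-(-c * c')) • x) z = 0 := by
          rw [H.herm.smul_left, (eq_zero_comm H.herm).mp hzx, mul_zero]
        have key := eich_short_comm H.herm hzz hxx hpp hp'p' hzx b0 b2 b1 b3 hpp' hp'p a1 a2 a3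
        have h1 := hA a1
        have h2 := hc' p' x hp' hx hp'p' hxx b3 a2
        have h3 := M.mul_mem (M.mul_mem h1 h2) (M.inv_mem (M.mul_mem h2 h1))
        rw [key, mul_inv_cancel_right] at h3
        rwa [eich_congr H.herm hzz a3 hcx (by rw [neg_mul, neg_neg])] at h3
      add_mem' := fun {c c'} hc hc' z x hz hx hzz hxx hzx hcx => by
        have a : ∀ k : F, pullForm n q P (k • x) z = 0 := fun k => by
          rw [H.herm.smul_left, (eq_zero_comm H.herm).mp hzx, mul_zero]
        have hsum : pullForm n q P (c • x + c' • x) z = 0 := by rw [H.herm.add_left, a, a, add_zero]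
        have e := eich_mul_eich H.herm hzz (a c) (a c') hsum 0 0
        rw [add_zero, H.herm.smul_left, smul_right H.herm, hxx, mul_zero, mul_zero, sub_zero,
          eich_congr H.herm hzz _ hcx (add_smul c c' x).symm] at e
        rw [← e]
        exact M.mul_mem (hc z x hz hx hzz hxx hzx (a c)) (hc' z x hz hx hzz hxx hzx (a c'))
      algebraMap_mem' := fun c z x hz hx hzz hxx hzx hcx => hle (H.eich_rat_of (isRat_smul c.2 hx) hz hzz hcx
        (zero_mem _) (by rw [H.herm.smul_left, smul_right H.herm, hxx, map_zero, mul_zero, mul_zero]; ring)) }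
  have hdS : d ∈ S := fun z x hz hx hzz hxx hzx hdx => by
    have hs : pullForm n q P (z + x) (z + x) = 0 := by
      rw [H.herm.add_left, add_right H.herm, add_right H.herm, hzz, hxx, hzx, (eq_zero_comm H.herm).mp hzx]; ring
    have h := hT _ (isRat_add hz hx) hs
    rw [uT_add_eich H.herm hzz hxx hzx hd hdx hs] at h
    have := M.mul_mem (M.inv_mem (M.mul_mem (hT z hz hzz) (hT x hx hxx))) h
    rwa [inv_mul_cancel_left] at this
  have htop : S = ⊤ := by
    let K : IntermediateField F₀ F := S.toIntermediateField' (Subalgebra.isField_of_algebraic S)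
    haveI := IntermediateField.isSimpleOrder_of_finrank_prime F₀ F H.finrank_prime
    rcases eq_bot_or_eq_top K with hK | hK
    · exfalso
      have hcK : d ∈ K := hdS
      rw [hK, IntermediateField.mem_bot] at hcK
      obtain ⟨a, ha⟩ := hcK
      exact hdn (ha ▸ a.2)
    · exact eq_top_iff.mpr fun a _ => show a ∈ K from hK ▸ IntermediateField.mem_top
  exact (show c ∈ S from htop ▸ Algebra.mem_top) z x hz hx hzz hxx hzx hcx

/-- A new scalar makes every rational isotropic vector a centre. -/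
theorem OddRatL.rat_centres {u : Fin n → F} (hu : IsRatVec F₀ u) (hu0 : u ≠ 0) (huu : pullForm n q P u u = 0)
    {d : F} (hd : frobQ hF d = -d) (hdn : d ∉ F₀) (hmem : uT H.herm huu d ∈ M)
    {z : Fin n → F} (hz : IsRatVec F₀ z) (hzz : pullForm n q P z z = 0) : z ∈ centres H.herm M := by
  have hiso : ∀ k ∈ M, ∀ a b, pullForm n q P ((k : Mat) *ᵥ a) ((k : Mat) *ᵥ b) = pullForm n q P a b :=
    fun k hk => (mem_isoSL.mp (hsu hk)).1
  have hS := @OddRatL.short_all _ _ _ _ _ hF F₀ r P H M hle hsu u hu hu0 huu d hd hdn hmem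
  obtain ⟨ζ, hζF, hζ0, hζ⟩ := H.exists_skew₀
  obtain ⟨x, y, hx, hy, ox, oy, hxx, hyy, hxy, hyx⟩ := H.exists_pair (show 1 ≤ 2 by norm_num) ![z]
    (fun i => by fin_cases i; exact hz)
  have hxz : pullForm n q P x z = 0 := by simpa using ox 0
  have hyz : pullForm n q P y z = 0 := by simpa using oy 0
  have hzy : pullForm n q P z y = 0 := (eq_zero_comm H.herm).mp hyz
  refine ⟨hzz, fun d' hd' => ?_⟩
  obtain ⟨c, hc⟩ := exists_norm H.herm (a := d' / ζ) (by rw [map_div₀, hd', hζ, neg_div_neg_eq])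
  -- conjugate a rational transvection at `y`
  have hcx : pullForm n q P (c • x) z = 0 := by rw [H.herm.smul_left, hxz, mul_zero]
  have hgM := hS hz hx hzz hxx ((eq_zero_comm H.herm).mp hxz) c hcx
  set k : F := - frobQ hF c with hk
  have hgy : (eich H.herm hzz hcx 0 : Mat) *ᵥ y = y + k • z := by
    rw [eich_mulVec, smul_right H.herm, hyx, hyz, hk]; module
  have hyk : pullForm n q P (y + k • z) (y + k • z) = 0 := by rw [← hgy, hiso _ hgM, hyy]
  have hgy' : pullForm n q P ((eich H.herm hzz hcx 0 : Mat) *ᵥ y) ((eich H.herm hzz hcx 0 : Mat) *ᵥ y) = 0 := by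
    rw [hiso _ hgM, hyy]
  have hT : uT H.herm hyk ζ ∈ M := by
    have h1 := M.mul_mem (M.mul_mem hgM (hle (H.uT_rat hy hyy hζF hζ))) (M.inv_mem hgM)
    rw [conj_uT H.herm (hiso _ hgM) hyy ζ hgy'] at h1
    convert h1 using 1
    exact gl_ext fun v => by rw [uT_mulVec, uT_mulVec, hgy]
  have hkz : pullForm n q P (k • z) (k • z) = 0 := by rw [H.herm.smul_left, smul_right H.herm, hzz, mul_zero, mul_zero]
  have hky : pullForm n q P (k • z) y = 0 := by rw [H.herm.smul_left, hzy, mul_zero]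
  have hζy : pullForm n q P (ζ • y) (k • z) = 0 := by
    rw [H.herm.smul_left, (eq_zero_comm H.herm).mp hky, mul_zero]
  have hζy' : pullForm n q P (frobQ hF k • (ζ • y)) z = 0 := by
    rw [H.herm.smul_left, H.herm.smul_left, hyz, mul_zero, mul_zero]
  have hs : pullForm n q P (k • z + y) (k • z + y) = 0 := by rw [add_comm]; exact hyk
  have hT' : uT H.herm hs ζ ∈ M := by
    convert hT using 1
    exact gl_ext fun v => by rw [uT_mulVec, uT_mulVec, add_comm (k • z)]
  rw [uT_add_eich H.herm hkz hyy hky hζ hζy hs, eich_smul_centre H.herm hzz hkz hζy hζy'] at hT'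
  have hE : eich H.herm hzz hζy' 0 ∈ M := by
    have a : pullForm n q P ((frobQ hF k * ζ) • y) z = 0 := by rw [H.herm.smul_left, hyz, mul_zero]
    rw [eich_congr H.herm hzz hζy' a (smul_smul _ _ _)]
    exact hS hz hy hzz hyy hzy _ a
  have h2 := M.mul_mem (M.mul_mem hT' (M.inv_mem hE)) (M.inv_mem (hle (H.uT_rat hy hyy hζF hζ)))
  rw [mul_inv_cancel_right, mul_inv_cancel_right, uT_smul H.herm hzz k ζ hkz] at h2
  rwa [show k * frobQ hF k * ζ = d' by
    rw [hk, map_neg, H.herm.involutive, neg_mul_neg, mul_comm _ c, hc, div_mul_cancel₀ _ hζ0]] at h2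

/-- A new scalar generates everything. -/
theorem OddRatL.top_of_scalar {u : Fin n → F} (hu : IsRatVec F₀ u) (hu0 : u ≠ 0) (huu : pullForm n q P u u = 0)
    {d : F} (hd : frobQ hF d = -d) (hdn : d ∉ F₀) (hmem : uT H.herm huu d ∈ M) :
    isoSL (pullForm n q P) ≤ M := by
  have hiso : ∀ k ∈ M, ∀ a b, pullForm n q P ((k : Mat) *ᵥ a) ((k : Mat) *ᵥ b) = pullForm n q P a b :=
    fun k hk => (mem_isoSL.mp (hsu hk)).1
  have hC := @OddRatL.rat_centres _ _ _ _ _ hF F₀ r P H M hle hsu u hu hu0 huu d hd hdn hmem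
  have hS := @OddRatL.short_all _ _ _ _ _ hF F₀ r P H M hle hsu u hu hu0 huu d hd hdn hmem
  refine isoSL_le_of_uT hF (by have := H.hn; omega) P fun v hvv e he => ?_
  suffices hv : v ∈ centres H.herm M from hv.2 e he
  rcases eq_or_ne v 0 with rfl | hv0
  · have := centres_smul H.herm (hC hu huu) 0
    rwa [zero_smul] at this
  obtain ⟨z, hz, hzz, hvz⟩ : ∃ z, IsRatVec F₀ z ∧ pullForm n q P z z = 0 ∧ pullForm n q P v z ≠ 0 := by
    by_contra hc; push Not at hc
    obtain ⟨w, hw, hne⟩ := H.exists_nonorth hv0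
    exact hne ((eq_zero_comm H.herm).mp (H.rat_span (p := fun x => pullForm n q P v x = 0) (zero_right H.herm v)
      (fun a b ha hb => by rw [add_right H.herm, ha, hb, add_zero])
      (fun c _ a ha => by rw [smul_right H.herm, ha, mul_zero]) hc hw))
  have hz0 : z ≠ 0 := fun h => hvz (by rw [h, zero_right H.herm])
  obtain ⟨z', hz', hz'z', hzz', hz'z⟩ := H.partner hz hzz hz0
  -- every Siegel element with centre `z`
  let Y : Submodule F (Fin n → F) :=
    { carrier := {x | ∀ c : F, ∃ h : pullForm n q P (c • x) z = 0, ∃ γ, eich H.herm hzz h γ ∈ M}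
      add_mem' := fun {a b} ha hb c => by
        obtain ⟨h1, γ1, m1⟩ := ha c
        obtain ⟨h2, γ2, m2⟩ := hb c
        have h3 : pullForm n q P (c • a + c • b) z = 0 := by rw [H.herm.add_left, h1, h2, add_zero]
        have h4 : pullForm n q P (c • (a + b)) z = 0 := by rw [smul_add]; exact h3
        refine ⟨h4, γ1 + γ2 - pullForm n q P (c • b) (c • a), ?_⟩
        rw [eich_congr H.herm hzz h4 h3 (smul_add c a b), ← eich_mul_eich H.herm hzz h1 h2 h3]
        exact M.mul_mem m1 m2
      zero_mem' := fun c => by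
        refine ⟨by rw [smul_zero, zero_left H.herm], 0, ?_⟩
        convert M.one_mem
        exact gl_ext fun y => by rw [eich_mulVec, smul_zero, zero_right H.herm]; simp
      smul_mem' := fun k a ha c => by
        obtain ⟨h, γ, m⟩ := ha (c * k)
        have h' : pullForm n q P (c • k • a) z = 0 := by rw [smul_smul]; exact h
        exact ⟨h', γ, by rw [eich_congr H.herm hzz h' h (smul_smul c k a)]; exact m⟩ }
  have hYgen : ∀ x, IsRatVec F₀ x → pullForm n q P x x = 0 → pullForm n q P x z = 0 → x ∈ Y := fun x hx hxx hxz c =>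
    ⟨by rw [H.herm.smul_left, hxz, mul_zero], 0, hS hz hx hzz hxx ((eq_zero_comm H.herm).mp hxz) c _⟩
  have hY : ∀ x, pullForm n q P x z = 0 → x ∈ Y := by
    intro x hxz
    have hgen : ∀ w, IsRatVec F₀ w → w - pullForm n q P w z • z' ∈ Y := by
      intro w hw
      obtain ⟨a, b, ha, hb, oa, ob, haa, hbb, hab, hba⟩ := H.exists_pair (show 2 ≤ 2 by norm_num) ![z, z']
        (fun i => by fin_cases i <;> assumption)
      have a0 := oa 0; have b0 := ob 0
      simp at a0 b0
      set w' := w - pullForm n q P w z • z' with hw'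
      have hw'r : IsRatVec F₀ w' := isRat_sub hw (isRat_smul (H.rat _ _ hw hz) hz')
      have hw'z : pullForm n q P w' z = 0 := by rw [hw', sub_left H.herm, H.herm.smul_left, hz'z, mul_one, sub_self]
      clear_value w'
      set s := pullForm n q P w' b
      set t := pullForm n q P w' a
      set w'' := w' - s • a - t • b with hw''
      have hw''r : IsRatVec F₀ w'' := isRat_sub (isRat_sub hw'r (isRat_smul (H.rat _ _ hw'r hb) ha))
        (isRat_smul (H.rat _ _ hw'r ha) hb)
      obtain ⟨μ, hμ⟩ := exists_trace H.herm₀ (a := (⟨- pullForm n q P w'' w'',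
        neg_mem (H.rat _ _ hw''r hw''r)⟩ : F₀)) (Subtype.ext (by
          rw [H.coe_sigma₀, map_neg, sigma_apply H.herm]))
      have hμ' : (μ : F) + frobQ hF (μ : F) = - pullForm n q P w'' w'' := congrArg Subtype.val hμ
      have c1 : pullForm n q P w'' a = 0 := by
        rw [hw'', sub_left H.herm, sub_left H.herm, H.herm.smul_left, H.herm.smul_left, haa, hba]; ring
      have c2 : pullForm n q P w'' b = 0 := by
        rw [hw'', sub_left H.herm, sub_left H.herm, H.herm.smul_left, H.herm.smul_left, hab, hbb]; ring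
      have c3 : pullForm n q P w'' z = 0 := by
        rw [hw'', sub_left H.herm, sub_left H.herm, H.herm.smul_left, H.herm.smul_left, a0, b0, hw'z]; ring
      clear_value w''
      have hiso' : pullForm n q P (w'' + a + (μ : F) • b) (w'' + a + (μ : F) • b) = 0 := by
        simp only [H.herm.add_left, add_right H.herm, H.herm.smul_left, smul_right H.herm, c1, c2,
          (eq_zero_comm H.herm).mp c1, (eq_zero_comm H.herm).mp c2, haa, hbb, hab, hba]
        linear_combination hμ'
      have h1 := hYgen _ (isRat_add (isRat_add hw''r ha) (isRat_smul μ.2 hb)) hiso'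
        (by rw [H.herm.add_left, H.herm.add_left, H.herm.smul_left, c3, a0, b0]; ring)
      have e : w' = (w'' + a + (μ : F) • b) + (s - 1) • a + (t - (μ : F)) • b := by rw [hw'']; module
      rw [e]
      exact Y.add_mem (Y.add_mem h1 (Y.smul_mem _ (hYgen a ha haa a0))) (Y.smul_mem _ (hYgen b hb hbb b0))
    have e : x = ∑ i, x i • (Pi.single i 1 - pullForm n q P (Pi.single i 1) z • z') := by
      simp only [smul_sub, Finset.sum_sub_distrib, ← pi_eq_sum_univ' x, smul_smul, ← Finset.sum_smul]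
      have : ∑ i, x i * pullForm n q P (Pi.single i 1) z = 0 := by
        rw [← hxz, ← fl_apply H.herm z x]
        conv_rhs => rw [pi_eq_sum_univ' x, map_sum]
        simp [fl_apply, H.herm.smul_left]
      rw [this, zero_smul, sub_zero]
    rw [e]
    exact Y.sum_mem fun i _ => Y.smul_mem _ (hgen _ (isRat_single i))
  set v' := (pullForm n q P v z)⁻¹ • v with hv'
  have e1 : pullForm n q P v' z = 1 := by rw [hv', H.herm.smul_left, inv_mul_cancel₀ hvz]
  have e1' : pullForm n q P z v' = 1 := by rw [H.herm.herm, e1, map_one]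
  have hv'v' : pullForm n q P v' v' = 0 := by rw [hv', H.herm.smul_left, smul_right H.herm, hvv, mul_zero, mul_zero]
  have hv'c : v = pullForm n q P v z • v' := by rw [hv', smul_smul, mul_inv_cancel₀ hvz, one_smul]
  clear_value v'
  obtain ⟨hX, γ, hγ⟩ := hY (v' - z') (by rw [sub_left H.herm, e1, hz'z, sub_self]) 1
  set k := γ - pullForm n q P z' (v' - z') with hk
  have hgz : (eich H.herm hzz hX γ : Mat) *ᵥ z' = v' + k • z := by
    rw [eich_mulVec, hz'z, one_smul, hk]; module
  have hv1 : v' + k • z ∈ centres H.herm M := hgz ▸ centres_conj H.herm hiso hγ (hC hz' hz'z')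
  have hks : frobQ hF (-k) = - -k := by
    have := hv1.1
    rw [H.herm.add_left, add_right H.herm, add_right H.herm, H.herm.smul_left, smul_right H.herm, hv'v', e1, e1',
      H.herm.smul_left, smul_right H.herm, hzz] at this
    rw [map_neg, neg_neg]
    linear_combination -this
  have h2 := centres_conj H.herm hiso ((hC hz hzz).2 _ hks) hv1
  rw [uT_mulVec, H.herm.add_left, e1, H.herm.smul_left, hzz, mul_zero, add_zero, mul_one, add_assoc, ← add_smul,
    add_neg_cancel, zero_smul, add_zero] at h2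
  rw [hv'c]
  exact centres_smul H.herm h2 _

end

section
variable {hF : Fintype.card F = q ^ 2} {F₀ : Subfield F} {r : ℕ} {P : GL (Fin n) F} (H : OddRatL hF F₀ r P)
include H

/-- An element of the subfield not fixed by the involution. -/
theorem OddRatL.mem_of_diff {t : F} (h : ∀ a, a ∈ F₀ → t * frobQ hF a - a * frobQ hF t ∈ F₀) : t ∈ F₀ := by
  obtain ⟨α, hα, hne⟩ := H.sigma_ne
  have h1 : t - frobQ hF t ∈ F₀ := by simpa using h 1 (one_mem _)
  have h2 := sub_mem (h α hα) (mul_mem hα h1)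
  rw [show t * frobQ hF α - α * frobQ hF t - α * (t - frobQ hF t) = t * (frobQ hF α - α) by ring] at h2
  have := mul_mem h2 (inv_mem (sub_mem (H.sigma_mem hα) hα))
  rwa [mul_assoc, mul_inv_cancel₀ (sub_ne_zero.mpr hne), mul_one] at this

/-- A skew element outside the subfield. -/
theorem OddRatL.exists_skew_new : ∃ d, frobQ hF d = -d ∧ d ∉ F₀ := by
  by_contra hc
  push Not at hc
  have hall : ∀ t : F, t ∈ F₀ := fun t => H.mem_of_diff fun a _ => hc _ (by
    rw [map_sub, map_mul, map_mul, H.herm.involutive, H.herm.involutive]; ring)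
  haveI := Fintype.ofFinite F₀
  have h1 : Fintype.card F ≤ Fintype.card F₀ :=
    Fintype.card_le_of_injective (fun t => (⟨t, hall t⟩ : F₀)) fun a b h => congrArg Subtype.val h
  rw [H.card, Nat.card_eq_fintype_card] at h1
  have h2 : Fintype.card F₀ ^ 1 < Fintype.card F₀ ^ r :=
    Nat.pow_lt_pow_right Fintype.one_lt_card H.prime.one_lt
  rw [pow_one] at h2
  omega

/-- Rationality of the ratio of two rational vectors with rational combination. -/
theorem OddRatL.ratio {a b w : Fin n → F} (ha : IsRatVec F₀ a) (hb : IsRatVec F₀ b) (hw : IsRatVec F₀ w)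
    (hind : ∀ s t : F, s • a + t • b = 0 → s = 0 ∧ t = 0) {k L : F} (h : a + k • b = L • w) : k ∈ F₀ := by
  obtain ⟨p, hp, -, pa, pb⟩ := H.exists_iso_prescribed ha hb hind (one_mem F₀) (zero_mem F₀)
  obtain ⟨p', hp', -, pa', pb'⟩ := H.exists_iso_prescribed ha hb hind (zero_mem F₀) (one_mem F₀)
  have e1 := congrArg (fun v => pullForm n q P v p) h
  have e2 := congrArg (fun v => pullForm n q P v p') h
  simp only [H.herm.add_left, H.herm.smul_left] at e1 e2
  rw [H.herm.herm a p, H.herm.herm b p, pa, pb, map_one, map_zero, mul_zero, add_zero] at e1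
  rw [H.herm.herm a p', H.herm.herm b p', pa', pb', map_one, map_zero, mul_one, zero_add] at e2
  have hL : L ∈ F₀ := by
    rw [eq_inv_of_mul_eq_one_left e1.symm]; exact inv_mem (H.rat _ _ hw hp)
  rw [e2]; exact mul_mem hL (H.rat _ _ hw hp')

variable {M : Subgroup (GL (Fin n) F)} (hle : subGroupF (Fin n) F₀ ⊓ isoSL (pullForm n q P) ≤ M)
  (hsu : M ≤ isoSL (pullForm n q P))
  (hns : ∀ u, IsRatVec F₀ u → u ≠ 0 → ∀ h : pullForm n q P u u = 0, ∀ d, frobQ hF d = -d →
    uT H.herm h d ∈ M → d ∈ F₀)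
include hle hsu hns

/-- Siegel elements with rational centre have rational parameters. -/
theorem OddRatL.siegel_param {z X : Fin n → F} (hz : IsRatVec F₀ z) (hz0 : z ≠ 0) (hzz : pullForm n q P z z = 0)
    (hXz : pullForm n q P X z = 0) {γ : F} (hmem : eich H.herm hzz hXz γ ∈ M) {x' : Fin n → F}
    (hx' : IsRatVec F₀ x') (hx'z : pullForm n q P x' z = 0) : pullForm n q P X x' ∈ F₀ := by
  refine H.mem_of_diff fun a ha => ?_
  have haz : pullForm n q P (a • x') z = 0 := by rw [H.herm.smul_left, hx'z, mul_zero]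
  obtain ⟨μ, hμ⟩ := exists_trace H.herm₀ (a := (⟨- pullForm n q P (a • x') (a • x'),
    neg_mem (H.rat _ _ (isRat_smul ha hx') (isRat_smul ha hx'))⟩ : F₀)) (Subtype.ext (by
      rw [H.coe_sigma₀, map_neg, sigma_apply H.herm]))
  have hμ' : (μ : F) + frobQ hF (μ : F) = - pullForm n q P (a • x') (a • x') := congrArg Subtype.val hμ
  have h' := hle (H.eich_rat_of (isRat_smul ha hx') hz hzz haz μ.2 (by linear_combination hμ'))
  have h1 := M.mul_mem (M.mul_mem hmem h') (M.inv_mem (M.mul_mem h' hmem))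
  rw [eich_comm' H.herm hzz hXz haz, mul_inv_cancel_right] at h1
  have h2 := hns z hz hz0 hzz _ (by rw [map_sub, sigma_apply H.herm, sigma_apply H.herm, neg_sub]) h1
  rw [smul_right H.herm, H.herm.smul_left, H.herm.herm x' X] at h2
  rwa [mul_comm (frobQ hF a)] at h2

/-- An isotropic centre orthogonal to a rational isotropic vector is proportional to a rational vector. -/
theorem OddRatL.centre_line {v z : Fin n → F} (hvv : pullForm n q P v v = 0) {d : F} (hdF : d ∈ F₀) (hd0 : d ≠ 0)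
    (hd : frobQ hF d = -d) (hmem : uT H.herm hvv d ∈ M) (hz : IsRatVec F₀ z) (hz0 : z ≠ 0)
    (hzz : pullForm n q P z z = 0) (hzv : pullForm n q P z v = 0) : RatLine F₀ v := by
  classical
  obtain ⟨z', hz', -, hzz', hz'z⟩ := H.partner hz hzz hz0
  have hvz := (eq_zero_comm H.herm).mp hzv
  -- a vector orthogonal to the rational perp of `z`
  have hperp : ∀ w : Fin n → F, (∀ x, IsRatVec F₀ x → pullForm n q P x z = 0 → pullForm n q P x w = 0) →
      w = pullForm n q P w z' • z := by
    intro w hw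
    by_contra hne
    obtain ⟨x, hx, hxne⟩ := H.exists_nonorth (sub_ne_zero.mpr hne)
    refine hxne ?_
    have h1 := hw (x - pullForm n q P x z • z') (isRat_sub hx (isRat_smul (H.rat _ _ hx hz) hz'))
      (by rw [sub_left H.herm, H.herm.smul_left, hz'z, mul_one, sub_self])
    rw [sub_left H.herm, H.herm.smul_left] at h1
    rw [sub_right H.herm, smul_right H.herm, sigma_apply H.herm]
    linear_combination h1
  by_cases hzero : ∀ x, IsRatVec F₀ x → pullForm n q P x z = 0 → pullForm n q P x v = 0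
  · exact ⟨_, z, hz, hperp v hzero⟩
  push Not at hzero
  obtain ⟨x₀, hx₀, hx₀z, hx₀v⟩ := hzero
  set t := pullForm n q P x₀ v with ht
  -- conjugated Siegel elements give rational products
  have hprod : ∀ x x', IsRatVec F₀ x → IsRatVec F₀ x' → pullForm n q P x z = 0 → pullForm n q P x' z = 0 →
      pullForm n q P x v * pullForm n q P v x' ∈ F₀ := by
    intro x x' hx hx' hxz hx'z
    obtain ⟨γ, -, hγ⟩ := H.eich_rat hx hz hzz hxz
    set s := uT H.herm hvv d
    have hs := (mem_isoSL.mp (hsu hmem)).1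
    have hsz : (s : Mat) *ᵥ z = z := by rw [uT_mulVec, hzv, mul_zero, zero_smul, add_zero]
    have h1 := M.mul_mem (M.mul_mem hmem (hle hγ)) (M.inv_mem hmem)
    rw [conj_eich H.herm hs hzz hxz (by rw [hs]; exact hzz) (by rw [hs]; exact hxz)] at h1
    have hsxz : pullForm n q P ((s : Mat) *ᵥ x) z = 0 := by
      conv_lhs => rw [← hsz]
      rw [hs, hxz]
    have h2 : eich H.herm hzz hsxz γ ∈ M := by
      convert h1 using 1
      exact gl_ext fun y => by rw [eich_mulVec, eich_mulVec, hsz]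
    have h3 := H.siegel_param hle hsu hns hz hz0 hzz hsxz h2 hx' hx'z
    rw [uT_mulVec, H.herm.add_left, H.herm.smul_left] at h3
    have h4 := mul_mem (inv_mem hdF) (sub_mem h3 (H.rat _ _ hx hx'))
    rwa [add_sub_cancel_left, mul_assoc d, inv_mul_cancel_left₀ hd0] at h4
  have hvx₀ : pullForm n q P v x₀ ≠ 0 := fun h => hx₀v ((eq_zero_comm H.herm).mp h)
  have hg : ∀ a : Fin n → F₀, H.form₀ a (fun i => ⟨z i, hz i⟩) = 0 → pullForm n q P (incV a) v / t ∈ F₀ := by
    intro a ha
    have haz : pullForm n q P (incV a) z = 0 := congrArg Subtype.val ha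
    rw [← mul_div_mul_right _ _ hvx₀]
    exact div_mem (hprod _ _ (incV_rat a) hx₀ haz hx₀z) (hprod _ _ hx₀ hx₀ hx₀z hx₀z)
  let z₀ : Fin n → F₀ := fun i => ⟨z i, hz i⟩
  let φ : LinearMap.ker (fl H.herm₀ z₀) →ₗ[F₀] F₀ :=
    { toFun := fun a => ⟨pullForm n q P (incV a.1) v / t, hg a.1 a.2⟩
      map_add' := fun a b => Subtype.ext (by
        change pullForm n q P (incV (a.1 + b.1)) v / t = _ / t + _ / t
        rw [incV_add, H.herm.add_left, add_div])
      map_smul' := fun c a => Subtype.ext (by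
        change pullForm n q P (incV (c • a.1)) v / t = (c : F) * (_ / t)
        rw [incV_smul, H.herm.smul_left, mul_div_assoc]) }
  obtain ⟨ψ, hψ⟩ := LinearMap.exists_extend φ
  obtain ⟨p₀, hp₀⟩ := fl_surjective H.herm₀ ψ
  set p := incV p₀
  have hxp : ∀ x, IsRatVec F₀ x → pullForm n q P x z = 0 → pullForm n q P x p = pullForm n q P x v / t := by
    intro x hx hxz
    obtain ⟨a, rfl⟩ := exists_incV hx
    have e := congrArg Subtype.val (LinearMap.congr_fun hψ ⟨a, Subtype.ext hxz⟩)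
    rw [← hp₀] at e
    exact e
  have h0 : pullForm n q P x₀ p = 1 := by rw [hxp x₀ hx₀ hx₀z, div_self hx₀v]
  have hw := hperp (v - frobQ hF t • p) fun x hx hxz => by
    rw [sub_right H.herm, smul_right H.herm, H.herm.involutive, hxp x hx hxz, mul_div_cancel₀ _ hx₀v, sub_self]
  set k := frobQ hF t with hk
  have hk0 : k ≠ 0 := by simpa [hk] using hx₀v
  set a := k⁻¹ * pullForm n q P (v - k • p) z' with ha
  have hve : v = k • (p + a • z) := by
    rw [smul_add, smul_smul, ha, ← mul_assoc, mul_inv_cancel₀ hk0, one_mul, ← hw, add_sub_cancel]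
  clear_value a
  have hkv : pullForm n q P (k • (p + a • z)) (k • (p + a • z)) = 0 := by rw [← hve]; exact hvv
  have hmem : uT H.herm hkv d ∈ M := by
    convert hmem using 1
    exact gl_ext fun y => by rw [uT_mulVec, uT_mulVec, hve]
  refine ⟨k, p + a • z, isRat_add (incV_rat p₀) (isRat_smul ?_ hz), hve⟩
  -- the parameter is rational
  have hpz : pullForm n q P p z = 0 := by
    rw [hve, H.herm.smul_left, H.herm.add_left, H.herm.smul_left, hzz, mul_zero, add_zero] at hvz
    exact (mul_eq_zero.mp hvz).resolve_left hk0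
  have hzp := (eq_zero_comm H.herm).mp hpz
  have hs : pullForm n q P (p + a • z) (p + a • z) = 0 := by
    have hkv' := hkv
    rw [H.herm.smul_left, smul_right H.herm, mul_eq_zero, mul_eq_zero] at hkv'
    rcases hkv' with h | h | h
    · exact absurd h hk0
    · exact absurd h (by simpa using hk0)
    · exact h
  have hpp : pullForm n q P p p = 0 := by
    simpa [H.herm.add_left, add_right H.herm, H.herm.smul_left, smul_right H.herm, hzz, hpz, hzp] using hs
  have haa : pullForm n q P (a • z) (a • z) = 0 := by rw [H.herm.smul_left, smul_right H.herm, hzz, mul_zero, mul_zero]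
  have hN : k * frobQ hF k ∈ F₀ := by
    have := hprod x₀ x₀ hx₀ hx₀ hx₀z hx₀z
    rw [hk, H.herm.involutive, sigma_apply H.herm, mul_comm]
    exact this
  set d' := k * frobQ hF k * d with hd'
  have hd'F : d' ∈ F₀ := mul_mem hN hdF
  have hd's : frobQ hF d' = -d' := by rw [hd', map_mul, map_mul, hd, H.herm.involutive]; ring
  rw [uT_smul H.herm hs] at hmem
  rw [← hd'] at hmem
  have hs' : pullForm n q P (a • z + p) (a • z + p) = 0 := by rw [add_comm]; exact hs
  have hmem' : uT H.herm hs' d' ∈ M := by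
    convert hmem using 1
    exact gl_ext fun y => by rw [uT_mulVec, uT_mulVec, add_comm (a • z)]
  have hzp' : pullForm n q P (a • z) p = 0 := by rw [H.herm.smul_left, hzp, mul_zero]
  have hdp : pullForm n q P (d' • p) (a • z) = 0 := by
    rw [H.herm.smul_left, (eq_zero_comm H.herm).mp hzp', mul_zero]
  have hX : pullForm n q P (frobQ hF a • (d' • p)) z = 0 := by
    rw [H.herm.smul_left, H.herm.smul_left, hpz, mul_zero, mul_zero]
  rw [uT_add_eich H.herm haa hpp hzp' hd's hdp hs', eich_smul_centre H.herm hzz haa hdp hX] at hmem'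
  -- remove the rational transvection, which commutes with the rest
  have hcomm : uT H.herm haa d' * uT H.herm hpp d' = uT H.herm hpp d' * uT H.herm haa d' := by
    refine gl_ext fun y => ?_
    simp only [Units.val_mul, ← Matrix.mulVec_mulVec, uT_mulVec, H.herm.add_left, H.herm.smul_left,
      smul_right H.herm, hzp, hpz, mul_zero, add_zero]
    module
  rw [hcomm, mul_assoc] at hmem'
  have h5 := M.mul_mem (M.inv_mem (hle (H.uT_rat (incV_rat p₀) hpp hd'F hd's))) hmem'
  rw [inv_mul_cancel_left, uT_smul H.herm hzz a d' haa, uT_mul_eich H.herm hzz hX] at h5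
  have h6 := H.siegel_param hle hsu hns hz hz0 hzz hX h5 hx₀ hx₀z
  rw [H.herm.smul_left, H.herm.smul_left, H.herm.herm p x₀, h0, map_one, mul_one] at h6
  have hd'0 : d' ≠ 0 := mul_ne_zero (mul_ne_zero hk0 (by simpa using hk0)) hd0
  have h7 := H.sigma_mem (mul_mem h6 (inv_mem hd'F))
  rwa [mul_assoc, mul_inv_cancel₀ hd'0, mul_one, H.herm.involutive] at h7

/-- An element sending a rational isotropic vector orthogonally to another one is in the subfield subgroup. -/
theorem OddRatL.orth_mem {y : GL (Fin n) F} (hy : y ∈ M) {u u' : Fin n → F} (hu : IsRatVec F₀ u) (hu0 : u ≠ 0)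
    (huu : pullForm n q P u u = 0) (hu' : IsRatVec F₀ u') (hu'0 : u' ≠ 0) (hu'u' : pullForm n q P u' u' = 0)
    (horth : pullForm n q P u' ((y : Mat) *ᵥ u) = 0) : y ∈ subGroupF (Fin n) F₀ := by
  haveI : Nonempty (Fin n) := ⟨⟨0, by have := H.hn; omega⟩⟩
  obtain ⟨ζ, hζF, hζ0, hζ⟩ := H.exists_skew₀
  have hiso := (mem_isoSL.mp (hsu hy)).1
  have hne : ∀ v : Fin n → F, v ≠ 0 → (y : Mat) *ᵥ v ≠ 0 := fun v hv h0 => hv (gl_mulVec_injective y (by
    change (y : Mat) *ᵥ v = (y : Mat) *ᵥ 0
    rw [h0, Matrix.mulVec_zero]))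
  have base : ∀ w, IsRatVec F₀ w → w ≠ 0 → pullForm n q P w w = 0 →
      ∀ z, IsRatVec F₀ z → z ≠ 0 → pullForm n q P z z = 0 → pullForm n q P z ((y : Mat) *ᵥ w) = 0 →
      ∃ (k : F) (r : Fin n → F), IsRatVec F₀ r ∧ k ≠ 0 ∧ r ≠ 0 ∧ pullForm n q P r r = 0 ∧
        (y : Mat) *ᵥ w = k • r := by
    intro w hw hw0 hww z hz hz0 hzz ho
    have hvv : pullForm n q P ((y : Mat) *ᵥ w) ((y : Mat) *ᵥ w) = 0 := by rw [hiso, hww]
    have h1 := M.mul_mem (M.mul_mem hy (hle (H.uT_rat hw hww hζF hζ))) (M.inv_mem hy)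
    rw [conj_uT H.herm hiso hww ζ hvv] at h1
    obtain ⟨k, rr, hr, e⟩ := H.centre_line hle hsu hns hvv hζF hζ0 hζ h1 hz hz0 hzz ho
    have hk : k ≠ 0 := fun h => hne w hw0 (by rw [e, h, zero_smul])
    refine ⟨k, rr, hr, hk, fun h => hne w hw0 (by rw [e, h, smul_zero]), ?_, e⟩
    rw [e, H.herm.smul_left, smul_right H.herm] at hvv
    simpa [hk] using hvv
  have step : ∀ z, (∃ (k : F) (r : Fin n → F), IsRatVec F₀ r ∧ k ≠ 0 ∧ r ≠ 0 ∧ pullForm n q P r r = 0 ∧
        (y : Mat) *ᵥ z = k • r) → ∀ w, IsRatVec F₀ w → w ≠ 0 → pullForm n q P w w = 0 →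
      pullForm n q P z w = 0 →
      ∃ (k : F) (r : Fin n → F), IsRatVec F₀ r ∧ k ≠ 0 ∧ r ≠ 0 ∧ pullForm n q P r r = 0 ∧
        (y : Mat) *ᵥ w = k • r := by
    rintro z ⟨k, rr, hr, hk, hr0, hrr, e⟩ w hw hw0 hww ho
    refine base w hw hw0 hww rr hr hr0 hrr ?_
    have := hiso z w
    rw [e, H.herm.smul_left, ho] at this
    exact (mul_eq_zero.mp this).resolve_left hk
  have hu1 := base u hu hu0 huu u' hu' hu'0 hu'u' horth
  have hline : ∀ w, IsRatVec F₀ w → pullForm n q P w w = 0 → w ≠ 0 →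
      ∃ (k : F) (r : Fin n → F), IsRatVec F₀ r ∧ k ≠ 0 ∧ r ≠ 0 ∧ pullForm n q P r r = 0 ∧
        (y : Mat) *ᵥ w = k • r := by
    intro w hw hww hw0
    obtain ⟨z, z', hz, -, oz, -, hzz, -, hzz', -⟩ := H.exists_pair (show 2 ≤ 2 by norm_num) ![u, w]
      (fun i => by fin_cases i <;> assumption)
    have o1 : pullForm n q P z u = 0 := by simpa using oz 0
    have o2 : pullForm n q P z w = 0 := by simpa using oz 1
    have hz0 : z ≠ 0 := fun h => by rw [h, zero_left H.herm] at hzz'; exact zero_ne_one hzz'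
    exact step z (step u hu1 z hz hz0 hzz ((eq_zero_comm H.herm).mp o1)) w hw hw0 hww o2
  have hsum : ∀ a b k l ra rb, IsRatVec F₀ a → IsRatVec F₀ b → pullForm n q P a a = 0 → pullForm n q P b b = 0 →
      pullForm n q P a b = 0 → (∀ s t : F, s • a + t • b = 0 → s = 0 ∧ t = 0) →
      IsRatVec F₀ ra → IsRatVec F₀ rb → k ≠ 0 → l ≠ 0 → (y : Mat) *ᵥ a = k • ra → (y : Mat) *ᵥ b = l • rb →
      l / k ∈ F₀ := by
    intro a b k l ra rb ha hb haa hbb hab hind hra hrb hk hl ea eb
    have hiso' : pullForm n q P (a + b) (a + b) = 0 := by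
      rw [H.herm.add_left, add_right H.herm, add_right H.herm, haa, hbb, hab, (eq_zero_comm H.herm).mp hab]; ring
    have hne' : a + b ≠ 0 := fun h => one_ne_zero (hind 1 1 (by rw [one_smul, one_smul]; exact h)).1
    obtain ⟨m', r', hr', -, -, -, e'⟩ := hline (a + b) (isRat_add ha hb) hiso' hne'
    rw [Matrix.mulVec_add, ea, eb] at e'
    refine H.ratio hra hrb hr' (fun s t hst => ?_) (k := l / k) (L := m' / k) ?_
    · have : (y : Mat) *ᵥ ((s / k) • a + (t / l) • b) = (y : Mat) *ᵥ 0 := by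
        rw [Matrix.mulVec_add, Matrix.mulVec_smul, Matrix.mulVec_smul, ea, eb, smul_smul, smul_smul,
          div_mul_cancel₀ _ hk, div_mul_cancel₀ _ hl, hst, Matrix.mulVec_zero]
      obtain ⟨h1, h2⟩ := hind _ _ (gl_mulVec_injective y this)
      exact ⟨(div_eq_zero_iff.mp h1).resolve_right hk, (div_eq_zero_iff.mp h2).resolve_right hl⟩
    · have := congrArg (fun v => k⁻¹ • v) e'
      simp only [smul_add, smul_smul, inv_mul_cancel₀ hk, one_smul] at this
      simpa [div_eq_inv_mul] using this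
  obtain ⟨c, r₁, hr₁, hc0, -, -, hyu⟩ := hu1
  have hall : ∀ z, IsRatVec F₀ z → pullForm n q P z z = 0 → IsRatVec F₀ (c⁻¹ • (y : Mat) *ᵥ z) := by
    intro z hz hzz
    rcases eq_or_ne z 0 with rfl | hz0
    · rw [Matrix.mulVec_zero, smul_zero]; exact fun i => zero_mem _
    obtain ⟨x, x', hx, hx', ox, ox', hxx, hx'x', hxx', hx'x⟩ := H.exists_pair (show 2 ≤ 2 by norm_num) ![u, z]
      (fun i => by fin_cases i <;> assumption)
    have hx0 : x ≠ 0 := fun h => by rw [h, zero_left H.herm] at hxx'; exact zero_ne_one hxx'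
    obtain ⟨cx, rx, hrx, hcx, -, -, ex⟩ := hline x hx hxx hx0
    obtain ⟨cz, rz, hrz, hcz, -, -, ez⟩ := hline z hz hzz hz0
    have hind : ∀ w : Fin n → F, w ≠ 0 → pullForm n q P x' w = 0 →
        ∀ a b : F, a • w + b • x = 0 → a = 0 ∧ b = 0 := fun w hw hxw a b hab => by
      have := congrArg (fun v => pullForm n q P v x') hab
      simp only [H.herm.add_left, H.herm.smul_left, (eq_zero_comm H.herm).mp hxw, hxx', mul_zero, mul_one, zero_add,
        zero_left H.herm] at this
      exact ⟨(smul_eq_zero.mp (by rwa [this, zero_smul, add_zero] at hab)).resolve_right hw, this⟩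
    have o1 : pullForm n q P x u = 0 := by simpa using ox 0
    have o2 : pullForm n q P x z = 0 := by simpa using ox 1
    have o1' : pullForm n q P x' u = 0 := by simpa using ox' 0
    have o2' : pullForm n q P x' z = 0 := by simpa using ox' 1
    have q1 := hsum u x c cx r₁ rx hu hx huu hxx ((eq_zero_comm H.herm).mp o1) (hind u hu0 o1') hr₁ hrx hc0 hcx
      hyu ex
    have q2 := hsum z x cz cx rz rx hz hx hzz hxx ((eq_zero_comm H.herm).mp o2) (hind z hz0 o2') hrz hrx hcz hcx ez ex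
    rw [ez, smul_smul]
    refine isRat_smul ?_ hrz
    have := mul_mem q1 (inv_mem q2)
    rwa [inv_div, div_mul_div_comm, mul_comm c cx, mul_div_mul_left _ _ hcx, div_eq_inv_mul] at this
  refine mem_subGroupF.mpr ⟨c⁻¹, inv_ne_zero hc0, fun a b => ?_⟩
  have := H.rat_span (p := fun x => IsRatVec F₀ (c⁻¹ • (y : Mat) *ᵥ x))
    (by rw [Matrix.mulVec_zero, smul_zero]; exact fun i => zero_mem _)
    (fun x w hx hw => by rw [Matrix.mulVec_add, smul_add]; exact isRat_add hx hw)
    (fun k hk x hx => by rw [Matrix.mulVec_smul, smul_comm]; exact isRat_smul hk hx) hall (isRat_single b) a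
  rwa [Pi.smul_apply, Matrix.mulVec_single_one, Matrix.col_apply, smul_eq_mul] at this

end

section
variable {hF : Fintype.card F = q ^ 2} {F₀ : Subfield F} {r : ℕ} {P : GL (Fin n) F} (H : OddRatL hF F₀ r P)
include H

theorem OddRatL.sq_mem {c : F} (hc : c * c ∈ F₀) : c ∈ F₀ := by
  haveI := Fintype.ofFinite F₀
  rcases Nat.even_or_odd (Nat.card F₀) with h | h
  · haveI : CharP F 2 := by
      haveI : CharP F₀ 2 := ringChar.of_eq (FiniteField.even_card_iff_char_two.mpr
        (by rw [← Nat.card_eq_fintype_card]; exact Nat.even_iff.mp h))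
      exact CharTwo.of_one_ne_zero_of_two_eq_zero one_ne_zero
        (congrArg Subtype.val (CharTwo.two_eq_zero (R := F₀)))
    haveI : Fact (Nat.Prime 2) := ⟨Nat.prime_two⟩
    exact mem_subfield_of_pow_char 2 F₀ (by rwa [pow_two])
  · exact mem_subfield_of_sq F₀ H.odd h H.card hc

/-- An involution in the subfield subgroup is rational. -/
theorem OddRatL.rat_of_invol {z : GL (Fin n) F} (hz : z ∈ subGroupF (Fin n) F₀) (hzz : z * z = 1) (a b : Fin n) :
    (z : Mat) a b ∈ F₀ := by
  haveI : Nonempty (Fin n) := ⟨a⟩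
  obtain ⟨c, hc, h⟩ := mem_subGroupF.mp hz
  have h1 : c * c ∈ F₀ := by
    have e : ∑ y, c * (z : Mat) a y * (c * (z : Mat) y a) = c * c := by
      calc _ = c * c * ∑ y, (z : Mat) a y * (z : Mat) y a := by
            rw [Finset.mul_sum]; exact Finset.sum_congr rfl fun _ _ => by ring
        _ = c * c * ((z : Mat) * (z : Mat)) a a := by rw [Matrix.mul_apply]
        _ = c * c := by rw [← Units.val_mul, hzz, Units.val_one, Matrix.one_apply_eq, mul_one]
    exact e ▸ sum_mem fun y _ => mul_mem (h a y) (h y a)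
  have := mul_mem (inv_mem (H.sq_mem h1)) (h a b)
  rwa [← mul_assoc, inv_mul_cancel₀ hc, one_mul] at this

/-- A rational eigenspace of an involution of dimension at least two has a rational isotropic vector. -/
theorem OddRatL.fixed_iso (h2 : (2 : F) ≠ 0) {z : GL (Fin n) F} (hz : ∀ a b, (z : Mat) a b ∈ F₀) (hzz : z * z = 1)
    {s : F} (hs : s ∈ F₀) (hss : s * s = 1)
    (hline : ∀ w : Fin n → F, ∃ v, (z : Mat) *ᵥ v = s • v ∧ ∀ a : F, v ≠ a • w) :
    ∃ u, IsRatVec F₀ u ∧ u ≠ 0 ∧ pullForm n q P u u = 0 ∧ (z : Mat) *ᵥ u = s • u := by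
  classical
  let L : (Fin n → F) →ₗ[F] (Fin n → F) := LinearMap.id + s • Matrix.mulVecLin (z : Mat)
  have hL : ∀ v, L v = v + s • (z : Mat) *ᵥ v := fun v => rfl
  let y : Fin n → (Fin n → F) := fun b => L (Pi.single b 1)
  have hy : ∀ b, IsRatVec F₀ (y b) ∧ (z : Mat) *ᵥ y b = s • y b := fun b => by
    refine ⟨isRat_add (isRat_single b) (isRat_smul hs (mulVec_rat hz (isRat_single b))), ?_⟩
    change (z : Mat) *ᵥ L _ = s • L _
    rw [hL, Matrix.mulVec_add, Matrix.mulVec_smul, Matrix.mulVec_mulVec, ← Units.val_mul, hzz, Units.val_one,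
      Matrix.one_mulVec, smul_add, smul_smul, hss, one_smul, add_comm]
  have hspan : ∀ w, (∀ b, ∃ a : F, y b = a • w) → ∀ v, (z : Mat) *ᵥ v = s • v → ∃ a : F, v = a • w := by
    intro w hw v hv
    choose a ha using hw
    refine ⟨(2 : F)⁻¹ * ∑ b, v b * a b, ?_⟩
    have e : L v = (2 : F) • v := by rw [hL, hv, smul_smul, hss, one_smul, two_smul]
    have e' : L v = (∑ b, v b * a b) • w := by
      conv_lhs => rw [pi_eq_sum_univ' v, map_sum]
      rw [Finset.sum_smul]
      exact Finset.sum_congr rfl fun b _ => by rw [map_smul, show L (Pi.single b 1) = a b • w from ha b, smul_smul]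
    rw [← smul_smul, ← e', e, smul_smul, inv_mul_cancel₀ h2, one_smul]
  obtain ⟨b, hb⟩ : ∃ b, y b ≠ 0 := by
    by_contra hc; push Not at hc
    obtain ⟨v, hv, hne⟩ := hline 0
    obtain ⟨a, ha⟩ := hspan 0 (fun b => ⟨0, by rw [hc b, zero_smul]⟩) v hv
    exact hne a ha
  obtain ⟨c, hc⟩ : ∃ c, ∀ a : F, y c ≠ a • y b := by
    by_contra hc; push Not at hc
    obtain ⟨v, hv, hne⟩ := hline (y b)
    obtain ⟨a, ha⟩ := hspan _ hc v hv
    exact hne a ha
  let U : Submodule F (Fin n → F) :=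
    { carrier := {v | (z : Mat) *ᵥ v = s • v}
      add_mem' := fun {x w} hx hw => by
        change _ = s • (x + w)
        rw [Matrix.mulVec_add, hx, hw, smul_add]
      zero_mem' := by simp
      smul_mem' := fun k x hx => by
        change _ = s • (k • x)
        rw [Matrix.mulVec_smul, hx, smul_comm] }
  obtain ⟨u, huU, hu, hu0, huu⟩ := H.iso_of_two (U := U) (hy b).1 (hy c).1 (hy b).2 (hy c).2 fun k t h => by
    rcases eq_or_ne t 0 with rfl | ht
    · rw [zero_smul, add_zero, smul_eq_zero] at h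
      exact ⟨h.resolve_right hb, rfl⟩
    · refine absurd ?_ (hc (-(k / t)))
      have := congrArg (fun w => t⁻¹ • w) h
      simp only [smul_add, smul_smul, inv_mul_cancel₀ ht, one_smul, smul_zero] at this
      rw [eq_neg_of_add_eq_zero_right this, neg_smul, div_eq_inv_mul]
  exact ⟨u, hu, hu0, huu, huU⟩

/-- Common kernels of few functionals are not in a line. -/
theorem OddRatL.perp_not_line {k : ℕ} (hk : k + 2 ≤ n) (v : Fin k → Fin n → F) (w : Fin n → F) :
    ∃ x, (∀ i, pullForm n q P x (v i) = 0) ∧ ∀ a : F, x ≠ a • w := by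
  by_contra hc
  push Not at hc
  have hU : LinearMap.ker (LinearMap.pi fun i => fl H.herm (v i)) ≤ Submodule.span F {w} := fun x hx => by
    obtain ⟨a, rfl⟩ := hc x ((mem_perp H.herm v x).mp hx)
    exact Submodule.smul_mem _ _ (Submodule.mem_span_singleton_self w)
  have h1 := Submodule.finrank_mono hU
  have h2 := finrank_perp H.herm v
  have h3 := finrank_span_le_card (R := F) ({w} : Set (Fin n → F))
  rw [Set.toFinset_singleton, Finset.card_singleton] at h3
  rw [Fintype.card_fin] at h2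
  have := H.hn
  omega

/-- The involution negating a rational hyperbolic pair. -/
theorem OddRatL.neg_plane {e e' : Fin n → F} (he : IsRatVec F₀ e) (he' : IsRatVec F₀ e')
    (hee : pullForm n q P e e = 0) (he'e' : pullForm n q P e' e' = 0) (h1 : pullForm n q P e e' = 1)
    (h2 : pullForm n q P e' e = 1) :
    ∃ D ∈ subGroupF (Fin n) F₀ ⊓ isoSL (pullForm n q P), ∀ y, (D : Mat) *ᵥ y =
      y - (2 * pullForm n q P y e') • e - (2 * pullForm n q P y e) • e' := by
  obtain ⟨ζ, hζF, hζ0, hζ⟩ := H.exists_skew₀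
  have hb : frobQ hF (-ζ⁻¹) = - -ζ⁻¹ := by rw [map_neg, map_inv₀, hζ, inv_neg]
  set w := uT H.herm hee ζ * uT H.herm he'e' (-ζ⁻¹) * uT H.herm hee ζ with hw
  have hwm : w ∈ subGroupF (Fin n) F₀ ⊓ isoSL (pullForm n q P) :=
    Subgroup.mul_mem _ (Subgroup.mul_mem _ (H.uT_rat he hee hζF hζ) (H.uT_rat he' he'e' (neg_mem (inv_mem hζF)) hb))
      (H.uT_rat he hee hζF hζ)
  have hwy : ∀ y, (w : Mat) *ᵥ y = y + (ζ * pullForm n q P y e - pullForm n q P y e') • e +
      ((-ζ⁻¹) * pullForm n q P y e' - pullForm n q P y e) • e' := fun y => by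
    simp only [hw, Units.val_mul, ← Matrix.mulVec_mulVec, uT_mulVec, H.herm.add_left, H.herm.smul_left, hee, he'e',
      h1, h2, mul_zero, mul_one, add_zero]
    match_scalars <;> field_simp <;> ring
  refine ⟨w * w, Subgroup.mul_mem _ hwm hwm, fun y => ?_⟩
  simp only [Units.val_mul, ← Matrix.mulVec_mulVec, hwy, H.herm.add_left, H.herm.smul_left, hee, he'e', h1, h2,
    mul_zero, mul_one, add_zero, zero_add]
  match_scalars <;> field_simp <;> ring

variable {M : Subgroup (GL (Fin n) F)} (hle : subGroupF (Fin n) F₀ ⊓ isoSL (pullForm n q P) ≤ M)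
  (hsu : M ≤ isoSL (pullForm n q P))
  (hns : ∀ u, IsRatVec F₀ u → u ≠ 0 → ∀ h : pullForm n q P u u = 0, ∀ d, frobQ hF d = -d →
    uT H.herm h d ∈ M → d ∈ F₀)
include hle hsu hns

/-- Without new scalars, characteristic two. -/
theorem OddRatL.mem_of_even (h2 : (2 : F) = 0) {g : GL (Fin n) F} (hg : g ∈ M) :
    g ∈ subGroupF (Fin n) F₀ := by
  classical
  haveI : Nonempty (Fin n) := ⟨⟨0, by have := H.hn; omega⟩⟩
  obtain ⟨ζ, hζF, hζ0, hζ⟩ := H.exists_skew₀
  have hgiso := (mem_isoSL.mp (hsu hg)).1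
  obtain ⟨e₁, f₁, he₁, hf₁, -, -, he₁e₁, hf₁f₁, he₁f₁, hf₁e₁⟩ := H.exists_pair (show 0 ≤ 2 by norm_num) Fin.elim0
    (fun i => Fin.elim0 i)
  obtain ⟨e₂, f₂, he₂, hf₂, oe, of', he₂e₂, -, he₂f₂, hf₂e₂⟩ := H.exists_pair (show 2 ≤ 2 by norm_num) ![e₁, f₁]
    (fun i => by fin_cases i <;> assumption)
  have e21 : pullForm n q P e₂ e₁ = 0 := by simpa using oe 0
  have e2f1 : pullForm n q P e₂ f₁ = 0 := by simpa using oe 1
  have e12 := (eq_zero_comm H.herm).mp e21
  have f1e2 := (eq_zero_comm H.herm).mp e2f1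
  have he₁0 : e₁ ≠ 0 := fun h => by rw [h, zero_left H.herm] at he₁f₁; exact zero_ne_one he₁f₁
  have he₂0 : e₂ ≠ 0 := fun h => by rw [h, zero_left H.herm] at he₂f₂; exact zero_ne_one he₂f₂
  have hTT : ∀ {v : Fin n → F} (hv : pullForm n q P v v = 0), uT H.herm hv ζ * uT H.herm hv ζ = 1 := by
    intro v hv
    refine gl_ext fun y => ?_
    simp only [Units.val_mul, ← Matrix.mulVec_mulVec, uT_mulVec, H.herm.add_left, H.herm.smul_left, hv, mul_zero,
      add_zero, Units.val_one, Matrix.one_mulVec]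
    rw [add_assoc, ← add_smul, ← two_mul, h2, zero_mul, zero_smul, add_zero]
  set i := uT H.herm he₁e₁ ζ * uT H.herm he₂e₂ ζ with hidef
  have hiv : ∀ y, (i : Mat) *ᵥ y = y + (ζ * pullForm n q P y e₁) • e₁ + (ζ * pullForm n q P y e₂) • e₂ := fun y => by
    simp only [hidef, Units.val_mul, ← Matrix.mulVec_mulVec, uT_mulVec, H.herm.add_left, H.herm.smul_left, e21,
      mul_zero, add_zero]
    module
  have hiM : i ∈ M := hle (Subgroup.mul_mem _ (H.uT_rat he₁ he₁e₁ hζF hζ) (H.uT_rat he₂ he₂e₂ hζF hζ))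
  have hii : i * i = 1 := gl_ext fun y => by
    simp only [Units.val_mul, ← Matrix.mulVec_mulVec, hiv, H.herm.add_left, H.herm.smul_left, he₁e₁, he₂e₂, e12, e21,
      mul_zero, add_zero, Units.val_one, Matrix.one_mulVec]
    calc _ = y + ((2 : F) * (ζ * pullForm n q P y e₁)) • e₁ + ((2 : F) * (ζ * pullForm n q P y e₂)) • e₂ := by module
      _ = y := by rw [h2, zero_mul, zero_mul, zero_smul, zero_smul, add_zero, add_zero]
  set v := (g : Mat) *ᵥ e₁ with hv
  have hvv : pullForm n q P v v = 0 := by rw [hv, hgiso, he₁e₁]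
  have hv0 : v ≠ 0 := fun h => he₁0 (gl_mulVec_injective g (by
    change (g : Mat) *ᵥ e₁ = (g : Mat) *ᵥ 0
    rw [Matrix.mulVec_zero, ← hv, h]))
  set j := uT H.herm hvv ζ with hjdef
  have hjM : j ∈ M := by
    have := M.mul_mem (M.mul_mem hg (hle (H.uT_rat he₁ he₁e₁ hζF hζ))) (M.inv_mem hg)
    rwa [conj_uT H.herm hgiso he₁e₁ ζ hvv] at this
  rcases involution_pair hii (hTT hvv) with hconj | ⟨k, hk1, hksq, hki, hkj⟩
  · -- not conjugate
    exfalso
    obtain ⟨c, hc⟩ := isConj_iff.mp hconj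
    have hline : ∀ x, ∃ a : F, (c : Mat) *ᵥ ((i : Mat) *ᵥ x - x) = a • v := fun x => by
      refine ⟨ζ * pullForm n q P ((c : Mat) *ᵥ x) v, ?_⟩
      have := congrArg (fun G : GL (Fin n) F => (G : Mat) *ᵥ ((c : Mat) *ᵥ x)) hc
      simp only [Units.val_mul, ← Matrix.mulVec_mulVec, gl_inv_mulVec] at this
      rw [Matrix.mulVec_sub, this, uT_mulVec, add_sub_cancel_left]
    obtain ⟨a, ha⟩ := hline f₁
    obtain ⟨b, hb⟩ := hline f₂
    have f2e1 : pullForm n q P f₂ e₁ = 0 := by simpa using of' 0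
    rw [hiv, hf₁e₁, f1e2, mul_zero, zero_smul, add_zero, mul_one, add_sub_cancel_left] at ha
    rw [hiv, f2e1, hf₂e₂, mul_zero, zero_smul, add_zero, mul_one, add_sub_cancel_left] at hb
    have : (c : Mat) *ᵥ (b • (ζ • e₁) - a • (ζ • e₂)) = (c : Mat) *ᵥ 0 := by
      rw [Matrix.mulVec_sub, Matrix.mulVec_smul, Matrix.mulVec_smul _ a, ha, hb, Matrix.mulVec_zero]; module
    have h0 := congrArg (fun w => pullForm n q P w f₁) (gl_mulVec_injective c this)
    simp only [sub_left H.herm, H.herm.smul_left, he₁f₁, e2f1, zero_left H.herm, mul_zero, mul_one, sub_zero,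
      mul_eq_zero, hζ0, or_false] at h0
    refine smul_ne_zero hζ0 he₂0 (gl_mulVec_injective c (?_ : (c : Mat) *ᵥ (ζ • e₂) = (c : Mat) *ᵥ 0))
    rw [hb, h0, zero_smul, Matrix.mulVec_zero]
  set z := (i * j) ^ k with hzdef
  have hzM : z ∈ M := pow_mem (M.mul_mem hiM hjM) k
  have hziso := (mem_isoSL.mp (hsu hzM)).1
  have happ : ∀ a b : GL (Fin n) F, ∀ w : Fin n → F, ((a * b : GL (Fin n) F) : Mat) *ᵥ w = (a : Mat) *ᵥ ((b : Mat) *ᵥ w) :=
    fun a b w => by rw [Units.val_mul, Matrix.mulVec_mulVec]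
  have hzS : z ∈ subGroupF (Fin n) F₀ := by
    refine H.orth_mem hle hsu hns hzM he₁ he₁0 he₁e₁ he₁ he₁0 he₁e₁ ?_
    have e1 : ζ • e₁ = (i : Mat) *ᵥ f₁ - f₁ := by
      rw [hiv, hf₁e₁, f1e2, mul_zero, zero_smul, add_zero, mul_one, add_sub_cancel_left]
    have e2 : ζ • (z : Mat) *ᵥ e₁ = (i : Mat) *ᵥ ((z : Mat) *ᵥ f₁) - (z : Mat) *ᵥ f₁ := by
      rw [← Matrix.mulVec_smul, e1, Matrix.mulVec_sub, ← happ, hki, happ]
    have e3 := congrArg (pullForm n q P e₁) e2
    rw [hiv, smul_right H.herm, sub_right H.herm, add_right H.herm, add_right H.herm, smul_right H.herm,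
      smul_right H.herm, he₁e₁, e12, mul_zero, mul_zero, add_zero, add_zero, sub_self] at e3
    exact (mul_eq_zero.mp e3).resolve_left (by simpa using hζ0)
  have hzr := H.rat_of_invol hzS hksq
  obtain ⟨b, hb⟩ : ∃ b, (z : Mat) *ᵥ Pi.single b 1 + Pi.single b 1 ≠ 0 := by
    by_contra hc; push Not at hc
    refine hk1 (Units.ext (Matrix.ext_of_mulVec_single fun b => ?_))
    rw [Units.val_one, Matrix.one_mulVec, eq_neg_of_add_eq_zero_left (hc b)]
    refine funext fun x => ?_
    haveI : CharP F 2 := CharTwo.of_one_ne_zero_of_two_eq_zero one_ne_zero h2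
    exact CharTwo.neg_eq _
  set x : Fin n → F := Pi.single b 1
  set u := (z : Mat) *ᵥ x + x with hu
  have hzsq : ∀ w : Fin n → F, (z : Mat) *ᵥ ((z : Mat) *ᵥ w) = w := fun w => by
    rw [← happ, hksq, Units.val_one, Matrix.one_mulVec]
  have hfz : ∀ w w' : Fin n → F, pullForm n q P ((z : Mat) *ᵥ w) w' = pullForm n q P w ((z : Mat) *ᵥ w') :=
    fun w w' => by rw [← hziso ((z : Mat) *ᵥ w), hzsq]
  have hcancel : ∀ w w' : Fin n → F,
      pullForm n q P ((z : Mat) *ᵥ w + w) ((z : Mat) *ᵥ w' + w') = 0 := fun w w' => by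
    rw [H.herm.add_left, add_right H.herm, add_right H.herm, hziso, hfz]
    linear_combination (pullForm n q P w w' + pullForm n q P w ((z : Mat) *ᵥ w')) * h2
  have hur : IsRatVec F₀ u := isRat_add (mulVec_rat hzr (isRat_single b)) (isRat_single b)
  have hjS : j ∈ subGroupF (Fin n) F₀ := by
    refine H.orth_mem hle hsu hns hjM hur hb (hcancel x x) hur hb (hcancel x x) ?_
    rw [hu, Matrix.mulVec_add, ← happ, ← hkj, happ]
    exact hcancel x _
  have hjr := H.rat_of_invol hjS (hTT hvv)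
  obtain ⟨w, hw, hwv⟩ := H.exists_nonorth hv0
  set κ := ζ * pullForm n q P w v with hκ
  have hκ0 : κ ≠ 0 := mul_ne_zero hζ0 hwv
  have hr : IsRatVec F₀ (κ • v) := by
    have := isRat_sub (mulVec_rat hjr hw) hw
    rwa [hjdef, uT_mulVec, add_sub_cancel_left, ← hκ] at this
  exact H.orth_mem hle hsu hns hg he₁ he₁0 he₁e₁ hr (smul_ne_zero hκ0 hv0)
    (by rw [H.herm.smul_left, smul_right H.herm, hvv, mul_zero, mul_zero])
    (by rw [← hv, H.herm.smul_left, hvv, mul_zero])

/-- Without new scalars, in odd characteristic an element with a fixed hyperplane is in the subfield subgroup. -/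
theorem OddRatL.mem_of_hyperplane (h2 : (2 : F) ≠ 0) {g : GL (Fin n) F} (hg : g ∈ M) {v : Fin n → F}
    (hgfix : ∀ x, pullForm n q P x v = 0 → (g : Mat) *ᵥ x = x) : g ∈ subGroupF (Fin n) F₀ := by
  classical
  haveI : Nonempty (Fin n) := ⟨⟨0, by have := H.hn; omega⟩⟩
  have hgiso := (mem_isoSL.mp (hsu hg)).1
  have happ : ∀ a b : GL (Fin n) F, ∀ w : Fin n → F, ((a * b : GL (Fin n) F) : Mat) *ᵥ w = (a : Mat) *ᵥ ((b : Mat) *ᵥ w) :=
    fun a b w => by rw [Units.val_mul, Matrix.mulVec_mulVec]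
  obtain ⟨e₁, f₁, he₁, hf₁, -, -, he₁e₁, hf₁f₁, he₁f₁, hf₁e₁⟩ := H.exists_pair (show 0 ≤ 2 by norm_num) Fin.elim0
    (fun i => Fin.elim0 i)
  obtain ⟨e₂, f₂, he₂, hf₂, oe, of', he₂e₂, hf₂f₂, he₂f₂, hf₂e₂⟩ := H.exists_pair (show 2 ≤ 2 by norm_num) ![e₁, f₁]
    (fun i => by fin_cases i <;> assumption)
  have e21 : pullForm n q P e₂ e₁ = 0 := by simpa using oe 0
  have e2f1 : pullForm n q P e₂ f₁ = 0 := by simpa using oe 1
  have f2e1 : pullForm n q P f₂ e₁ = 0 := by simpa using of' 0
  have f2f1 : pullForm n q P f₂ f₁ = 0 := by simpa using of' 1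
  have e12 := (eq_zero_comm H.herm).mp e21
  have f1e2 := (eq_zero_comm H.herm).mp e2f1
  have e1f2 := (eq_zero_comm H.herm).mp f2e1
  have f12 := (eq_zero_comm H.herm).mp f2f1
  have he₁0 : e₁ ≠ 0 := fun h => by rw [h, zero_left H.herm] at he₁f₁; exact zero_ne_one he₁f₁
  obtain ⟨D₁, hD₁, hD₁v⟩ := H.neg_plane he₁ hf₁ he₁e₁ hf₁f₁ he₁f₁ hf₁e₁
  obtain ⟨D₂, hD₂, hD₂v⟩ := H.neg_plane he₂ hf₂ he₂e₂ hf₂f₂ he₂f₂ hf₂e₂
  set i := D₁ * D₂ with hidef
  have hiM : i ∈ M := hle (Subgroup.mul_mem _ hD₁ hD₂)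
  have hiv : ∀ y, (i : Mat) *ᵥ y = y - (2 * pullForm n q P y f₁) • e₁ - (2 * pullForm n q P y e₁) • f₁ -
      (2 * pullForm n q P y f₂) • e₂ - (2 * pullForm n q P y e₂) • f₂ := fun y => by
    simp only [hidef, happ, hD₁v, hD₂v, sub_left H.herm, H.herm.smul_left, e21, e2f1, f2e1, f2f1, mul_zero, sub_zero]
    module
  have hii : i * i = 1 := gl_ext fun y => by
    simp only [happ, hiv, sub_left H.herm, H.herm.smul_left, he₁e₁, hf₁f₁, he₁f₁, hf₁e₁, he₂e₂, hf₂f₂, he₂f₂, hf₂e₂,
      e21, e2f1, f2e1, f2f1, e12, f1e2, e1f2, f12, mul_zero, mul_one, sub_zero, Units.val_one, Matrix.one_mulVec]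
    module
  set a := (g : Mat) *ᵥ e₁ with hadef
  set b := (g : Mat) *ᵥ f₁ with hbdef
  set j := g * D₁ * g⁻¹ with hjdef
  have hjM : j ∈ M := M.mul_mem (M.mul_mem hg (hle hD₁)) (M.inv_mem hg)
  have hjv : ∀ y, (j : Mat) *ᵥ y = y - (2 * pullForm n q P y b) • a - (2 * pullForm n q P y a) • b := fun y => by
    simp only [hjdef, happ, hD₁v, Matrix.mulVec_sub, Matrix.mulVec_smul, gl_mulVec_inv, hadef, hbdef]
    rw [← hgiso (((g⁻¹ : GL (Fin n) F) : Mat) *ᵥ y) f₁, ← hgiso (((g⁻¹ : GL (Fin n) F) : Mat) *ᵥ y) e₁,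
      gl_mulVec_inv]
  have haa : pullForm n q P a a = 0 := by rw [hadef, hgiso, he₁e₁]
  have hbb : pullForm n q P b b = 0 := by rw [hbdef, hgiso, hf₁f₁]
  have hab : pullForm n q P a b = 1 := by rw [hadef, hbdef, hgiso, he₁f₁]
  have hba : pullForm n q P b a = 1 := by rw [hadef, hbdef, hgiso, hf₁e₁]
  have hjj : j * j = 1 := gl_ext fun y => by
    simp only [happ, hjv, sub_left H.herm, H.herm.smul_left, haa, hbb, hab, hba, mul_zero, mul_one, sub_zero,
      Units.val_one, Matrix.one_mulVec]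
    module
  rcases involution_pair hii hjj with hconj | ⟨k, hk1, hksq, hki, hkj⟩
  · exfalso
    obtain ⟨c, hc⟩ := isConj_iff.mp hconj
    set S := Submodule.span F ({a, b} : Set (Fin n → F))
    have hS : ∀ x, (c : Mat) *ᵥ ((i : Mat) *ᵥ x - x) ∈ S := fun x => by
      have := congrArg (fun G : GL (Fin n) F => (G : Mat) *ᵥ ((c : Mat) *ᵥ x)) hc
      simp only [happ, gl_inv_mulVec] at this
      rw [Matrix.mulVec_sub, this, hjv]
      rw [show ∀ X : Fin n → F, ∀ p p' : F, X - p • a - p' • b - X = (-p) • a + (-p') • b from fun X p p' => by module]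
      exact S.add_mem (S.smul_mem _ (Submodule.subset_span (by simp))) (S.smul_mem _ (Submodule.subset_span (by simp)))
    have hmem : ∀ x y : Fin n → F, (i : Mat) *ᵥ x - x = (-2 : F) • y → (c : Mat) *ᵥ y ∈ S := fun x y h => by
      have := S.smul_mem (-2 : F)⁻¹ (hS x)
      rwa [h, Matrix.mulVec_smul, smul_smul, inv_mul_cancel₀ (neg_ne_zero.mpr h2), one_smul] at this
    let vec : Fin 3 → Fin n → F := fun t => (c : Mat) *ᵥ (![e₁, f₁, e₂] t)
    have hli : LinearIndependent F vec := by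
      rw [Fintype.linearIndependent_iff]
      intro s hs
      have hs0 : s 0 • e₁ + s 1 • f₁ + s 2 • e₂ = 0 := by
        refine gl_mulVec_injective c (?_ : (c : Mat) *ᵥ _ = (c : Mat) *ᵥ 0)
        rw [Matrix.mulVec_zero, Matrix.mulVec_add, Matrix.mulVec_add, Matrix.mulVec_smul, Matrix.mulVec_smul,
          Matrix.mulVec_smul]
        simpa [vec, Fin.sum_univ_three] using hs
      have q0 := congrArg (fun w => pullForm n q P w f₁) hs0
      have q1 := congrArg (fun w => pullForm n q P w e₁) hs0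
      have q2 := congrArg (fun w => pullForm n q P w f₂) hs0
      simp only [H.herm.add_left, H.herm.smul_left, he₁f₁, hf₁f₁, e2f1, he₁e₁, hf₁e₁, e21, e1f2, f12, he₂f₂,
        zero_left H.herm, mul_zero, mul_one, add_zero, zero_add] at q0 q1 q2
      intro t
      fin_cases t <;> assumption
    have hsub : Submodule.span F (Set.range vec) ≤ S := Submodule.span_le.mpr (by
      rintro _ ⟨t, rfl⟩
      fin_cases t
      · refine hmem e₁ e₁ ?_
        rw [hiv, he₁f₁, he₁e₁, e1f2, e12]; module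
      · refine hmem f₁ f₁ ?_
        rw [hiv, hf₁f₁, hf₁e₁, f12, f1e2]; module
      · refine hmem e₂ e₂ ?_
        rw [hiv, e2f1, e21, he₂f₂, he₂e₂]; module)
    have h3 := Submodule.finrank_mono hsub
    rw [finrank_span_eq_card hli, Fintype.card_fin] at h3
    have h4 := finrank_span_finset_le_card (R := F) ({a, b} : Finset (Fin n → F))
    rw [Finset.coe_insert, Finset.coe_singleton] at h4
    have h5 := Finset.card_le_two (a := a) (b := b)
    have h6 : Module.finrank F S ≤ 2 := le_trans h4 h5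
    omega
  set z := (i * j) ^ k with hzdef
  have hzM : z ∈ M := pow_mem (M.mul_mem hiM hjM) k
  have hziso := (mem_isoSL.mp (hsu hzM)).1
  have hflip : ∀ (t : GL (Fin n) F), t ∈ M → ∀ x y : Fin n → F, (t : Mat) *ᵥ x = x → (t : Mat) *ᵥ y = (-1 : F) • y →
      pullForm n q P x y = 0 := fun t ht x y hx hy => by
    have := (mem_isoSL.mp (hsu ht)).1 x y
    rw [hx, hy, smul_right H.herm, map_neg, map_one, neg_one_mul] at this
    exact (mul_eq_zero.mp (show (2 : F) * pullForm n q P x y = 0 by linear_combination -this)).resolve_left h2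
  have hzS : z ∈ subGroupF (Fin n) F₀ := by
    obtain ⟨u', hu', hu'0, hu'u', ou'⟩ := H.exists_iso_four he₁ hf₁ he₂ hf₂ he₁e₁ hf₁f₁ he₂e₂ hf₂f₂ he₁f₁ he₂f₂
      e12 e1f2 f1e2 f12
    have p0 := ou' 0; have p1 := ou' 1; have p2 := ou' 2; have p3 := ou' 3
    simp at p0 p1 p2 p3
    refine H.orth_mem hle hsu hns hzM he₁ he₁0 he₁e₁ hu' hu'0 hu'u' (hflip i hiM _ _ ?_ ?_)
    · rw [hiv, p0, p1, p2, p3]; module
    · rw [← happ, ← hki, happ, hiv, he₁f₁, he₁e₁, e1f2, e12]
      simp only [Matrix.mulVec_sub, Matrix.mulVec_smul]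
      module
  have hzr := H.rat_of_invol hzS hksq
  have hfix : ∀ x : Fin n → F, (i : Mat) *ᵥ x = x → (j : Mat) *ᵥ x = x → (z : Mat) *ᵥ x = x := by
    intro x hxi hxj
    have key : ∀ l : ℕ, (((i * j) ^ l : GL (Fin n) F) : Mat) *ᵥ x = x := fun l => by
      induction l with
      | zero => simp
      | succ l ih => rw [pow_succ, happ, happ, hxj, hxi, ih]
    exact key k
  obtain ⟨u', hu', hu'0, hu'u', hzu'⟩ := H.fixed_iso h2 hzr hksq (one_mem F₀) (one_mul 1) fun w => by
    have hfx : ∀ x : Fin n → F, pullForm n q P x e₁ = 0 → pullForm n q P x f₁ = 0 → pullForm n q P x e₂ = 0 →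
        pullForm n q P x f₂ = 0 → pullForm n q P x v = 0 → (z : Mat) *ᵥ x = x := by
      intro x p0 p1 p2 p3 pv
      refine hfix x (by rw [hiv, p0, p1, p2, p3]; module) ?_
      have hgx : ((g⁻¹ : GL (Fin n) F) : Mat) *ᵥ x = x := by
        conv_lhs => rw [← hgfix x pv, gl_inv_mulVec]
      rw [hjdef, happ, happ, hgx, hD₁v, p0, p1]
      simp only [mul_zero, zero_smul, sub_zero]
      exact hgfix x pv
    rcases (show n = 6 ∨ 7 ≤ n by have := H.hn; omega) with hn6 | hn7
    swap
    · obtain ⟨x, hx, hne⟩ := H.perp_not_line (show 5 + 2 ≤ n by omega) ![e₁, f₁, e₂, f₂, v] w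
      have p0 := hx 0; have p1 := hx 1; have p2 := hx 2; have p3 := hx 3; have p4 := hx 4
      simp at p0 p1 p2 p3 p4
      exact ⟨x, by rw [one_smul]; exact hfx x p0 p1 p2 p3 p4, hne⟩
    obtain ⟨x, hx, hxne⟩ : ∃ x : Fin n → F, (z : Mat) *ᵥ x = x ∧ x ≠ 0 := by
      obtain ⟨x, hx, hne⟩ : ∃ x, (∀ i, pullForm n q P x (![e₁, f₁, e₂, f₂, v] i) = 0) ∧ x ≠ 0 := by
        by_contra hc
        push Not at hc
        have h1 := finrank_perp H.herm ![e₁, f₁, e₂, f₂, v]
        have hU : LinearMap.ker (LinearMap.pi fun i => fl H.herm (![e₁, f₁, e₂, f₂, v] i)) = ⊥ :=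
          (Submodule.eq_bot_iff _).mpr fun x hx => hc x ((mem_perp H.herm _ x).mp hx)
        rw [hU, finrank_bot, Fintype.card_fin] at h1
        omega
      have p0 := hx 0; have p1 := hx 1; have p2 := hx 2; have p3 := hx 3; have p4 := hx 4
      simp at p0 p1 p2 p3 p4
      exact ⟨x, hfx x p0 p1 p2 p3 p4, hne⟩
    by_contra hc
    push Not at hc
    have hzsq : ∀ y : Fin n → F, (z : Mat) *ᵥ ((z : Mat) *ᵥ y) = y := fun y => by
      rw [← happ, hksq, Units.val_one, Matrix.one_mulVec]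
    have hL : ∀ b' : Fin n, ∃ s : F, (z : Mat) *ᵥ Pi.single b' 1 + Pi.single b' 1 = s • w := fun b' => hc _ (by
      rw [Matrix.mulVec_add, hzsq, one_smul, add_comm])
    choose s hs using hL
    obtain ⟨a', ha'⟩ := hc x (by rw [one_smul, hx])
    have ha'0 : a' ≠ 0 := fun h => hxne (by rw [ha', h, zero_smul])
    have hz1 : (z : Mat) = -(1 + Matrix.vecMulVec w (fun t => -s t)) := Matrix.ext_of_mulVec_single fun t => by
      rw [Matrix.neg_mulVec, Matrix.add_mulVec, Matrix.one_mulVec, Matrix.vecMulVec_mulVec, dotProduct_single_one,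
        op_smul_eq_smul, neg_smul, ← hs t]
      abel
    have hzw : (z : Mat) *ᵥ w = w := by
      have := hx
      rw [ha', Matrix.mulVec_smul] at this
      exact smul_right_injective _ ha'0 this
    set σ' := (fun t => -s t) ⬝ᵥ w with hσ'
    rw [hz1, Matrix.neg_mulVec, Matrix.add_mulVec, Matrix.one_mulVec, Matrix.vecMulVec_mulVec, op_smul_eq_smul] at hzw
    rw [← hσ'] at hzw
    have hw0 : w ≠ 0 := fun h => hxne (by rw [ha', h, smul_zero])
    obtain ⟨p, hp⟩ := Function.ne_iff.mp hw0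
    have e1 := congrFun hzw p
    simp only [Pi.neg_apply, Pi.add_apply, Pi.smul_apply, smul_eq_mul] at e1
    have e2 : σ' = -2 := (mul_right_cancel₀ hp (by linear_combination -e1))
    have hdet : (z : Mat).det = 1 := congrArg Units.val (MonoidHom.mem_ker.mp (mem_isoSL.mp (hsu hzM)).2)
    rw [hz1, Matrix.det_neg, Fintype.card_fin, (show Even n by exact ⟨3, hn6⟩).neg_one_pow, one_mul,
      Matrix.vecMulVec_eq Unit,
      Matrix.det_one_add_replicateCol_mul_replicateRow, ← hσ', e2] at hdet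
    exact h2 (by linear_combination -hdet)
  obtain ⟨u, hu, hu0, huu, hzu⟩ := H.fixed_iso h2 hzr hksq (neg_mem (one_mem F₀)) (neg_mul_neg 1 1 |>.trans (one_mul 1))
    fun w => by
    by_contra hc
    push Not at hc
    -- the negated space is a line
    have hL : ∀ b' : Fin n, ∃ s : F, Pi.single b' 1 - (z : Mat) *ᵥ Pi.single b' 1 = s • w := fun b' => hc _ (by
      rw [Matrix.mulVec_sub, ← happ, hksq, Units.val_one, Matrix.one_mulVec, neg_one_smul, neg_sub])
    choose s hs using hL
    have hne : ∃ b', Pi.single b' 1 - (z : Mat) *ᵥ Pi.single b' 1 ≠ 0 := by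
      by_contra hc'; push Not at hc'
      exact hk1 (Units.ext (Matrix.ext_of_mulVec_single fun b' => by
        rw [Units.val_one, Matrix.one_mulVec, ← sub_eq_zero.mp (hc' b')]))
    obtain ⟨b', hb'⟩ := hne
    have hs' : s b' ≠ 0 := fun h => hb' (by rw [hs, h, zero_smul])
    have hzw : (z : Mat) *ᵥ w = -w := by
      have e : w = (s b')⁻¹ • (Pi.single b' 1 - (z : Mat) *ᵥ Pi.single b' 1) := by
        rw [hs, smul_smul, inv_mul_cancel₀ hs', one_smul]
      conv_lhs => rw [e]
      conv_rhs => rw [e]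
      rw [Matrix.mulVec_smul, Matrix.mulVec_sub, ← happ, hksq, Units.val_one, Matrix.one_mulVec, ← smul_neg, neg_sub]
    have hz1 : (z : Mat) = 1 + Matrix.vecMulVec w (fun t => -s t) := Matrix.ext_of_mulVec_single fun t => by
      rw [Matrix.add_mulVec, Matrix.one_mulVec, Matrix.vecMulVec_mulVec, dotProduct_single_one, op_smul_eq_smul,
        neg_smul, ← hs t]
      abel
    have hdet : (z : Mat).det = 1 := congrArg Units.val (MonoidHom.mem_ker.mp (mem_isoSL.mp (hsu hzM)).2)
    rw [hz1, Matrix.vecMulVec_eq Unit, Matrix.det_one_add_replicateCol_mul_replicateRow, add_eq_left] at hdet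
    rw [hz1, Matrix.add_mulVec, Matrix.one_mulVec, Matrix.vecMulVec_mulVec, hdet] at hzw
    have hw0 : w ≠ 0 := fun h => hb' (by rw [hs, h, smul_zero])
    obtain ⟨p, hp⟩ := Function.ne_iff.mp hw0
    have := congrFun hzw p
    simp at this
    exact hp ((mul_eq_zero.mp (show (2 : F) * w p = 0 by linear_combination this)).resolve_left h2)
  have hjS : j ∈ subGroupF (Fin n) F₀ := by
    refine H.orth_mem hle hsu hns hjM hu hu0 huu hu' hu'0 hu'u' (hflip z hzM _ _ (by rw [hzu', one_smul]) ?_)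
    rw [← happ, hkj, happ, hzu, Matrix.mulVec_smul]
  obtain ⟨u'', hu'', hu''0, hu''u'', hju''⟩ := H.fixed_iso h2 (H.rat_of_invol hjS hjj) hjj (one_mem F₀) (one_mul 1)
    fun w => by
    obtain ⟨x, hx, hne⟩ := H.perp_not_line (show 2 + 2 ≤ n by have := H.hn; omega) ![a, b] w
    have p4 := hx 0; have p5 := hx 1
    simp at p4 p5
    exact ⟨x, by rw [one_smul, hjv, p4, p5]; module, hne⟩
  refine H.orth_mem hle hsu hns hg he₁ he₁0 he₁e₁ hu'' hu''0 hu''u'' (hflip j hjM _ _ (by rw [hju'', one_smul]) ?_)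
  rw [← hadef, hjv, hab, haa]
  module

/-- Without new scalars, odd characteristic. -/
theorem OddRatL.mem_of_odd (h2 : (2 : F) ≠ 0) {g : GL (Fin n) F} (hg : g ∈ M) :
    g ∈ subGroupF (Fin n) F₀ := by
  haveI : Nonempty (Fin n) := ⟨⟨0, by have := H.hn; omega⟩⟩
  obtain ⟨ζ, hζF, hζ0, hζ⟩ := H.exists_skew₀
  obtain ⟨p, hp⟩ := CharP.exists F
  haveI : Fact p.Prime := ⟨CharP.char_is_prime F p⟩
  have hgiso := (mem_isoSL.mp (hsu hg)).1
  obtain ⟨e₁, f₁, he₁, -, -, -, he₁e₁, -, he₁f₁, -⟩ := H.exists_pair (show 0 ≤ 2 by norm_num) Fin.elim0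
    (fun i => Fin.elim0 i)
  have he₁0 : e₁ ≠ 0 := fun h => by rw [h, zero_left H.herm] at he₁f₁; exact zero_ne_one he₁f₁
  set v := (g : Mat) *ᵥ e₁ with hv
  have hvv : pullForm n q P v v = 0 := by rw [hv, hgiso, he₁e₁]
  have hv0 : v ≠ 0 := fun h => he₁0 (gl_mulVec_injective g (by
    change (g : Mat) *ᵥ e₁ = (g : Mat) *ᵥ 0
    rw [Matrix.mulVec_zero, ← hv, h]))
  set j := uT H.herm hvv ζ with hjdef
  have hjM : j ∈ M := by
    have := M.mul_mem (M.mul_mem hg (hle (H.uT_rat he₁ he₁e₁ hζF hζ))) (M.inv_mem hg)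
    rwa [conj_uT H.herm hgiso he₁e₁ ζ hvv] at this
  have hjS := H.mem_of_hyperplane hle hsu hns h2 hjM (v := v) fun x hx => by
    rw [uT_mulVec, hx, mul_zero, zero_smul, add_zero]
  obtain ⟨c, hc0, hc⟩ := mem_subGroupF.mp hjS
  have hjl : ∀ l : ℕ, ((j ^ l : GL (Fin n) F) : Mat) = 1 + (l : F) • ((j : Mat) - 1) := by
    intro l
    induction l with
    | zero => simp
    | succ l ih =>
      have hsq : ((j : Mat) - 1) * ((j : Mat) - 1) = 0 := Matrix.ext_of_mulVec_single fun t => by
        rw [← Matrix.mulVec_mulVec, Matrix.sub_mulVec, Matrix.one_mulVec, Matrix.sub_mulVec, Matrix.one_mulVec,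
          Matrix.zero_mulVec, uT_mulVec, uT_mulVec, add_sub_cancel_left, add_sub_cancel_left, H.herm.smul_left, hvv,
          mul_zero, mul_zero, zero_smul]
      rw [pow_succ, Units.val_mul, ih]
      calc (1 + (l : F) • ((j : Mat) - 1)) * (j : Mat)
          = (1 + (l : F) • ((j : Mat) - 1)) * (((j : Mat) - 1) + 1) := by rw [sub_add_cancel]
        _ = _ := by rw [Matrix.mul_add, Matrix.add_mul, Matrix.smul_mul, hsq]; push_cast; simp; module
  have hjp : ((j ^ p : GL (Fin n) F) : Mat) = 1 := by rw [hjl, CharP.cast_eq_zero, zero_smul, add_zero]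
  have hcF : c ∈ F₀ := by
    refine mem_subfield_of_pow_char p F₀ ?_
    have hpr : ∀ (l : ℕ) (a b : Fin n), c ^ l * ((j ^ l : GL (Fin n) F) : Mat) a b ∈ F₀ := by
      intro l
      induction l with
      | zero => intro a b; rw [pow_zero, pow_zero, one_mul, Units.val_one, Matrix.one_apply]; split
                · exact one_mem _
                · exact zero_mem _
      | succ l ih =>
        intro a b
        rw [pow_succ, pow_succ, Units.val_mul, Matrix.mul_apply, Finset.mul_sum]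
        refine sum_mem fun t _ => ?_
        have := mul_mem (ih a t) (hc t b)
        convert this using 1
        ring
    let a₀ : Fin n := Classical.arbitrary _
    simpa [hjp] using hpr p a₀ a₀
  have hjr : ∀ a b, (j : Mat) a b ∈ F₀ := fun a b => by
    have := mul_mem (inv_mem hcF) (hc a b)
    rwa [← mul_assoc, inv_mul_cancel₀ hc0, one_mul] at this
  obtain ⟨w, hw, hwv⟩ := H.exists_nonorth hv0
  set κ := ζ * pullForm n q P w v with hκ
  have hκ0 : κ ≠ 0 := mul_ne_zero hζ0 hwv
  have hr : IsRatVec F₀ (κ • v) := by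
    have := isRat_sub (mulVec_rat hjr hw) hw
    rwa [hjdef, uT_mulVec, add_sub_cancel_left, ← hκ] at this
  exact H.orth_mem hle hsu hns hg he₁ he₁0 he₁e₁ hr (smul_ne_zero hκ0 hv0)
    (by rw [H.herm.smul_left, smul_right H.herm, hvv, mul_zero, mul_zero])
    (by rw [← hv, H.herm.smul_left, hvv, mul_zero])

omit hle hsu hns in
/-- The subfield subgroup is maximal. -/
theorem OddRatL.maximal :
    Cfsg.Geo.IsMaximalIn (isoSL (pullForm n q P)) (subGroupF (Fin n) F₀ ⊓ isoSL (pullForm n q P)) := by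
  classical
  haveI : Nonempty (Fin n) := ⟨⟨0, by have := H.hn; omega⟩⟩
  refine isMaximalIn_of inf_le_right ?_ fun M h1 h2 g hgM hgH => ?_
  · obtain ⟨e, e', he, he', -, -, hee, -, hee', he'e⟩ := H.exists_pair (show 0 ≤ 2 by norm_num) Fin.elim0
      (fun i => Fin.elim0 i)
    obtain ⟨d, hd, hdn⟩ := H.exists_skew_new
    have he0 : e ≠ 0 := fun h => by rw [h, zero_left H.herm] at hee'; exact zero_ne_one hee'
    refine ⟨uT H.herm hee d, ⟨fun a b => uT_iso H.herm hee hd a b, transGL_mem_sl _ _ _⟩, fun hm => hdn ?_⟩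
    have hT := rational_of_fix hm.1 he he0 (by rw [uT_mulVec, hee, mul_zero, zero_smul, add_zero])
    have hr := isRat_sub (mulVec_rat hT he') he'
    rw [uT_mulVec, add_sub_cancel_left, he'e, mul_one] at hr
    obtain ⟨p, hp⟩ := Function.ne_iff.mp he0
    have := mul_mem (hr p) (inv_mem (he p))
    rwa [Pi.smul_apply, smul_eq_mul, mul_assoc, mul_inv_cancel₀ hp, mul_one] at this
  by_cases hsc : ∀ u, IsRatVec F₀ u → u ≠ 0 → ∀ h : pullForm n q P u u = 0, ∀ d, frobQ hF d = -d →
      uT H.herm h d ∈ M → d ∈ F₀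
  · exfalso
    refine hgH ⟨?_, h2 hgM⟩
    by_cases htwo : (2 : F) = 0
    · exact H.mem_of_even h1 h2 hsc htwo hgM
    · exact H.mem_of_odd h1 h2 hsc htwo hgM
  · push Not at hsc
    obtain ⟨u, hu, hu0, huu, d, hd, hmem, hdn⟩ := hsc
    exact H.top_of_scalar h1 h2 hu hu0 huu hd hdn hmem

end

end Cfsg.Agent.H60.SULow
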