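import Cfsg.Agent.H98.MaximalUSubOrthMain
import Cfsg.Agent.H98.USubOddScalar
import Cfsg.Agent.H60.SULow.Stab

set_option autoImplicit false
set_option linter.unusedSectionVars false

/-!
# Orthogonal subfield subgroups of `SU` from dimension six

The argument of `H98/MaximalUSubOrth*`.  An element of an overgroup without rational centres that fixes an
anisotropic rational vector is rational; the conjugate of a Siegel element fixes such a vector or three
independent rational isotropic vectors.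
-/

namespace Cfsg.Agent.H60.SULow

open scoped Matrix
open Cfsg.Agent.H98 Cfsg.Agent.H98.Herm

variable {F : Type*} [Field F] [Fintype F] {q n : ℕ}

local notation "Mat" => Matrix (Fin n) (Fin n) F

/-- Hypotheses: the form in the given coordinates is rational and symmetric on rational vectors. -/
structure OrthRatL (hF : Fintype.card F = q ^ 2) (F₀ : Subfield F) (P : GL (Fin n) F) : Prop where
  hn : 6 ≤ n
  two : (2 : F) ≠ 0
  fixed : ∀ x, frobQ hF x = x ↔ x ∈ F₀
  rat : ∀ u v : Fin n → F, IsRatVec F₀ u → IsRatVec F₀ v → pullForm n q P u v ∈ F₀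

section
variable {hF : Fintype.card F = q ^ 2} {F₀ : Subfield F} {P : GL (Fin n) F} (H : OrthRatL hF F₀ P)
include H

/-- The pulled back form is unitary. -/
theorem OrthRatL.herm : Cfsg.Geo.IsUnitaryForm (frobQ hF) (pullForm n q P) := isUnitary_pull hF P

theorem OrthRatL.symm {u v : Fin n → F} (hu : IsRatVec F₀ u) (hv : IsRatVec F₀ v) :
    pullForm n q P v u = pullForm n q P u v := by
  rw [H.herm.herm v u]; exact (H.fixed _).mpr (H.rat u v hu hv)

theorem OrthRatL.sigma_rat {r : Fin n → F} (hr : IsRatVec F₀ r) (x : Fin n) : frobQ hF (r x) = r x :=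
  (H.fixed _).mpr (hr x)

theorem OrthRatL.two_mem : (2 : F) ∈ F₀ := one_add_one_eq_two (R := F) ▸ add_mem (one_mem F₀) (one_mem F₀)

/-- Splitting into rational parts. -/
theorem OrthRatL.decomp {ε : F} (hε0 : ε ≠ 0) (hε : frobQ hF ε = -ε) (v : Fin n → F) :
    ∃ a b, IsRatVec F₀ a ∧ IsRatVec F₀ b ∧ v = a + ε • b := by
  set b : Fin n → F := fun x => (v x - frobQ hF (v x)) / (2 * ε)
  have h2ε : 2 * ε ≠ 0 := mul_ne_zero H.two hε0
  have hb : IsRatVec F₀ b := fun x => (H.fixed _).mp (by
    simp only [b, map_div₀, map_sub, map_mul, H.herm.involutive, hε, map_ofNat]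
    rw [← neg_sub (v x), mul_neg, neg_div_neg_eq])
  refine ⟨v - ε • b, b, fun x => (H.fixed _).mp ?_, hb, by rw [sub_add_cancel]⟩
  simp only [Pi.sub_apply, Pi.smul_apply, smul_eq_mul, map_sub, map_mul, H.sigma_rat hb x, hε]
  simp only [b]
  have := H.two
  field_simp
  ring

/-- Rational parts of a vector orthogonal to a rational vector are orthogonal to it. -/
theorem OrthRatL.split_zero {ε : F} (hε0 : ε ≠ 0) (hε : frobQ hF ε = -ε) {c d : F} (hc : c ∈ F₀) (hd : d ∈ F₀)
    (h : c + ε * d = 0) : c = 0 ∧ d = 0 := by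
  have h1 := congrArg (frobQ hF) h
  rw [map_add, map_mul, map_zero, (H.fixed _).mpr hc, (H.fixed _).mpr hd, hε] at h1
  have hd0 : d = 0 := (mul_eq_zero.mp (show (2 * ε) * d = 0 by linear_combination h - h1)).resolve_left
    (mul_ne_zero H.two hε0)
  exact ⟨by rw [hd0] at h; linear_combination h, hd0⟩

/-- A rational vector with non-zero product. -/
theorem OrthRatL.exists_nonorth {w : Fin n → F} (hw : w ≠ 0) :
    ∃ z : Fin n → F, IsRatVec F₀ z ∧ pullForm n q P z w ≠ 0 := by
  by_contra hc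
  push Not at hc
  obtain ⟨x, hx⟩ := (H.herm.nondegenerate w hw).1
  rw [← fl_apply H.herm, pi_eq_sum_univ' x, map_sum] at hx
  exact hx (Finset.sum_eq_zero fun i _ => by rw [map_smul, fl_apply, hc _ (isRat_single i), smul_zero])

/-- The common orthogonal of the given vectors. -/
noncomputable def ratPerp {k : ℕ} (v : Fin k → Fin n → F) : Submodule F (Fin n → F) :=
  LinearMap.ker (LinearMap.pi fun i => fl H.herm (v i))

/-- An anisotropic rational vector orthogonal to few rational vectors. -/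
theorem OrthRatL.aniso_or {k : ℕ} (v : Fin k → Fin n → F) (hv : ∀ i, IsRatVec F₀ (v i)) :
    (∃ x, IsRatVec F₀ x ∧ (∀ i, pullForm n q P x (v i) = 0) ∧ pullForm n q P x x ≠ 0) ∨
      ∀ x ∈ ratPerp H v, ∀ y ∈ ratPerp H v, pullForm n q P x y = 0 := by
  obtain ⟨ε, hε0, hε⟩ := exists_skew H.herm
  by_cases hc : ∃ x, IsRatVec F₀ x ∧ (∀ i, pullForm n q P x (v i) = 0) ∧ pullForm n q P x x ≠ 0
  · exact Or.inl hc
  push Not at hc
  refine Or.inr ?_
  set U := LinearMap.ker (LinearMap.pi fun i => fl H.herm (v i))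
  have hrr : ∀ x y, IsRatVec F₀ x → IsRatVec F₀ y → x ∈ U → y ∈ U → pullForm n q P x y = 0 := by
    intro x y hx hy hxU hyU
    have e1 := hc x hx ((mem_perp H.herm v x).mp hxU)
    have e2 := hc y hy ((mem_perp H.herm v y).mp hyU)
    have e3 := hc (x + y) (isRat_add hx hy) ((mem_perp H.herm v (x + y)).mp (U.add_mem hxU hyU))
    rw [H.herm.add_left, add_right H.herm, add_right H.herm, e1, e2, H.symm hx hy] at e3
    exact (mul_eq_zero.mp (show (2 : F) * pullForm n q P x y = 0 by linear_combination e3)).resolve_left H.two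
  have hTI : ∀ x ∈ U, ∀ y ∈ U, pullForm n q P x y = 0 := by
    intro x hx y hy
    obtain ⟨a, b, ha, hb, rfl⟩ := H.decomp hε0 hε x
    obtain ⟨c, d, hc', hd, rfl⟩ := H.decomp hε0 hε y
    have hparts : ∀ a b, IsRatVec F₀ a → IsRatVec F₀ b → a + ε • b ∈ U → a ∈ U ∧ b ∈ U := fun a b ha hb h => by
      have hh : ∀ i, pullForm n q P a (v i) = 0 ∧ pullForm n q P b (v i) = 0 := fun i => by
        have := (mem_perp H.herm v _).mp h i
        rw [H.herm.add_left, H.herm.smul_left] at this
        exact H.split_zero hε0 hε (H.rat _ _ ha (hv i)) (H.rat _ _ hb (hv i)) this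
      exact ⟨(mem_perp H.herm v a).mpr fun i => (hh i).1, (mem_perp H.herm v b).mpr fun i => (hh i).2⟩
    obtain ⟨haU, hbU⟩ := hparts a b ha hb hx
    obtain ⟨hcU, hdU⟩ := hparts c d hc' hd hy
    rw [H.herm.add_left, add_right H.herm, add_right H.herm, H.herm.smul_left, H.herm.smul_left, smul_right H.herm,
      smul_right H.herm, hrr a c ha hc' haU hcU, hrr a d ha hd haU hdU, hrr b c hb hc' hbU hcU, hrr b d hb hd hbU hdU]
    ring
  exact hTI

/-- An anisotropic rational vector orthogonal to less than half as many rational vectors. -/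
theorem OrthRatL.exists_aniso {k : ℕ} (hk : 2 * k < n) (v : Fin k → Fin n → F) (hv : ∀ i, IsRatVec F₀ (v i)) :
    ∃ x, IsRatVec F₀ x ∧ (∀ i, pullForm n q P x (v i) = 0) ∧ pullForm n q P x x ≠ 0 := by
  refine (H.aniso_or v hv).resolve_right fun hTI => ?_
  have h1 := ti_bound H.herm _ hTI
  have h2 := finrank_perp H.herm v
  change Fintype.card (Fin n) ≤ Module.finrank F (ratPerp H v) + k at h2
  rw [Fintype.card_fin] at h1 h2
  omega

/-- Isotropic leftovers orthogonal to an anisotropic vector and to its complement are orthogonal to everything. -/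
theorem OrthRatL.ti_step {k : ℕ} (v : Fin k → Fin n → F) {x : Fin n → F} (hx : x ∈ ratPerp H v)
    (hxx : pullForm n q P x x ≠ 0) {u : Fin n → F} (hu : u ∈ ratPerp H (Fin.cons x v))
    (hperp : ∀ y ∈ ratPerp H (Fin.cons x v), pullForm n q P u y = 0) :
    u ∈ ratPerp H v ∧ ∀ y ∈ ratPerp H v, pullForm n q P u y = 0 := by
  unfold ratPerp at *
  simp only [mem_perp] at *
  have hux : pullForm n q P u x = 0 := by simpa using hu 0
  refine ⟨fun i => by simpa using hu i.succ, fun y hy => ?_⟩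
  set c := pullForm n q P y x / pullForm n q P x x with hc
  have h1 := hperp (y - c • x) fun i => by
    refine Fin.cases ?_ (fun j => ?_) i
    · simp [sub_left H.herm, H.herm.smul_left, hc, div_mul_cancel₀ _ hxx]
    · simp [sub_left H.herm, H.herm.smul_left, hy j, hx j]
  rwa [sub_right H.herm, smul_right H.herm, hux, mul_zero, sub_zero] at h1

/-- The radical left over is small. -/
theorem OrthRatL.ti_small {k : ℕ} (v : Fin k → Fin n → F) {U : Submodule F (Fin n → F)}
    (hU : ∀ u ∈ U, ∀ y ∈ ratPerp H v, pullForm n q P u y = 0) : Module.finrank F U ≤ k := by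
  have hle : U ≤ Submodule.span F (Set.range v) := fun u hu => by
    rw [← perp_perp H.herm (Submodule.span F (Set.range v)), mem_perpW H.herm]
    exact fun y hy => hU u hu y ((mem_perp H.herm v y).mpr fun i =>
      (mem_perpW H.herm).mp hy _ (Submodule.subset_span ⟨i, rfl⟩))
  exact (Submodule.finrank_mono hle).trans ((finrank_range_le_card v).trans (Fintype.card_fin k).le)

/-- Three orthogonal anisotropic rational vectors combine to an isotropic one. -/
theorem OrthRatL.iso_of_three {k : ℕ} (v : Fin k → Fin n → F) {x₁ x₂ x₃ : Fin n → F} (hx₁ : IsRatVec F₀ x₁)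
    (hx₂ : IsRatVec F₀ x₂) (hx₃ : IsRatVec F₀ x₃) (a₁ : pullForm n q P x₁ x₁ ≠ 0) (a₂ : pullForm n q P x₂ x₂ ≠ 0)
    (h21 : pullForm n q P x₂ x₁ = 0) (h31 : pullForm n q P x₃ x₁ = 0) (h32 : pullForm n q P x₃ x₂ = 0)
    (o₁ : ∀ i, pullForm n q P x₁ (v i) = 0) (o₂' : ∀ i, pullForm n q P x₂ (v i) = 0)
    (o₃' : ∀ i, pullForm n q P x₃ (v i) = 0) :
    ∃ z, IsRatVec F₀ z ∧ pullForm n q P z z = 0 ∧ pullForm n q P z x₃ = pullForm n q P x₃ x₃ ∧
      ∀ i, pullForm n q P z (v i) = 0 := by
  haveI := Fintype.ofFinite F₀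
  set α : F₀ := ⟨pullForm n q P x₁ x₁, H.rat _ _ hx₁ hx₁⟩
  set β : F₀ := ⟨pullForm n q P x₂ x₂, H.rat _ _ hx₂ hx₂⟩
  set γ : F₀ := ⟨pullForm n q P x₃ x₃, H.rat _ _ hx₃ hx₃⟩
  have hα : α ≠ 0 := fun h => a₁ (congrArg Subtype.val h)
  have hβ : β ≠ 0 := fun h => a₂ (congrArg Subtype.val h)
  have hodd : Fintype.card F₀ % 2 = 1 := by
    rcases Nat.mod_two_eq_zero_or_one (Fintype.card F₀) with h | h
    · exfalso
      haveI : CharP F₀ 2 := ringChar.of_eq (FiniteField.even_card_iff_char_two.mpr h)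
      exact H.two (congrArg Subtype.val (CharTwo.two_eq_zero (R := F₀)))
    · exact h
  obtain ⟨s, t, hst⟩ := FiniteField.exists_root_sum_quadratic
    (f := Polynomial.C α * Polynomial.X ^ 2) (g := Polynomial.C β * Polynomial.X ^ 2 + Polynomial.C γ)
    (Polynomial.degree_C_mul_X_pow 2 hα)
    (by rw [Polynomial.degree_add_C (by rw [Polynomial.degree_C_mul_X_pow 2 hβ]; decide)]
        exact Polynomial.degree_C_mul_X_pow 2 hβ) hodd
  have hst' : pullForm n q P x₁ x₁ * (s : F) ^ 2 + (pullForm n q P x₂ x₂ * (t : F) ^ 2 + pullForm n q P x₃ x₃) = 0 := by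
    have := congrArg Subtype.val hst
    simpa [α, β, γ] using this
  set z := (s : F) • x₁ + (t : F) • x₂ + x₃ with hz
  have hzr : IsRatVec F₀ z := isRat_add (isRat_add (isRat_smul s.2 hx₁) (isRat_smul t.2 hx₂)) hx₃
  have h12 := (eq_zero_comm H.herm).mp h21
  have h13 := (eq_zero_comm H.herm).mp h31
  have h23 := (eq_zero_comm H.herm).mp h32
  have hzz : pullForm n q P z z = 0 := by
    simp only [hz, H.herm.add_left, add_right H.herm, H.herm.smul_left, smul_right H.herm, (H.fixed _).mpr s.2,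
      (H.fixed _).mpr t.2, h21, h31, h32, h12, h13, h23]
    linear_combination hst'
  have hz3 : pullForm n q P z x₃ = pullForm n q P x₃ x₃ := by
    simp only [hz, H.herm.add_left, H.herm.smul_left, h13, h23]; ring
  have oz : ∀ i, pullForm n q P z (v i) = 0 := fun i => by
    simp only [hz, H.herm.add_left, H.herm.smul_left, o₁ i, o₂' i, o₃' i]; ring
  exact ⟨z, hzr, hzz, hz3, oz⟩

/-- Rational vectors span the orthogonal space of rational vectors. -/
theorem OrthRatL.perp_le_span {k : ℕ} (v : Fin k → Fin n → F) (hv : ∀ i, IsRatVec F₀ (v i)) :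
    ratPerp H v ≤ Submodule.span F {a | IsRatVec F₀ a ∧ a ∈ ratPerp H v} := fun u hu => by
  obtain ⟨ε, hε0, hε⟩ := exists_skew H.herm
  obtain ⟨a, b, ha, hb, rfl⟩ := H.decomp hε0 hε u
  have hh : ∀ i, pullForm n q P a (v i) = 0 ∧ pullForm n q P b (v i) = 0 := fun i => by
    have := (mem_perp H.herm v _).mp hu i
    rw [H.herm.add_left, H.herm.smul_left] at this
    exact H.split_zero hε0 hε (H.rat _ _ ha (hv i)) (H.rat _ _ hb (hv i)) this
  exact Submodule.add_mem _ (Submodule.subset_span ⟨ha, (mem_perp H.herm v a).mpr fun i => (hh i).1⟩)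
    (Submodule.smul_mem _ _ (Submodule.subset_span ⟨hb, (mem_perp H.herm v b).mpr fun i => (hh i).2⟩))

/-- Independent rational vectors in the orthogonal space of rational vectors. -/
theorem OrthRatL.perp_basis {k m : ℕ} (v : Fin k → Fin n → F) (hv : ∀ i, IsRatVec F₀ (v i))
    (hm : m ≤ Module.finrank F (ratPerp H v)) :
    ∃ z : Fin m → Fin n → F, LinearIndependent F z ∧ (∀ e, IsRatVec F₀ (z e)) ∧ ∀ e, z e ∈ ratPerp H v := by
  classical
  obtain ⟨b, hbS, hbspan, hbli⟩ := exists_linearIndependent F {a | IsRatVec F₀ a ∧ a ∈ ratPerp H v}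
  haveI : Fintype b := (Set.toFinite b).fintype
  have hbc : m ≤ Fintype.card b := by
    have h1 := Submodule.finrank_mono (hbspan ▸ H.perp_le_span v hv)
    rw [← Set.toFinset_card, ← finrank_span_set_eq_card hbli]
    omega
  obtain ⟨e⟩ := Function.Embedding.nonempty_of_card_le (α := Fin m) (β := b) (by simpa using hbc)
  exact ⟨fun t => (e t : Fin n → F), hbli.comp e e.injective, fun t => (hbS (e t).2).1, fun t => (hbS (e t).2).2⟩

/-- A rational isotropic vector orthogonal to at most three rational vectors. -/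
theorem OrthRatL.exists_iso {k : ℕ} (hk : k ≤ 3) (v : Fin k → Fin n → F) (hv : ∀ i, IsRatVec F₀ (v i)) :
    ∃ z, IsRatVec F₀ z ∧ z ≠ 0 ∧ pullForm n q P z z = 0 ∧ ∀ i, pullForm n q P z (v i) = 0 := by
  have hn := H.hn
  have stuck : ∀ {l : ℕ} (w : Fin l → Fin n → F), (∀ i, IsRatVec F₀ (w i)) → l + 1 ≤ n →
      (∀ x ∈ ratPerp H w, ∀ y ∈ ratPerp H w, pullForm n q P x y = 0) →
      ∃ z, IsRatVec F₀ z ∧ z ≠ 0 ∧ pullForm n q P z z = 0 ∧ z ∈ ratPerp H w := by
    intro l w hw hl hTI
    have hd := finrank_perp H.herm w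
    change Fintype.card (Fin n) ≤ Module.finrank F (ratPerp H w) + l at hd
    rw [Fintype.card_fin] at hd
    obtain ⟨z, hzl, hzr, hzm⟩ := H.perp_basis (m := 1) w hw (by omega)
    exact ⟨z 0, hzr 0, hzl.ne_zero 0, hTI _ (hzm 0) _ (hzm 0), hzm 0⟩
  rcases H.aniso_or v hv with ⟨x₁, hx₁, o₁, a₁⟩ | hTI
  swap
  · obtain ⟨z, h1, h2, h3, h4⟩ := stuck v hv (by omega) hTI
    exact ⟨z, h1, h2, h3, (mem_perp H.herm v z).mp h4⟩
  have hv₁ : ∀ i, IsRatVec F₀ ((Fin.cons x₁ v : Fin (k + 1) → Fin n → F) i) := fun i => Fin.cases hx₁ hv i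
  rcases H.aniso_or _ hv₁ with ⟨x₂, hx₂, o₂, a₂⟩ | hTI
  swap
  · obtain ⟨z, h1, h2, h3, h4⟩ := stuck _ hv₁ (by omega) hTI
    exact ⟨z, h1, h2, h3, fun i => by simpa using (mem_perp H.herm _ z).mp h4 i.succ⟩
  have hv₂ : ∀ i, IsRatVec F₀ ((Fin.cons x₂ (Fin.cons x₁ v) : Fin (k + 1 + 1) → Fin n → F) i) :=
    fun i => Fin.cases hx₂ hv₁ i
  rcases H.aniso_or _ hv₂ with ⟨x₃, hx₃, o₃, a₃⟩ | hTI
  swap
  · obtain ⟨z, h1, h2, h3, h4⟩ := stuck _ hv₂ (by omega) hTI
    exact ⟨z, h1, h2, h3, fun i => by simpa using (mem_perp H.herm _ z).mp h4 i.succ.succ⟩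
  obtain ⟨z, hz, hzz, hz3, oz⟩ := H.iso_of_three v hx₁ hx₂ hx₃ a₁ a₂ (by simpa using o₂ 0)
    (by simpa using o₃ (Fin.succ 0)) (by simpa using o₃ 0) o₁ (fun i => by simpa using o₂ i.succ)
    (fun i => by simpa using o₃ i.succ.succ)
  exact ⟨z, hz, fun h => a₃ (by rw [← hz3, h, zero_left H.herm]), hzz, oz⟩

/-- A rational hyperbolic pair orthogonal to few rational vectors. -/
theorem OrthRatL.exists_pair_or {k : ℕ} (hk : k ≤ 2) (v : Fin k → Fin n → F) (hv : ∀ i, IsRatVec F₀ (v i)) :
    (∃ z y, IsRatVec F₀ z ∧ IsRatVec F₀ y ∧ (∀ i, pullForm n q P z (v i) = 0) ∧ (∀ i, pullForm n q P y (v i) = 0) ∧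
      pullForm n q P z z = 0 ∧ pullForm n q P y y = 0 ∧ pullForm n q P z y = 1 ∧ pullForm n q P y z = 1) ∨
      (k = 2 ∧ ∃ z : Fin 2 → Fin n → F, LinearIndependent F z ∧ (∀ e, IsRatVec F₀ (z e)) ∧
        ∀ e, z e ∈ ratPerp H v ∧ ∀ y ∈ ratPerp H v, pullForm n q P (z e) y = 0) := by
  classical
  obtain ⟨x₁, hx₁, o₁, a₁⟩ := H.exists_aniso (by have := H.hn; omega) v hv
  have hn := H.hn
  have hx₁v : x₁ ∈ ratPerp H v := (mem_perp H.herm v x₁).mpr o₁
  have hv₁ : ∀ i, IsRatVec F₀ ((Fin.cons x₁ v : Fin (k + 1) → Fin n → F) i) := fun i => Fin.cases hx₁ hv i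
  obtain ⟨x₂, hx₂, o₂, a₂⟩ | hTI := H.aniso_or (Fin.cons x₁ v) hv₁
  swap
  · exfalso
    have hd := finrank_perp H.herm (Fin.cons x₁ v : Fin (k + 1) → Fin n → F)
    change Fintype.card (Fin n) ≤ Module.finrank F (ratPerp H (Fin.cons x₁ v)) + (k + 1) at hd
    rw [Fintype.card_fin] at hd
    have := H.ti_small v fun u hu => (H.ti_step v hx₁v a₁ hu fun y hy => hTI u hu y hy).2
    omega
  have hx₂v : x₂ ∈ ratPerp H (Fin.cons x₁ v) := (mem_perp H.herm _ x₂).mpr o₂
  have hv₂ : ∀ i, IsRatVec F₀ ((Fin.cons x₂ (Fin.cons x₁ v) : Fin (k + 1 + 1) → Fin n → F) i) :=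
    fun i => Fin.cases hx₂ hv₁ i
  obtain ⟨x₃, hx₃, o₃, a₃⟩ | hTI := H.aniso_or (Fin.cons x₂ (Fin.cons x₁ v)) hv₂
  swap
  · -- three independent rational isotropic vectors are left
    refine Or.inr ?_
    set V₂ : Fin (k + 1 + 1) → Fin n → F := Fin.cons x₂ (Fin.cons x₁ v) with hV₂
    have hrad : ∀ u ∈ ratPerp H V₂, u ∈ ratPerp H v ∧ ∀ y ∈ ratPerp H v, pullForm n q P u y = 0 := fun u hu =>
      have h2 := H.ti_step _ hx₂v a₂ hu fun y hy => hTI u hu y hy
      H.ti_step v hx₁v a₁ h2.1 h2.2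
    have hd := finrank_perp H.herm V₂
    change Fintype.card (Fin n) ≤ Module.finrank F (ratPerp H V₂) + (k + 1 + 1) at hd
    rw [Fintype.card_fin] at hd
    have hsmall := H.ti_small v fun u hu => (hrad u hu).2
    refine ⟨by omega, ?_⟩
    obtain ⟨z, hzl, hzr, hzm⟩ := H.perp_basis (m := 2) V₂ hv₂ (by omega)
    exact ⟨z, hzl, hzr, fun e => hrad _ (hzm e)⟩
  have h21 : pullForm n q P x₂ x₁ = 0 := by simpa using o₂ 0
  have h32 : pullForm n q P x₃ x₂ = 0 := by simpa using o₃ 0
  have h31 : pullForm n q P x₃ x₁ = 0 := by simpa using o₃ (Fin.succ 0)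
  have o₂' : ∀ i, pullForm n q P x₂ (v i) = 0 := fun i => by simpa using o₂ i.succ
  have o₃' : ∀ i, pullForm n q P x₃ (v i) = 0 := fun i => by simpa using o₃ i.succ.succ
  obtain ⟨z, hzr, hzz, hz3, oz⟩ := H.iso_of_three v hx₁ hx₂ hx₃ a₁ a₂ h21 h31 h32 o₁ o₂' o₃'
  set c := (pullForm n q P x₃ x₃)⁻¹ with hc
  have hcF : c ∈ F₀ := inv_mem (H.rat _ _ hx₃ hx₃)
  set y' := c • x₃ with hy'
  have hy'r : IsRatVec F₀ y' := isRat_smul hcF hx₃
  have hzy' : pullForm n q P z y' = 1 := by
    rw [hy', smul_right H.herm, (H.fixed _).mpr hcF, hz3, hc, inv_mul_cancel₀ a₃]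
  set μ := - pullForm n q P y' y' / 2 with hμ
  have hμF : μ ∈ F₀ := div_mem (neg_mem (H.rat _ _ hy'r hy'r)) H.two_mem
  have hy'z : pullForm n q P y' z = 1 := by rw [H.symm hzr hy'r]; exact hzy'
  have oy' : ∀ i, pullForm n q P y' (v i) = 0 := fun i => by rw [hy', H.herm.smul_left, o₃' i, mul_zero]
  clear_value y'
  refine Or.inl ⟨z, y' + μ • z, hzr, isRat_add hy'r (isRat_smul hμF hzr), oz,
    fun i => by rw [H.herm.add_left, H.herm.smul_left, oy' i, oz i, mul_zero, add_zero], hzz, ?_, ?_, ?_⟩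
  · have h2 := H.two
    simp only [H.herm.add_left, add_right H.herm, H.herm.smul_left, smul_right H.herm, (H.fixed _).mpr hμF, hzy',
      hy'z, hzz]
    rw [hμ]
    field_simp
    ring
  · rw [add_right H.herm, smul_right H.herm, hzz, hzy', mul_zero, add_zero]
  · rw [H.herm.add_left, H.herm.smul_left, hzz, hy'z, mul_zero, add_zero]

/-- A rational hyperbolic pair orthogonal to at most one rational vector. -/
theorem OrthRatL.exists_pair {k : ℕ} (hk : k ≤ 1) (v : Fin k → Fin n → F) (hv : ∀ i, IsRatVec F₀ (v i)) :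
    ∃ z y, IsRatVec F₀ z ∧ IsRatVec F₀ y ∧ (∀ i, pullForm n q P z (v i) = 0) ∧ (∀ i, pullForm n q P y (v i) = 0) ∧
      pullForm n q P z z = 0 ∧ pullForm n q P y y = 0 ∧ pullForm n q P z y = 1 ∧ pullForm n q P y z = 1 :=
  (H.exists_pair_or (by omega) v hv).resolve_right fun h => by omega

/-- Dual rational vectors. -/
theorem OrthRatL.rat_dual {ι : Type} [Fintype ι] {z : ι → Fin n → F} (hz : LinearIndependent F z)
    (hzr : ∀ e, IsRatVec F₀ (z e)) (e : ι) :
    ∃ p, IsRatVec F₀ p ∧ pullForm n q P p (z e) ≠ 0 ∧ ∀ t, t ≠ e → pullForm n q P p (z t) = 0 := by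
  obtain ⟨ε, hε0, hε⟩ := exists_skew H.herm
  by_contra hc
  push Not at hc
  refine (linearIndependent_iff_notMem_span.mp hz e) ?_
  rw [← perp_perp H.herm (Submodule.span F (z '' (Set.univ \ {e}))), mem_perpW H.herm]
  intro u hu
  rw [eq_zero_comm H.herm]
  have hu' : ∀ t, t ≠ e → pullForm n q P u (z t) = 0 := fun t ht =>
    (mem_perpW H.herm).mp hu _ (Submodule.subset_span ⟨t, ⟨Set.mem_univ t, ht⟩, rfl⟩)
  obtain ⟨a, b, ha, hb, rfl⟩ := H.decomp hε0 hε u
  have hab : ∀ t, t ≠ e → pullForm n q P a (z t) = 0 ∧ pullForm n q P b (z t) = 0 := fun t ht => by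
    have := hu' t ht
    rw [H.herm.add_left, H.herm.smul_left] at this
    exact H.split_zero hε0 hε (H.rat _ _ ha (hzr t)) (H.rat _ _ hb (hzr t)) this
  have e1 : pullForm n q P a (z e) = 0 := by
    by_contra h1
    obtain ⟨t, ht, h2⟩ := hc a ha h1
    exact h2 (hab t ht).1
  have e2 : pullForm n q P b (z e) = 0 := by
    by_contra h1
    obtain ⟨t, ht, h2⟩ := hc b hb h1
    exact h2 (hab t ht).2
  rw [H.herm.add_left, H.herm.smul_left, e1, e2, mul_zero, add_zero]

/-- A rational Siegel element. -/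
theorem OrthRatL.eich_rat {x z : Fin n → F} (hx : IsRatVec F₀ x) (hz : IsRatVec F₀ z)
    (hzz : pullForm n q P z z = 0) (hxz : pullForm n q P x z = 0) :
    eich H.herm hzz hxz (- pullForm n q P x x / 2) ∈ subGroupF (Fin n) F₀ ⊓ isoSL (pullForm n q P) := by
  haveI : Nonempty (Fin n) := ⟨⟨0, by have := H.hn; omega⟩⟩
  have hγF : - pullForm n q P x x / 2 ∈ F₀ := div_mem (neg_mem (H.rat _ _ hx hx)) H.two_mem
  refine ⟨mem_subGroupF.mpr ⟨1, one_ne_zero, fun a b => ?_⟩, fun u v => eich_iso H.herm hzz hxz ?_ u v,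
    eich_mem_sl H.herm hzz hxz _⟩
  · have h := congrFun (eich_mulVec H.herm hzz hxz (- pullForm n q P x x / 2) (Pi.single b 1)) a
    rw [Matrix.mulVec_single_one, Matrix.col_apply] at h
    rw [one_mul, h]
    exact isRat_add (isRat_sub (isRat_single b) (isRat_smul (H.rat _ _ (isRat_single b) hx) hz))
      (isRat_smul (H.rat _ _ (isRat_single b) hz) (isRat_add hx (isRat_smul hγF hz))) a
  · rw [(H.fixed _).mpr hγF]; have := H.two; field_simp; ring

/-- Ordered products of two Siegel elements differ by a transvection. -/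
theorem OrthRatL.eich_comm {x x' z : Fin n → F} (hz : pullForm n q P z z = 0) (hxz : pullForm n q P x z = 0)
    (hxz' : pullForm n q P x' z = 0) (γ γ' : F) :
    eich H.herm hz hxz γ * eich H.herm hz hxz' γ' =
      uT H.herm hz (pullForm n q P x x' - pullForm n q P x' x) * (eich H.herm hz hxz' γ' * eich H.herm hz hxz γ) := by
  refine gl_ext fun y => ?_
  simp only [Units.val_mul, ← Matrix.mulVec_mulVec, eich_mulVec, uT_mulVec, sub_left H.herm, H.herm.add_left,
    H.herm.smul_left, hz, hxz, hxz', (eq_zero_comm H.herm).mp hxz, (eq_zero_comm H.herm).mp hxz', mul_zero, add_zero,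
    sub_zero]
  module

/-- A rational Siegel pair carrying an isotropic vector to a multiple of its partner. -/
theorem OrthRatL.move {u w r : Fin n → F} (huu : pullForm n q P u u = 0) (hww : pullForm n q P w w = 0)
    (hu : IsRatVec F₀ u) (hw : IsRatVec F₀ w) (huw : pullForm n q P u w = 1) (hr : IsRatVec F₀ r)
    (hru : pullForm n q P r u = 0) (hrw : pullForm n q P r w = 0) (hrr : pullForm n q P r r ≠ 0) :
    ∃ k ∈ subGroupF (Fin n) F₀ ⊓ isoSL (pullForm n q P),
      (k : Mat) *ᵥ u = (- pullForm n q P r r / 2) • w := by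
  set γ := - pullForm n q P r r / 2 with hγ
  have hγ0 : γ ≠ 0 := div_ne_zero (neg_ne_zero.mpr hrr) H.two
  have hγF : γ ∈ F₀ := div_mem (neg_mem (H.rat _ _ hr hr)) H.two_mem
  have hr' : pullForm n q P ((-γ⁻¹) • r) u = 0 := by rw [H.herm.smul_left, hru, mul_zero]
  refine ⟨_, Subgroup.mul_mem _ (H.eich_rat (isRat_smul (neg_mem (inv_mem hγF)) hr) hu huu hr')
    (H.eich_rat hr hw hww hrw), ?_⟩
  have hwu : pullForm n q P w u = 1 := by rw [H.symm hu hw]; exact huw
  have hur : pullForm n q P u r = 0 := (eq_zero_comm H.herm).mp hru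
  have hwr : pullForm n q P w r = 0 := (eq_zero_comm H.herm).mp hrw
  have hσ : frobQ hF (-γ⁻¹) = -γ⁻¹ := (H.fixed _).mpr (neg_mem (inv_mem hγF))
  simp only [Units.val_mul, ← Matrix.mulVec_mulVec, eich_mulVec, huw, hur, zero_smul, sub_zero, one_smul, ← hγ,
    H.herm.add_left, H.herm.smul_left, smul_right H.herm, hru, hwu, huu, hwr, hσ, mul_zero, mul_one, add_zero,
    zero_add]
  have h2 : pullForm n q P r r = -2 * γ := by rw [hγ]; have := H.two; field_simp
  rw [h2]
  have h22 := H.two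
  match_scalars <;> field_simp <;> ring

/-- The rational torus element of a hyperbolic pair. -/
theorem OrthRatL.torus {z y : Fin n → F} (hzz : pullForm n q P z z = 0) (hyy : pullForm n q P y y = 0)
    (hz : IsRatVec F₀ z) (hy : IsRatVec F₀ y) (hzy : pullForm n q P z y = 1) {l : F} (hl : l ∈ F₀) (hl0 : l ≠ 0) :
    ∃ k ∈ subGroupF (Fin n) F₀ ⊓ isoSL (pullForm n q P), (k : Mat) *ᵥ z = l • z := by
  haveI : Nonempty (Fin n) := ⟨⟨0, by have := H.hn; omega⟩⟩
  have hyz : pullForm n q P y z = 1 := by rw [H.symm hz hy]; exact hzy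
  have hu : ∀ b : F, (b • fl H.herm z) z = 0 := fun b => by rw [LinearMap.smul_apply, fl_apply, hzz, smul_zero]
  have hd : ∀ b : F, (b • fl H.herm y) y = 0 := fun b => by rw [LinearMap.smul_apply, fl_apply, hyy, smul_zero]
  set k := transGL _ z (hu l) * transGL _ y (hd (-l⁻¹)) * transGL _ z (hu l) * transGL _ z (hu (-1)) *
    transGL _ y (hd 1) * transGL _ z (hu (-1)) with hk
  have hkv : ∀ v, (k : Mat) *ᵥ v =
      v + ((l - 1) * pullForm n q P v y) • z + ((l⁻¹ - 1) * pullForm n q P v z) • y := fun v => by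
    simp only [hk, Units.val_mul, ← Matrix.mulVec_mulVec, transGL_mulVec, LinearMap.smul_apply, fl_apply,
      smul_eq_mul, H.herm.add_left, H.herm.smul_left, hzz, hyy, hzy, hyz, mul_zero, mul_one, add_zero]
    match_scalars <;> field_simp <;> ring
  refine ⟨k, ⟨mem_subGroupF.mpr ⟨1, one_ne_zero, fun a b => ?_⟩, fun u v => ?_, ?_⟩, ?_⟩
  · have h := congrFun (hkv (Pi.single b 1)) a
    rw [Matrix.mulVec_single_one, Matrix.col_apply] at h
    rw [one_mul, h]
    exact isRat_add (isRat_add (isRat_single b) (isRat_smul (mul_mem (sub_mem hl (one_mem _))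
      (H.rat _ _ (isRat_single b) hy)) hz)) (isRat_smul (mul_mem (sub_mem (inv_mem hl) (one_mem _))
      (H.rat _ _ (isRat_single b) hz)) hy) a
  · change pullForm n q P ((k : Mat) *ᵥ u) ((k : Mat) *ᵥ v) = _
    simp only [hkv, H.herm.add_left, add_right H.herm, H.herm.smul_left, smul_right H.herm, map_mul, map_sub, map_one,
      map_inv₀, (H.fixed _).mpr hl, sigma_apply H.herm, hzz, hyy, hzy, hyz]
    field_simp
    ring
  · rw [hk]
    exact Subgroup.mul_mem _ (Subgroup.mul_mem _ (Subgroup.mul_mem _ (Subgroup.mul_mem _ (Subgroup.mul_mem _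
      (transGL_mem_sl _ _ _) (transGL_mem_sl _ _ _)) (transGL_mem_sl _ _ _)) (transGL_mem_sl _ _ _))
      (transGL_mem_sl _ _ _)) (transGL_mem_sl _ _ _)
  · rw [hkv, hzy, hzz]; module

variable {M : Subgroup (GL (Fin n) F)} (hle : subGroupF (Fin n) F₀ ⊓ isoSL (pullForm n q P) ≤ M)
  (hsu : M ≤ isoSL (pullForm n q P))
include hle hsu

/-- A single transvection with rational isotropic centre gives the whole centre. -/
theorem OrthRatL.centre_of_one {z y : Fin n → F} (hz : IsRatVec F₀ z) (hzz : pullForm n q P z z = 0)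
    (hy : IsRatVec F₀ y) (hyy : pullForm n q P y y = 0) (hzy : pullForm n q P z y = 1)
    {d : F} (hd0 : d ≠ 0) (hd : frobQ hF d = -d) (hmem : uT H.herm hzz d ∈ M) : z ∈ centres H.herm M := by
  have hiso : ∀ k ∈ M, ∀ a b, pullForm n q P ((k : Mat) *ᵥ a) ((k : Mat) *ᵥ b) = pullForm n q P a b :=
    fun k hk => (mem_isoSL.mp (hsu hk)).1
  have hsq : ∀ r : F, r ∈ F₀ → uT H.herm hzz (r * r * d) ∈ M := by
    intro r hr
    rcases eq_or_ne r 0 with rfl | hr0
    · convert M.one_mem using 1
      exact gl_ext fun v => by simp [uT_mulVec]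
    obtain ⟨k, hk, e⟩ := H.torus hzz hyy hz hy hzy hr hr0
    have hkz : pullForm n q P ((k : Mat) *ᵥ z) ((k : Mat) *ᵥ z) = 0 := by rw [hiso k (hle hk)]; exact hzz
    have h1 := M.mul_mem (M.mul_mem (hle hk) hmem) (M.inv_mem (hle hk))
    rw [conj_uT H.herm (hiso k (hle hk)) hzz d hkz] at h1
    convert h1 using 1
    refine gl_ext fun v => ?_
    rw [uT_mulVec, uT_mulVec, e, smul_right H.herm, (H.fixed _).mpr hr, smul_smul]
    congr 2
    ring
  refine ⟨hzz, fun d' hd' => ?_⟩
  have hF₀ : d' / d ∈ F₀ := (H.fixed _).mp (by rw [map_div₀, hd', hd, neg_div_neg_eq])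
  set t := d' / d with ht
  have h2 := H.two
  have h1 := M.mul_mem (hsq ((t + 1) / 2) (div_mem (add_mem hF₀ (one_mem _)) H.two_mem))
    (M.inv_mem (hsq ((t - 1) / 2) (div_mem (sub_mem hF₀ (one_mem _)) H.two_mem)))
  convert h1 using 1
  rw [eq_mul_inv_iff_mul_eq]
  refine gl_ext fun v => ?_
  have e : d' = t * d := by rw [ht, div_mul_cancel₀ _ hd0]
  simp only [Units.val_mul, ← Matrix.mulVec_mulVec, uT_mulVec, H.herm.add_left, H.herm.smul_left, hzz, mul_zero,
    add_zero, e]
  match_scalars <;> field_simp <;> ring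

end

section
variable {hF : Fintype.card F = q ^ 2} {F₀ : Subfield F} {P : GL (Fin n) F} (H : OrthRatL hF F₀ P)
include H

/-- Rational vectors are spanned over the subfield by rational isotropic vectors. -/
theorem OrthRatL.rat_span {p : (Fin n → F) → Prop} (hadd : ∀ a b, p a → p b → p (a + b))
    (hsmul : ∀ (c : F), c ∈ F₀ → ∀ a, p a → p (c • a))
    (hiso : ∀ z, IsRatVec F₀ z → pullForm n q P z z = 0 → p z) {x : Fin n → F} (hx : IsRatVec F₀ x) : p x := by
  obtain ⟨z, y, hz, hy, -, -, hzz, hyy, hzy, hyz⟩ := H.exists_pair (show 0 ≤ 1 by norm_num) Fin.elim0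
    (fun i => Fin.elim0 i)
  set s := pullForm n q P x y with hs
  set t := pullForm n q P x z with ht
  have hsF : s ∈ F₀ := H.rat _ _ hx hy
  have htF : t ∈ F₀ := H.rat _ _ hx hz
  set x' := x - s • z - t • y with hx'
  have hx'r : IsRatVec F₀ x' := isRat_sub (isRat_sub hx (isRat_smul hsF hz)) (isRat_smul htF hy)
  have a1 : pullForm n q P x' z = 0 := by
    rw [hx', sub_left H.herm, sub_left H.herm, H.herm.smul_left, H.herm.smul_left, hzz, hyz, ← ht]; ring
  have a2 : pullForm n q P x' y = 0 := by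
    rw [hx', sub_left H.herm, sub_left H.herm, H.herm.smul_left, H.herm.smul_left, hzy, hyy, ← hs]; ring
  set μ := - pullForm n q P x' x' / 2 with hμ
  have hμF : μ ∈ F₀ := div_mem (neg_mem (H.rat _ _ hx'r hx'r)) H.two_mem
  have hw : pullForm n q P (x' + z + μ • y) (x' + z + μ • y) = 0 := by
    simp only [H.herm.add_left, add_right H.herm, H.herm.smul_left, smul_right H.herm, (H.fixed _).mpr hμF, a1, a2,
      (eq_zero_comm H.herm).mp a1, (eq_zero_comm H.herm).mp a2, hzz, hyy, hzy, hyz]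
    rw [hμ]
    have := H.two
    field_simp
    ring
  have e : x = (x' + z + μ • y) + ((s - 1) • z + (t - μ) • y) := by rw [hx']; module
  rw [e]
  exact hadd _ _ (hiso _ (isRat_add (isRat_add hx'r hz) (isRat_smul hμF hy)) hw)
    (hadd _ _ (hsmul _ (sub_mem hsF (one_mem _)) _ (hiso z hz hzz)) (hsmul _ (sub_mem htF hμF) _ (hiso y hy hyy)))

/-- Partners in a plane. -/
theorem OrthRatL.partner {z : Fin n → F} (hz : IsRatVec F₀ z) (hzz : pullForm n q P z z = 0) (hz0 : z ≠ 0) :
    ∃ y, IsRatVec F₀ y ∧ pullForm n q P y y = 0 ∧ pullForm n q P z y = 1 := by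
  obtain ⟨y₀, hy₀, h0⟩ := H.exists_nonorth hz0
  set c := (pullForm n q P y₀ z)⁻¹ with hc
  have hcF : c ∈ F₀ := inv_mem (H.rat _ _ hy₀ hz)
  set y₁ := c • y₀ with hy₁
  have hy₁r : IsRatVec F₀ y₁ := isRat_smul hcF hy₀
  have h1 : pullForm n q P y₁ z = 1 := by rw [hy₁, H.herm.smul_left, hc, inv_mul_cancel₀ h0]
  have h1' : pullForm n q P z y₁ = 1 := by rw [H.symm hy₁r hz]; exact h1
  clear_value y₁
  set μ := - pullForm n q P y₁ y₁ / 2 with hμ
  have hμF : μ ∈ F₀ := div_mem (neg_mem (H.rat _ _ hy₁r hy₁r)) H.two_mem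
  refine ⟨y₁ + μ • z, isRat_add hy₁r (isRat_smul hμF hz), ?_, ?_⟩
  · simp only [H.herm.add_left, add_right H.herm, H.herm.smul_left, smul_right H.herm, (H.fixed _).mpr hμF, h1, h1',
      hzz]
    rw [hμ]
    have := H.two
    field_simp
    ring
  · rw [add_right H.herm, smul_right H.herm, hzz, h1', mul_zero, add_zero]

/-- A vector in the line of its conjugate is a multiple of a rational vector. -/
theorem OrthRatL.line_rat {w : Fin n → F} {α : F} (hw0 : w ≠ 0) (h : ∀ x, frobQ hF (w x) = α * w x) :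
    ∃ (k : F) (r : Fin n → F), IsRatVec F₀ r ∧ w = k • r := by
  obtain ⟨p, hp⟩ := Function.ne_iff.mp hw0
  refine ⟨w p, (w p)⁻¹ • w, fun x => (H.fixed _).mp ?_, by rw [smul_smul, mul_inv_cancel₀ hp, one_smul]⟩
  have hα : α ≠ 0 := fun hα => hp (by
    have := h p
    rw [hα, zero_mul] at this
    rw [← H.herm.involutive (w p), this, map_zero]; rfl)
  simp only [Pi.smul_apply, smul_eq_mul, map_mul, map_inv₀, h, mul_inv]
  field_simp

variable {M : Subgroup (GL (Fin n) F)} (hle : subGroupF (Fin n) F₀ ⊓ isoSL (pullForm n q P) ≤ M)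
  (hsu : M ≤ isoSL (pullForm n q P))
include hle hsu

/-- Without rational centres every Siegel element in `M` with rational centre has a rational parameter. -/
theorem OrthRatL.siegel_param
    (hno : ∀ z, IsRatVec F₀ z → pullForm n q P z z = 0 → z ≠ 0 → z ∉ centres H.herm M)
    {z : Fin n → F} (hz : IsRatVec F₀ z) (hzz : pullForm n q P z z = 0) (hz0 : z ≠ 0) {x : Fin n → F}
    (hxz : pullForm n q P x z = 0) (γ : F) (hmem : eich H.herm hzz hxz γ ∈ M) {x' : Fin n → F} (hx' : IsRatVec F₀ x')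
    (hx'z : pullForm n q P x' z = 0) : pullForm n q P x x' ∈ F₀ := by
  by_contra hne
  obtain ⟨y, hy, hyy, hzy⟩ := H.partner hz hzz hz0
  have h' := hle (H.eich_rat hx' hz hzz hx'z)
  have h1 := M.mul_mem (M.mul_mem hmem h') (M.inv_mem (M.mul_mem h' hmem))
  rw [H.eich_comm hzz hxz hx'z, mul_inv_cancel_right] at h1
  refine hno z hz hzz hz0 (H.centre_of_one hle hsu hz hzz hy hyy hzy (fun h => hne ?_) ?_ h1)
  · rw [← H.fixed, sigma_apply H.herm]; exact (sub_eq_zero.mp h).symm
  · rw [map_sub, sigma_apply H.herm, sigma_apply H.herm, neg_sub]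

/-- Without rational centres an element fixing a rational hyperbolic pair's vectors maps rationals to rationals. -/
theorem OrthRatL.fix_pair_rat
    (hno : ∀ z, IsRatVec F₀ z → pullForm n q P z z = 0 → z ≠ 0 → z ∉ centres H.herm M)
    {s : GL (Fin n) F} (hs : s ∈ M) {z y : Fin n → F} (hz : IsRatVec F₀ z) (hy : IsRatVec F₀ y)
    (hzz : pullForm n q P z z = 0) (hzy : pullForm n q P z y = 1) (hsz : (s : Mat) *ᵥ z = z)
    (hsy : (s : Mat) *ᵥ y = y) {r : Fin n → F} (hr : IsRatVec F₀ r) : IsRatVec F₀ ((s : Mat) *ᵥ r) := by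
  obtain ⟨ε, hε0, hε⟩ := exists_skew H.herm
  have hiso := (mem_isoSL.mp (hsu hs)).1
  have hz0 : z ≠ 0 := fun h => by rw [h, zero_left H.herm] at hzy; exact zero_ne_one hzy
  have hyz : pullForm n q P y z = 1 := by rw [H.symm hz hy]; exact hzy
  have key : ∀ x, IsRatVec F₀ x → pullForm n q P x z = 0 → IsRatVec F₀ ((s : Mat) *ᵥ x) := by
    intro x hx hxz
    have hsxz : pullForm n q P ((s : Mat) *ᵥ x) z = 0 := by
      conv_lhs => rw [← hsz]
      rw [hiso, hxz]
    have hmem : eich H.herm hzz hsxz (- pullForm n q P x x / 2) ∈ M := by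
      have h1 := M.mul_mem (M.mul_mem hs (hle (H.eich_rat hx hz hzz hxz))) (M.inv_mem hs)
      convert h1 using 1
      refine gl_ext fun v => ?_
      set u := ((s⁻¹ : GL (Fin n) F) : Mat) *ᵥ v
      have hv : (s : Mat) *ᵥ u = v := gl_mulVec_inv s v
      have e1 : pullForm n q P v ((s : Mat) *ᵥ x) = pullForm n q P u x := by rw [← hv, hiso]
      have e2 : pullForm n q P v z = pullForm n q P u z := by
        conv_lhs => rw [← hv, ← hsz]
        rw [hiso]
      simp only [Units.val_mul, ← Matrix.mulVec_mulVec, eich_mulVec, Matrix.mulVec_add, Matrix.mulVec_sub,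
        Matrix.mulVec_smul, hsz, hv, e1, e2]
      change _ = _
      rw [show (s : Mat) *ᵥ u = v from hv]
    obtain ⟨a, b, ha, hb, hab⟩ := H.decomp hε0 hε ((s : Mat) *ᵥ x)
    suffices hb0 : b = 0 by rw [hab, hb0, smul_zero, add_zero]; exact ha
    by_contra hne
    obtain ⟨w, hw, hwb⟩ := H.exists_nonorth hne
    set t := pullForm n q P w z with ht
    have htF : t ∈ F₀ := H.rat _ _ hw hz
    set w' := w - t • y with hw'
    have hw'r : IsRatVec F₀ w' := isRat_sub hw (isRat_smul htF hy)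
    have hw'z : pullForm n q P w' z = 0 := by
      rw [hw', sub_left H.herm, H.herm.smul_left, hyz, mul_one, ht, sub_self]
    have h1 := H.siegel_param hle hsu hno hz hzz hz0 hsxz _ hmem hw'r hw'z
    have h2 : pullForm n q P ((s : Mat) *ᵥ x) y ∈ F₀ := by
      conv => enter [2]; rw [← hsy]
      rw [hiso]; exact H.rat _ _ hx hy
    have h3 : pullForm n q P ((s : Mat) *ᵥ x) w ∈ F₀ := by
      have e : w = w' + t • y := by rw [hw', sub_add_cancel]
      rw [e, add_right H.herm, smul_right H.herm, (H.fixed _).mpr htF]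
      exact add_mem h1 (mul_mem htF h2)
    rw [hab, H.herm.add_left, H.herm.smul_left] at h3
    have h4 : (pullForm n q P a w - (pullForm n q P a w + ε * pullForm n q P b w)) + ε * pullForm n q P b w = 0 := by
      ring
    obtain ⟨-, h5⟩ := H.split_zero hε0 hε (sub_mem (H.rat _ _ ha hw) h3) (H.rat _ _ hb hw) h4
    exact hwb ((eq_zero_comm H.herm).mp h5)
  set t := pullForm n q P r z with ht
  have htF : t ∈ F₀ := H.rat _ _ hr hz
  have e : r = (r - t • y) + t • y := (sub_add_cancel _ _).symm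
  rw [e, Matrix.mulVec_add, Matrix.mulVec_smul, hsy]
  refine isRat_add (key _ (isRat_sub hr (isRat_smul htF hy)) ?_) (isRat_smul htF hy)
  rw [sub_left H.herm, H.herm.smul_left, hyz, mul_one, ← ht, sub_self]

/-- Without rational centres an element fixing two independent rational isotropic vectors is rational on their
orthogonal space. -/
theorem OrthRatL.fix_two_rat
    (hno : ∀ z, IsRatVec F₀ z → pullForm n q P z z = 0 → z ≠ 0 → z ∉ centres H.herm M)
    {s : GL (Fin n) F} (hs : s ∈ M) {m : ℕ} {z : Fin m → Fin n → F} (hli : LinearIndependent F z)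
    (hz : ∀ e, IsRatVec F₀ (z e)) (hzz : ∀ e, pullForm n q P (z e) (z e) = 0)
    (hsz : ∀ e, (s : Mat) *ᵥ z e = z e) {e f : Fin m} (hef : e ≠ f) {x : Fin n → F} (hx : IsRatVec F₀ x)
    (hxe : pullForm n q P x (z e) = 0) (hxf : pullForm n q P x (z f) = 0) : IsRatVec F₀ ((s : Mat) *ᵥ x) := by
  obtain ⟨ε, hε0, hε⟩ := exists_skew H.herm
  have hiso := (mem_isoSL.mp (hsu hs)).1
  -- the irrational part lies on each fixed line
  have key : ∀ e, ∀ x, IsRatVec F₀ x → pullForm n q P x (z e) = 0 → ∀ a b, IsRatVec F₀ a → IsRatVec F₀ b →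
      (s : Mat) *ᵥ x = a + ε • b → ∃ c : F, b = c • z e := by
    intro e x hx hxz a b ha hb hab
    have hsxz : pullForm n q P ((s : Mat) *ᵥ x) (z e) = 0 := by
      conv_lhs => rw [← hsz e]
      rw [hiso, hxz]
    have hmem : eich H.herm (hzz e) hsxz (- pullForm n q P x x / 2) ∈ M := by
      have h1 := M.mul_mem (M.mul_mem hs (hle (H.eich_rat hx (hz e) (hzz e) hxz))) (M.inv_mem hs)
      convert h1 using 1
      refine gl_ext fun v => ?_
      set u := ((s⁻¹ : GL (Fin n) F) : Mat) *ᵥ v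
      have hv : (s : Mat) *ᵥ u = v := gl_mulVec_inv s v
      have e1 : pullForm n q P v ((s : Mat) *ᵥ x) = pullForm n q P u x := by rw [← hv, hiso]
      have e2 : pullForm n q P v (z e) = pullForm n q P u (z e) := by
        conv_lhs => rw [← hv, ← hsz e]
        rw [hiso]
      simp only [Units.val_mul, ← Matrix.mulVec_mulVec, eich_mulVec, Matrix.mulVec_add, Matrix.mulVec_sub,
        Matrix.mulVec_smul, hsz, hv, e1, e2]
      change _ = _
      rw [show (s : Mat) *ᵥ u = v from hv]
    have hz0 : z e ≠ 0 := hli.ne_zero e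
    obtain ⟨y, hy, -, hzy⟩ := H.partner (hz e) (hzz e) hz0
    have hyz : pullForm n q P y (z e) = 1 := by rw [H.symm (hz e) hy]; exact hzy
    refine ⟨pullForm n q P b y, ?_⟩
    by_contra hne
    obtain ⟨w, hw, hwb⟩ := H.exists_nonorth (sub_ne_zero.mpr hne)
    set t := pullForm n q P w (z e) with ht
    have htF : t ∈ F₀ := H.rat _ _ hw (hz e)
    have hw' : IsRatVec F₀ (w - t • y) := isRat_sub hw (isRat_smul htF hy)
    have hw'z : pullForm n q P (w - t • y) (z e) = 0 := by
      rw [sub_left H.herm, H.herm.smul_left, hyz, mul_one, ht, sub_self]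
    have h1 := H.siegel_param hle hsu hno (hz e) (hzz e) hz0 hsxz _ hmem hw' hw'z
    rw [hab, H.herm.add_left, H.herm.smul_left] at h1
    have hbr : pullForm n q P b (w - t • y) = 0 := (H.split_zero hε0 hε
      (sub_mem (H.rat _ _ ha hw') h1) (H.rat _ _ hb hw') (by ring)).2
    apply hwb
    rw [sub_right H.herm, smul_right H.herm, (H.fixed _).mpr (H.rat _ _ hb hy), ← ht]
    have hbw : pullForm n q P w b = t * pullForm n q P b y := by
      rw [H.symm hb hw]
      rw [sub_right H.herm, smul_right H.herm, (H.fixed _).mpr htF] at hbr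
      linear_combination hbr
    rw [hbw, mul_comm, sub_self]
  obtain ⟨a, b, ha, hb, hab⟩ := H.decomp hε0 hε ((s : Mat) *ᵥ x)
  obtain ⟨c, hc⟩ := key e x hx hxe a b ha hb hab
  obtain ⟨c', hc'⟩ := key f x hx hxf a b ha hb hab
  have h0 := linearIndependent_iff'.mp hli {e, f} (Function.update (fun _ => -c') e c)
    (by rw [Finset.sum_pair hef, Function.update_self, Function.update_of_ne hef.symm, neg_smul, ← hc, ← hc',
      add_neg_cancel]) e (by simp)
  rw [Function.update_self] at h0
  rw [hab, hc, h0, zero_smul, smul_zero, add_zero]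
  exact ha

/-- Without rational centres an element fixing three independent rational isotropic vectors maps rationals to
rationals. -/
theorem OrthRatL.fix_three_rat
    (hno : ∀ z, IsRatVec F₀ z → pullForm n q P z z = 0 → z ≠ 0 → z ∉ centres H.herm M)
    {s : GL (Fin n) F} (hs : s ∈ M) {z : Fin 3 → Fin n → F} (hli : LinearIndependent F z)
    (hz : ∀ e, IsRatVec F₀ (z e)) (hzz : ∀ e, pullForm n q P (z e) (z e) = 0)
    (hsz : ∀ e, (s : Mat) *ᵥ z e = z e) {r : Fin n → F} (hr : IsRatVec F₀ r) : IsRatVec F₀ ((s : Mat) *ᵥ r) := by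
  have two : ∀ e f, e ≠ f → ∀ x, IsRatVec F₀ x → pullForm n q P x (z e) = 0 → pullForm n q P x (z f) = 0 →
      IsRatVec F₀ ((s : Mat) *ᵥ x) := fun e f hef x hx hxe hxf =>
    H.fix_two_rat hle hsu hno hs hli hz hzz hsz hef hx hxe hxf
  choose p hp hpe hpo using fun e => H.rat_dual hli hz e
  let t : Fin 3 → F := fun e => pullForm n q P r (z e) / pullForm n q P (p e) (z e)
  have htF : ∀ e, t e ∈ F₀ := fun e => div_mem (H.rat _ _ hr (hz e)) (H.rat _ _ (hp e) (hz e))
  set x := r - t 0 • p 0 - t 1 • p 1 - t 2 • p 2 with hx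
  have hxr : IsRatVec F₀ x :=
    isRat_sub (isRat_sub (isRat_sub hr (isRat_smul (htF 0) (hp 0))) (isRat_smul (htF 1) (hp 1)))
      (isRat_smul (htF 2) (hp 2))
  have hxz : ∀ e : Fin 3, pullForm n q P x (z e) = 0 := fun e => by
    have hd : t e * pullForm n q P (p e) (z e) = pullForm n q P r (z e) := div_mul_cancel₀ _ (hpe e)
    simp only [hx, sub_left H.herm, H.herm.smul_left]
    match e with
    | 0 => rw [hpo 1 0 (by decide), hpo 2 0 (by decide)]; linear_combination -hd
    | 1 => rw [hpo 0 1 (by decide), hpo 2 1 (by decide)]; linear_combination -hd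
    | 2 => rw [hpo 0 2 (by decide), hpo 1 2 (by decide)]; linear_combination -hd
  have e : r = x + t 0 • p 0 + t 1 • p 1 + t 2 • p 2 := by rw [hx]; module
  rw [e, Matrix.mulVec_add, Matrix.mulVec_add, Matrix.mulVec_add, Matrix.mulVec_smul, Matrix.mulVec_smul,
    Matrix.mulVec_smul]
  refine isRat_add (isRat_add (isRat_add (two 0 1 (by decide) x hxr (hxz 0) (hxz 1)) (isRat_smul (htF 0) ?_))
    (isRat_smul (htF 1) ?_)) (isRat_smul (htF 2) ?_)
  · exact two 1 2 (by decide) _ (hp 0) (hpo 0 1 (by decide)) (hpo 0 2 (by decide))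
  · exact two 0 2 (by decide) _ (hp 1) (hpo 1 0 (by decide)) (hpo 1 2 (by decide))
  · exact two 0 1 (by decide) _ (hp 2) (hpo 2 0 (by decide)) (hpo 2 1 (by decide))

/-- Without rational centres an element fixing an anisotropic rational vector maps rationals to rationals. -/
theorem OrthRatL.fix_aniso_rat
    (hno : ∀ z, IsRatVec F₀ z → pullForm n q P z z = 0 → z ≠ 0 → z ∉ centres H.herm M)
    {s : GL (Fin n) F} (hs : s ∈ M) {e : Fin n → F} (he : IsRatVec F₀ e) (hee : pullForm n q P e e ≠ 0)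
    (hse : (s : Mat) *ᵥ e = e) {r : Fin n → F} (hr : IsRatVec F₀ r) : IsRatVec F₀ ((s : Mat) *ᵥ r) := by
  haveI : Nonempty (Fin n) := ⟨⟨0, by have := H.hn; omega⟩⟩
  obtain ⟨ε, hε0, hε⟩ := exists_skew H.herm
  have hiso := (mem_isoSL.mp (hsu hs)).1
  set κ := pullForm n q P e e with hκ
  have hκF : κ ∈ F₀ := H.rat _ _ he he
  -- isotropic vectors orthogonal to `e`
  have key : ∀ p', IsRatVec F₀ p' → pullForm n q P p' p' = 0 → pullForm n q P p' e = 0 →
      IsRatVec F₀ ((s : Mat) *ᵥ p') := by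
    intro p' hp' hp'p' hp'e
    rcases eq_or_ne p' 0 with rfl | hp'0
    · rw [Matrix.mulVec_zero]; exact fun i => zero_mem _
    set u := (s : Mat) *ᵥ p' with hu
    have hu0 : u ≠ 0 := fun h => hp'0 (gl_mulVec_injective s (by
      change (s : Mat) *ᵥ p' = (s : Mat) *ᵥ 0
      rw [Matrix.mulVec_zero, ← hu, h]))
    have huu : pullForm n q P u u = 0 := by rw [hu, hiso, hp'p']
    have hue : pullForm n q P u e = 0 := by
      conv_lhs => rw [← hse]
      rw [hu, hiso, hp'e]
    have heu := (eq_zero_comm H.herm).mp hue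
    set γ := - κ / 2 with hγ
    have hep' : pullForm n q P e p' = 0 := (eq_zero_comm H.herm).mp hp'e
    have hX : eich H.herm huu heu γ ∈ M := by
      have h1 := M.mul_mem (M.mul_mem hs (hle (H.eich_rat he hp' hp'p' hep'))) (M.inv_mem hs)
      rw [conj_eich H.herm hiso hp'p' hep' (by rw [hiso]; exact hp'p') (by rw [hiso]; exact hep')] at h1
      convert h1 using 1
      exact gl_ext fun y => by rw [eich_mulVec, eich_mulVec, hse]
    have main : ∀ p, IsRatVec F₀ p → p ≠ 0 → pullForm n q P p p = 0 → pullForm n q P p e = 0 →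
        pullForm n q P u p = 0 → ∀ x', IsRatVec F₀ x' → pullForm n q P x' p = 0 → pullForm n q P u x' ∈ F₀ := by
      intro p hp hp0 hpp hpe hup x' hx' hx'p
      have hep : pullForm n q P e p = 0 := (eq_zero_comm H.herm).mp hpe
      set X := eich H.herm huu heu γ with hXdef
      have hXi := (mem_isoSL.mp (hsu hX)).1
      have hXp : (X : Mat) *ᵥ p = p := by
        rw [hXdef, eich_mulVec, hpe, (eq_zero_comm H.herm).mp hup, zero_smul, zero_smul, sub_zero, add_zero]
      have hXe : (X : Mat) *ᵥ e = e - κ • u := by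
        rw [hXdef, eich_mulVec, heu, zero_smul, add_zero, ← hκ]
      have h1 := M.mul_mem (M.mul_mem hX (hle (H.eich_rat he hp hpp hep))) (M.inv_mem hX)
      have hzz : pullForm n q P ((X : Mat) *ᵥ p) ((X : Mat) *ᵥ p) = 0 := by rw [hXi, hpp]
      have hxz : pullForm n q P ((X : Mat) *ᵥ e) ((X : Mat) *ᵥ p) = 0 := by rw [hXi, hep]
      rw [conj_eich H.herm hXi hpp hep hzz hxz] at h1
      have he' : pullForm n q P (e - κ • u) p = 0 := by
        rw [sub_left H.herm, H.herm.smul_left, hep, hup, mul_zero, sub_zero]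
      have h2 : eich H.herm hpp he' γ ∈ M := by
        convert h1 using 1
        exact gl_ext fun y => by rw [eich_mulVec, eich_mulVec, hXp, hXe, hγ]
      have h3 := H.siegel_param hle hsu hno hp hpp hp0 he' _ h2 hx' hx'p
      rw [sub_left H.herm, H.herm.smul_left] at h3
      have h4 := mul_mem (inv_mem hκF) (sub_mem (H.rat _ _ he hx') h3)
      rwa [sub_sub_cancel, ← mul_assoc, inv_mul_cancel₀ hee, one_mul] at h4
    obtain ⟨a, b, ha, hb, hab⟩ := H.decomp hε0 hε u
    suffices hb0 : b = 0 by rw [hab, hb0, smul_zero, add_zero]; exact ha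
    have hue' := hue
    rw [hab, H.herm.add_left, H.herm.smul_left] at hue'
    obtain ⟨hae, hbe⟩ := H.split_zero hε0 hε (H.rat _ _ ha he) (H.rat _ _ hb he) hue'
    -- the irrational part lies on the line of every such `p`
    have line : ∀ p, IsRatVec F₀ p → p ≠ 0 → pullForm n q P p p = 0 → pullForm n q P p e = 0 →
        pullForm n q P u p = 0 → ∃ c, c ∈ F₀ ∧ b = c • p := by
      intro p hp hp0 hpp hpe hup
      obtain ⟨y, hy, -, hpy⟩ := H.partner hp hpp hp0
      have hyp : pullForm n q P y p = 1 := by rw [H.symm hp hy]; exact hpy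
      refine ⟨pullForm n q P b y, H.rat _ _ hb hy, ?_⟩
      by_contra hne
      obtain ⟨w, hw, hwb⟩ := H.exists_nonorth (sub_ne_zero.mpr hne)
      set t := pullForm n q P w p with ht
      have htF : t ∈ F₀ := H.rat _ _ hw hp
      have hw' : IsRatVec F₀ (w - t • y) := isRat_sub hw (isRat_smul htF hy)
      have hw'p : pullForm n q P (w - t • y) p = 0 := by
        rw [sub_left H.herm, H.herm.smul_left, hyp, mul_one, ht, sub_self]
      have h1 := main p hp hp0 hpp hpe hup _ hw' hw'p
      rw [hab, H.herm.add_left, H.herm.smul_left] at h1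
      have hbr : pullForm n q P b (w - t • y) = 0 :=
        (H.split_zero hε0 hε (sub_mem (H.rat _ _ ha hw') h1) (H.rat _ _ hb hw') (by ring)).2
      apply hwb
      rw [sub_right H.herm, smul_right H.herm, (H.fixed _).mpr (H.rat _ _ hb hy), ← ht]
      have hbw : pullForm n q P w b = t * pullForm n q P b y := by
        rw [H.symm hb hw]
        rw [sub_right H.herm, smul_right H.herm, (H.fixed _).mpr htF] at hbr
        linear_combination hbr
      rw [hbw, mul_comm, sub_self]
    obtain ⟨p, hp, hp0, hpp, hpo⟩ := H.exists_iso (le_refl 3) ![e, a, b] (fun i => by fin_cases i <;> assumption)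
    have hpe : pullForm n q P p e = 0 := by simpa using hpo 0
    have hpa : pullForm n q P p a = 0 := by simpa using hpo 1
    have hpb : pullForm n q P p b = 0 := by simpa using hpo 2
    have hup : pullForm n q P u p = 0 := by
      rw [hab, H.herm.add_left, H.herm.smul_left, (eq_zero_comm H.herm).mp hpa, (eq_zero_comm H.herm).mp hpb]; ring
    obtain ⟨c, hcF, hc⟩ := line p hp hp0 hpp hpe hup
    obtain ⟨l, w, hw, hw0, hwe, hww, huw⟩ : ∃ (l : F) (w : Fin n → F), IsRatVec F₀ w ∧ w ≠ 0 ∧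
        pullForm n q P w e = 0 ∧ pullForm n q P w w = 0 ∧ u = l • w := by
      rcases eq_or_ne a 0 with ha0 | ha0
      · exact ⟨ε * c, p, hp, hp0, hpe, hpp, by rw [hab, ha0, hc, zero_add, smul_smul]⟩
      have hap := (eq_zero_comm H.herm).mp hpa
      have haa : pullForm n q P a a = 0 := by
        have h := huu
        simp only [hab, hc, H.herm.add_left, add_right H.herm, H.herm.smul_left, smul_right H.herm, hap, hpa, hpp] at h
        linear_combination h
      have hua : pullForm n q P u a = 0 := by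
        rw [hab, H.herm.add_left, H.herm.smul_left, haa, hc, H.herm.smul_left, hpa]; ring
      obtain ⟨c', -, hc'⟩ := line a ha ha0 haa hae hua
      exact ⟨1 + ε * c', a, ha, ha0, hae, haa, by rw [hab, hc']; module⟩
    have hl0 : l ≠ 0 := fun h => hu0 (by rw [huw, h, zero_smul])
    have hew : pullForm n q P e w = 0 := (eq_zero_comm H.herm).mp hwe
    have hX' : pullForm n q P (frobQ hF l • e) w = 0 := by rw [H.herm.smul_left, hew, mul_zero]
    have h2 : eich H.herm hww hX' (γ * (l * frobQ hF l)) ∈ M := by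
      convert hX using 1
      refine gl_ext fun y => ?_
      rw [eich_mulVec, eich_mulVec, huw]
      simp only [smul_right H.herm, H.herm.involutive]
      module
    have h3 := H.siegel_param hle hsu hno hw hww hw0 hX' _ h2 he hew
    rw [H.herm.smul_left] at h3
    have h4 := mul_mem h3 (inv_mem hκF)
    rw [mul_assoc, ← hκ, mul_inv_cancel₀ hee, mul_one] at h4
    have hlF : l ∈ F₀ := by
      have := (H.fixed _).mpr h4
      rw [H.herm.involutive] at this
      rw [this]; exact h4
    funext i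
    have hu' : u i ∈ F₀ := by rw [huw]; exact isRat_smul hlF hw i
    have hbi : ε * b i ∈ F₀ := by
      have := sub_mem hu' (ha i)
      rwa [hab, Pi.add_apply, add_sub_cancel_left, Pi.smul_apply, smul_eq_mul] at this
    by_contra hbi0
    have hεF : ε ∈ F₀ := by
      have := mul_mem hbi (inv_mem (hb i))
      rwa [mul_assoc, mul_inv_cancel₀ (show b i ≠ 0 from hbi0), mul_one] at this
    have := (H.fixed _).mpr hεF
    rw [hε] at this
    exact hε0 ((mul_eq_zero.mp (show (2 : F) * ε = 0 by linear_combination -this)).resolve_left H.two)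
  obtain ⟨z, y, hz, hy, oz, oy, hzz, hyy, hzy, hyz⟩ := H.exists_pair (le_refl 1) ![e]
    (fun i => by fin_cases i; exact he)
  have hze : pullForm n q P z e = 0 := by simpa using oz 0
  have hye : pullForm n q P y e = 0 := by simpa using oy 0
  have perp : ∀ x, IsRatVec F₀ x → pullForm n q P x e = 0 → IsRatVec F₀ ((s : Mat) *ᵥ x) := by
    intro x hx hxe
    set α := pullForm n q P x y with hα
    set β := pullForm n q P x z with hβ
    have hαF : α ∈ F₀ := H.rat _ _ hx hy
    have hβF : β ∈ F₀ := H.rat _ _ hx hz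
    set x' := x - α • z - β • y with hx'
    have hx'r : IsRatVec F₀ x' := isRat_sub (isRat_sub hx (isRat_smul hαF hz)) (isRat_smul hβF hy)
    have a1 : pullForm n q P x' z = 0 := by
      rw [hx', sub_left H.herm, sub_left H.herm, H.herm.smul_left, H.herm.smul_left, hzz, hyz, ← hβ]; ring
    have a2 : pullForm n q P x' y = 0 := by
      rw [hx', sub_left H.herm, sub_left H.herm, H.herm.smul_left, H.herm.smul_left, hzy, hyy, ← hα]; ring
    have a3 : pullForm n q P x' e = 0 := by
      rw [hx', sub_left H.herm, sub_left H.herm, H.herm.smul_left, H.herm.smul_left, hxe, hze, hye]; ring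
    set μ := - pullForm n q P x' x' / 2 with hμ
    have hμF : μ ∈ F₀ := div_mem (neg_mem (H.rat _ _ hx'r hx'r)) H.two_mem
    have hw : pullForm n q P (x' + z + μ • y) (x' + z + μ • y) = 0 := by
      simp only [H.herm.add_left, add_right H.herm, H.herm.smul_left, smul_right H.herm, (H.fixed _).mpr hμF, a1, a2,
        (eq_zero_comm H.herm).mp a1, (eq_zero_comm H.herm).mp a2, hzz, hyy, hzy, hyz]
      rw [hμ]
      have := H.two
      field_simp
      ring
    have hwe : pullForm n q P (x' + z + μ • y) e = 0 := by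
      rw [H.herm.add_left, H.herm.add_left, H.herm.smul_left, a3, hze, hye]; ring
    have e1 : x = (x' + z + μ • y) + ((α - 1) • z + (β - μ) • y) := by rw [hx']; module
    rw [e1, Matrix.mulVec_add, Matrix.mulVec_add _ ((α - 1) • z), Matrix.mulVec_smul _ (α - 1),
      Matrix.mulVec_smul _ (β - μ) y]
    exact isRat_add (key _ (isRat_add (isRat_add hx'r hz) (isRat_smul hμF hy)) hw hwe)
      (isRat_add (isRat_smul (sub_mem hαF (one_mem _)) (key z hz hzz hze))
        (isRat_smul (sub_mem hβF hμF) (key y hy hyy hye)))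
  set t := pullForm n q P r e / κ with ht
  have htF : t ∈ F₀ := div_mem (H.rat _ _ hr he) hκF
  have e2 : r = (r - t • e) + t • e := (sub_add_cancel _ _).symm
  rw [e2, Matrix.mulVec_add, Matrix.mulVec_smul, hse]
  refine isRat_add (perp _ (isRat_sub hr (isRat_smul htF he)) ?_) (isRat_smul htF he)
  rw [sub_left H.herm, H.herm.smul_left, ← hκ, ht, div_mul_cancel₀ _ hee, sub_self]

/-- Without rational centres every element of `M` is in the subfield subgroup. -/
theorem OrthRatL.mem_of_no_centre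
    (hno : ∀ z, IsRatVec F₀ z → pullForm n q P z z = 0 → z ≠ 0 → z ∉ centres H.herm M)
    {g : GL (Fin n) F} (hg : g ∈ M) : g ∈ subGroupF (Fin n) F₀ := by
  classical
  haveI : Nonempty (Fin n) := ⟨⟨0, by have := H.hn; omega⟩⟩
  obtain ⟨ε, hε0, hε⟩ := exists_skew H.herm
  have hiso := (mem_isoSL.mp (hsu hg)).1
  have hgne : ∀ v : Fin n → F, v ≠ 0 → (g : Mat) *ᵥ v ≠ 0 := fun v hv h0 => hv (gl_mulVec_injective g (by
    change (g : Mat) *ᵥ v = (g : Mat) *ᵥ 0
    rw [h0, Matrix.mulVec_zero]))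
  -- conjugates of rational Siegel elements send rationals to rationals
  have hconj : ∀ z x : Fin n → F, ∀ hzz : pullForm n q P z z = 0, ∀ hxz : pullForm n q P x z = 0,
      IsRatVec F₀ z → IsRatVec F₀ x → ∀ r, IsRatVec F₀ r → IsRatVec F₀
        (((g * eich H.herm hzz hxz (- pullForm n q P x x / 2) * g⁻¹ : GL (Fin n) F) : Mat) *ᵥ r) := by
    intro z x hzz hxz hz hx r hr
    obtain ⟨a₁, b₁, ha₁, hb₁, e₁⟩ := H.decomp hε0 hε ((g : Mat) *ᵥ z)
    obtain ⟨a₂, b₂, ha₂, hb₂, e₂⟩ := H.decomp hε0 hε ((g : Mat) *ᵥ x)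
    have hv4 : ∀ i, IsRatVec F₀ (![a₁, b₁, a₂, b₂] i) := fun i => by fin_cases i <;> assumption
    have hmove : ∀ v : Fin n → F, ∃ α β : F,
        ((g * eich H.herm hzz hxz (- pullForm n q P x x / 2) * g⁻¹ : GL (Fin n) F) : Mat) *ᵥ v =
          v + α • (g : Mat) *ᵥ z + β • (g : Mat) *ᵥ x := fun v => by
      refine ⟨-pullForm n q P (((g⁻¹ : GL (Fin n) F) : Mat) *ᵥ v) x +
          pullForm n q P (((g⁻¹ : GL (Fin n) F) : Mat) *ᵥ v) z * (- pullForm n q P x x / 2),
        pullForm n q P (((g⁻¹ : GL (Fin n) F) : Mat) *ᵥ v) z, ?_⟩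
      simp only [Units.val_mul, ← Matrix.mulVec_mulVec, eich_mulVec, Matrix.mulVec_add, Matrix.mulVec_sub,
        Matrix.mulVec_smul, gl_mulVec_inv]
      module
    have horth : ∀ u : Fin n → F, (∀ i, pullForm n q P u (![a₁, b₁, a₂, b₂] i) = 0) →
        ((g * eich H.herm hzz hxz (- pullForm n q P x x / 2) * g⁻¹ : GL (Fin n) F) : Mat) *ᵥ u = u := by
      intro u hu
      have u0 := hu 0; have u1 := hu 1; have u2 := hu 2; have u3 := hu 3
      simp at u0 u1 u2 u3
      set u' := ((g⁻¹ : GL (Fin n) F) : Mat) *ᵥ u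
      have hgu : (g : Mat) *ᵥ u' = u := gl_mulVec_inv g u
      have k1 : pullForm n q P u' z = 0 := by
        rw [← hiso, hgu, e₁, add_right H.herm, smul_right H.herm, u0, u1, mul_zero, add_zero]
      have k2 : pullForm n q P u' x = 0 := by
        rw [← hiso, hgu, e₂, add_right H.herm, smul_right H.herm, u2, u3, mul_zero, add_zero]
      simp only [Units.val_mul, ← Matrix.mulVec_mulVec, eich_mulVec]
      rw [show ((g⁻¹ : GL (Fin n) F) : Mat) *ᵥ u = u' from rfl, k1, k2, zero_smul, zero_smul, sub_zero, add_zero]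
      exact hgu
    set S := g * eich H.herm hzz hxz (- pullForm n q P x x / 2) * g⁻¹ with hS
    have hSM : S ∈ M := M.mul_mem (M.mul_mem hg (hle (H.eich_rat hx hz hzz hxz))) (M.inv_mem hg)
    have hfix : ∀ u ∈ ratPerp H ![a₁, b₁, a₂, b₂], (S : Mat) *ᵥ u = u := fun u hu =>
      horth u ((mem_perp H.herm _ u).mp hu)
    rcases H.aniso_or _ hv4 with ⟨e₀, he₀, oe, hee⟩ | hTI
    · exact H.fix_aniso_rat hle hsu hno hSM he₀ hee (horth e₀ oe) hr
    -- the fixed space is totally isotropic
    have hd := finrank_perp H.herm ![a₁, b₁, a₂, b₂]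
    change Fintype.card (Fin n) ≤ Module.finrank F (ratPerp H ![a₁, b₁, a₂, b₂]) + 4 at hd
    rw [Fintype.card_fin] at hd
    have hn := H.hn
    obtain ⟨w₂, hwl, hwr, hwm⟩ := H.perp_basis (m := 2) _ hv4 (by omega)
    have hSiso := (mem_isoSL.mp (hsu hSM)).1
    -- an anisotropic rational vector orthogonal to the two is fixed or moved rationally
    obtain ⟨v, hvr, ov, hvv⟩ := (H.aniso_or w₂ hwr).resolve_right fun hTI' => by
      have h1 := ti_bound H.herm _ hTI'
      have h2 := finrank_perp H.herm w₂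
      change Fintype.card (Fin n) ≤ Module.finrank F (ratPerp H w₂) + 2 at h2
      rw [Fintype.card_fin] at h1 h2
      omega
    by_cases hvfix : (S : Mat) *ᵥ v = v
    · exact H.fix_aniso_rat hle hsu hno hSM hvr hvv hvfix hr
    have hv : IsRatVec F₀ ((S : Mat) *ᵥ v - v) :=
      isRat_sub (H.fix_two_rat hle hsu hno hSM hwl hwr (fun e => hTI _ (hwm e) _ (hwm e))
        (fun e => hfix _ (hwm e)) (show (0 : Fin 2) ≠ 1 by decide) hvr (ov 0) (ov 1)) hvr
    have hvne := hvfix
    suffices h3 : 3 ≤ Module.finrank F (ratPerp H ![a₁, b₁, a₂, b₂]) by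
      obtain ⟨w, hwl, hwr, hwm⟩ := H.perp_basis _ hv4 h3
      exact H.fix_three_rat hle hsu hno hSM hwl hwr (fun e => hTI _ (hwm e) _ (hwm e))
        (fun e => hfix _ (hwm e)) hr
    obtain ⟨α, β, hαβ⟩ := hmove v
    set w := (S : Mat) *ᵥ v - v with hwdef
    have hw0 : w ≠ 0 := sub_ne_zero.mpr hvne
    have hwe : w = α • (g : Mat) *ᵥ z + β • (g : Mat) *ᵥ x := by rw [hwdef, hαβ]; module
    -- the orthogonal space of three rational vectors is inside
    have hsub : ∀ c d : Fin n → F, IsRatVec F₀ c → IsRatVec F₀ d → ∀ κ : F, κ ≠ 0 → ∀ u, IsRatVec F₀ u →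
        ∀ l : F, pullForm n q P u w = 0 → pullForm n q P u (c + ε • d) = 0 →
        ∀ a b : Fin n → F, IsRatVec F₀ a → IsRatVec F₀ b → w = l • (c + ε • d) + κ • (a + ε • b) →
        pullForm n q P u a = 0 ∧ pullForm n q P u b = 0 := by
      intro c d hc hd κ hκ u hu l huw hucd a b ha hb he
      rw [he, add_right H.herm, smul_right H.herm, smul_right H.herm, hucd, mul_zero, zero_add, mul_eq_zero] at huw
      have h0 := huw.resolve_left (by simpa using hκ)
      rw [add_right H.herm, smul_right H.herm, hε] at h0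
      obtain ⟨p1, p2⟩ := H.split_zero hε0 hε (c := pullForm n q P u a) (d := -pullForm n q P u b) (H.rat _ _ hu ha)
        (neg_mem (H.rat _ _ hu hb)) (by linear_combination h0)
      exact ⟨p1, neg_eq_zero.mp p2⟩
    have h3le : ∀ v3 : Fin 3 → Fin n → F, (∀ i, IsRatVec F₀ (v3 i)) →
        (∀ u, IsRatVec F₀ u → (∀ i, pullForm n q P u (v3 i) = 0) →
          ∀ i, pullForm n q P u (![a₁, b₁, a₂, b₂] i) = 0) →
        3 ≤ Module.finrank F (ratPerp H ![a₁, b₁, a₂, b₂]) := fun v3 hv3 hin => by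
      have h1 : ratPerp H v3 ≤ ratPerp H ![a₁, b₁, a₂, b₂] :=
        (H.perp_le_span v3 hv3).trans (Submodule.span_le.mpr fun u hu =>
          (mem_perp H.herm _ u).mpr (hin u hu.1 ((mem_perp H.herm _ u).mp hu.2)))
      have h2 := finrank_perp H.herm v3
      change Fintype.card (Fin n) ≤ Module.finrank F (ratPerp H v3) + 3 at h2
      rw [Fintype.card_fin] at h2
      have := Submodule.finrank_mono h1
      omega
    have hcomb : ∀ u c d : Fin n → F, pullForm n q P u c = 0 → pullForm n q P u d = 0 →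
        pullForm n q P u (c + ε • d) = 0 := fun u c d h1 h2 => by
      rw [add_right H.herm, smul_right H.herm, h1, h2, mul_zero, add_zero]
    rcases eq_or_ne β 0 with hβ | hβ
    · have hα : α ≠ 0 := fun h => hw0 (by rw [hwe, h, hβ, zero_smul, zero_smul, add_zero])
      refine h3le ![w, a₂, b₂] (fun i => by fin_cases i <;> assumption) fun u hu ho => ?_
      have o0 := ho 0; have o1 := ho 1; have o2 := ho 2
      simp at o0 o1 o2
      obtain ⟨p1, p2⟩ := hsub a₂ b₂ ha₂ hb₂ α hα u hu β o0 (hcomb _ _ _ o1 o2) a₁ b₁ ha₁ hb₁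
        (by rw [hwe, e₁, e₂]; module)
      intro i; fin_cases i <;> assumption
    · refine h3le ![w, a₁, b₁] (fun i => by fin_cases i <;> assumption) fun u hu ho => ?_
      have o0 := ho 0; have o1 := ho 1; have o2 := ho 2
      simp at o0 o1 o2
      obtain ⟨p1, p2⟩ := hsub a₁ b₁ ha₁ hb₁ β hβ u hu α o0 (hcomb _ _ _ o1 o2) a₂ b₂ ha₂ hb₂
        (by rw [hwe, e₁, e₂])
      intro i; fin_cases i <;> assumption
  -- rational isotropic lines go to rational lines
  have hline : ∀ z, IsRatVec F₀ z → pullForm n q P z z = 0 → z ≠ 0 →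
      ∃ (k : F) (r : Fin n → F), IsRatVec F₀ r ∧ k ≠ 0 ∧ r ≠ 0 ∧ (g : Mat) *ᵥ z = k • r := by
    intro z hz hzz hz0
    obtain ⟨x, x', hx, hx', oz, oz', hxx, hx'x', hxx', hx'x⟩ := H.exists_pair (le_refl 1) ![z]
      (fun i => by fin_cases i; exact hz)
    have hxz : pullForm n q P x z = 0 := by simpa using oz 0
    have hx'z : pullForm n q P x' z = 0 := by simpa using oz' 0
    have hspan : ∀ u u' : Fin n → F, IsRatVec F₀ u → pullForm n q P u u = 0 → ∀ huz : pullForm n q P u z = 0,
        pullForm n q P u' z = 0 → pullForm n q P u' u = 1 →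
        ∃ α β : F, (fun i => frobQ hF (((g : Mat) *ᵥ z) i)) = α • (g : Mat) *ᵥ z + β • (g : Mat) *ᵥ u := by
      intro u u' hu huu huz hu'z hu'u
      set s := g * eich H.herm hzz huz (- pullForm n q P u u / 2) * g⁻¹ with hs
      obtain ⟨a, b, ha, hb, hab⟩ := H.decomp hε0 hε ((g : Mat) *ᵥ (-u'))
      have hsa := hconj z u hzz huz hz hu a ha
      have hsb := hconj z u hzz huz hz hu b hb
      rw [← hs] at hsa hsb
      have hsy : ∀ Y, (s : Mat) *ᵥ Y = Y - pullForm n q P (((g⁻¹ : GL (Fin n) F) : Mat) *ᵥ Y) u • (g : Mat) *ᵥ z +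
          pullForm n q P (((g⁻¹ : GL (Fin n) F) : Mat) *ᵥ Y) z • (g : Mat) *ᵥ u := fun Y => by
        rw [hs]
        simp only [Units.val_mul, ← Matrix.mulVec_mulVec, eich_mulVec, Matrix.mulVec_add, Matrix.mulVec_sub,
          Matrix.mulVec_smul, gl_mulVec_inv, huu, neg_zero, zero_div, zero_smul, add_zero]
      have hgz : (g : Mat) *ᵥ z = ((s : Mat) *ᵥ a - a) + ε • ((s : Mat) *ᵥ b - b) := by
        have h1 := hsy ((g : Mat) *ᵥ (-u'))
        rw [gl_inv_mulVec, neg_left H.herm, neg_left H.herm, hu'u, hu'z] at h1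
        rw [hab, Matrix.mulVec_add, Matrix.mulVec_smul] at h1
        linear_combination (norm := module) -h1
      have hconjg : (fun i => frobQ hF (((g : Mat) *ᵥ z) i)) = ((s : Mat) *ᵥ a - a) - ε • ((s : Mat) *ᵥ b - b) :=
        funext fun i => by
          rw [hgz]
          simp only [Pi.add_apply, Pi.sub_apply, Pi.smul_apply, smul_eq_mul, map_add, map_sub, map_mul, hε,
            H.sigma_rat hsa i, H.sigma_rat hsb i, H.sigma_rat ha i, H.sigma_rat hb i]
          ring
      refine ⟨-pullForm n q P (((g⁻¹ : GL (Fin n) F) : Mat) *ᵥ a) u +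
          ε * pullForm n q P (((g⁻¹ : GL (Fin n) F) : Mat) *ᵥ b) u,
        pullForm n q P (((g⁻¹ : GL (Fin n) F) : Mat) *ᵥ a) z -
          ε * pullForm n q P (((g⁻¹ : GL (Fin n) F) : Mat) *ᵥ b) z, ?_⟩
      rw [hconjg, hsy, hsy]
      module
    obtain ⟨α, β, e1⟩ := hspan x x' hx hxx hxz hx'z hx'x
    obtain ⟨α', β', e2⟩ := hspan x' x hx' hx'x' hx'z hxz hxx'
    have hzero : α • z + β • x = α' • z + β' • x' := gl_mulVec_injective g (by
      change (g : Mat) *ᵥ _ = (g : Mat) *ᵥ _
      simp only [Matrix.mulVec_add, Matrix.mulVec_smul]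
      rw [← e1, ← e2])
    have hβ : β = 0 := by
      have := congrArg (fun w => pullForm n q P w x') hzero
      simp only [H.herm.add_left, H.herm.smul_left, hxx', hx'x', (eq_zero_comm H.herm).mp hx'z, mul_zero, mul_one,
        add_zero, zero_add] at this
      exact this
    have he : ∀ i, frobQ hF (((g : Mat) *ᵥ z) i) = α * ((g : Mat) *ᵥ z) i := fun i => by
      have := congrFun e1 i
      rw [hβ, zero_smul, add_zero] at this
      exact this
    obtain ⟨k, r, hr, hkr⟩ := H.line_rat (hgne z hz0) he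
    refine ⟨k, r, hr, fun h => ?_, fun h => ?_, hkr⟩
    · exact hgne z hz0 (by rw [hkr, h, zero_smul])
    · exact hgne z hz0 (by rw [hkr, h, smul_zero])
  -- a common scalar
  obtain ⟨z₁, y₁, hz₁, -, -, -, hzz₁, -, hzy₁, -⟩ := H.exists_pair (show 0 ≤ 1 by norm_num) Fin.elim0
    (fun i => Fin.elim0 i)
  have hz₁0 : z₁ ≠ 0 := fun h => by rw [h, zero_left H.herm] at hzy₁; exact zero_ne_one hzy₁
  obtain ⟨c, r₁, hr₁, hc0, -, hgz₁⟩ := hline z₁ hz₁ hzz₁ hz₁0
  have hsum : ∀ u w k l ru rw', IsRatVec F₀ u → IsRatVec F₀ w → pullForm n q P u u = 0 → pullForm n q P w w = 0 →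
      pullForm n q P u w = 0 → (∀ a b : F, a • u + b • w = 0 → a = 0 ∧ b = 0) →
      IsRatVec F₀ ru → IsRatVec F₀ rw' → k ≠ 0 → l ≠ 0 → (g : Mat) *ᵥ u = k • ru → (g : Mat) *ᵥ w = l • rw' →
      l / k ∈ F₀ := by
    intro u w k l ru rw' hu hw huu hww huw hind hru hrw hk hl eu ew
    have hsumiso : pullForm n q P (u + w) (u + w) = 0 := by
      rw [H.herm.add_left, add_right H.herm, add_right H.herm, huu, hww, huw, (eq_zero_comm H.herm).mp huw]; ring
    have hne : u + w ≠ 0 := fun h => one_ne_zero (hind 1 1 (by rw [one_smul, one_smul]; exact h)).1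
    obtain ⟨m', r', hr', -, -, e'⟩ := hline (u + w) (isRat_add hu hw) hsumiso hne
    rw [Matrix.mulVec_add, eu, ew] at e'
    refine ratio_fixed H.fixed hru hrw hr' (fun a b hab => ?_) (k := l / k) (L := m' / k) ?_
    · have : (g : Mat) *ᵥ ((a / k) • u + (b / l) • w) = (g : Mat) *ᵥ 0 := by
        rw [Matrix.mulVec_add, Matrix.mulVec_smul, Matrix.mulVec_smul, eu, ew, smul_smul, smul_smul,
          div_mul_cancel₀ _ hk, div_mul_cancel₀ _ hl, hab, Matrix.mulVec_zero]
      obtain ⟨h1, h2⟩ := hind _ _ (gl_mulVec_injective g this)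
      exact ⟨(div_eq_zero_iff.mp h1).resolve_right hk, (div_eq_zero_iff.mp h2).resolve_right hl⟩
    · have := congrArg (fun v => k⁻¹ • v) e'
      simp only [smul_add, smul_smul, inv_mul_cancel₀ hk, one_smul] at this
      simpa [div_eq_inv_mul] using this
  have hall : ∀ z, IsRatVec F₀ z → pullForm n q P z z = 0 → IsRatVec F₀ (c⁻¹ • (g : Mat) *ᵥ z) := by
    intro z hz hzz
    rcases eq_or_ne z 0 with rfl | hz0
    · rw [Matrix.mulVec_zero, smul_zero]; exact fun i => zero_mem _
    obtain ⟨cz, rz, hrz, hcz, -, ez⟩ := hline z hz hzz hz0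
    suffices hk : cz / c ∈ F₀ by
      rw [ez, smul_smul]
      refine isRat_smul ?_ hrz
      rwa [← div_eq_inv_mul]
    by_cases hor : pullForm n q P z₁ z = 0
    · by_cases hi : ∀ a b : F, a • z₁ + b • z = 0 → a = 0 ∧ b = 0
      · exact hsum z₁ z c cz r₁ rz hz₁ hz hzz₁ hzz hor hi hr₁ hrz hc0 hcz hgz₁ ez
      push Not at hi
      obtain ⟨a, b, hab, hne⟩ := hi
      have hb : b ≠ 0 := fun h => by
        rw [h, zero_smul, add_zero, smul_eq_zero] at hab
        exact hne (hab.resolve_right hz₁0) h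
      set t := -(a / b) with ht
      have hzt : z = t • z₁ := by
        have := congrArg (fun w => b⁻¹ • w) hab
        simp only [smul_add, smul_smul, inv_mul_cancel₀ hb, one_smul, smul_zero] at this
        rw [eq_neg_of_add_eq_zero_right this, ht, neg_smul, div_eq_inv_mul]
      obtain ⟨p, hp⟩ := Function.ne_iff.mp hz₁0
      have htF : t ∈ F₀ := by
        have h := mul_mem (hz p) (inv_mem (hz₁ p))
        rwa [hzt, Pi.smul_apply, smul_eq_mul, mul_assoc, mul_inv_cancel₀ (show z₁ p ≠ 0 from hp), mul_one] at h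
      have hgz : cz • rz = (t * c) • r₁ := by rw [← ez, hzt, Matrix.mulVec_smul, hgz₁, smul_smul]
      have hrz0 : rz ≠ 0 := fun h => hgne z hz0 (by rw [ez, h, smul_zero])
      obtain ⟨p', hp'⟩ := Function.ne_iff.mp hrz0
      have e := congrFun hgz p'
      simp only [Pi.smul_apply, smul_eq_mul] at e
      have hp'0 : rz p' ≠ 0 := hp'
      have : cz / c = t * r₁ p' / rz p' := by field_simp; linear_combination e
      rw [this]
      exact div_mem (mul_mem htF (hr₁ p')) (hrz p')
    · obtain ⟨u, hu, hu0, huu, ou⟩ := H.exists_iso (show 2 ≤ 3 by norm_num) ![z₁, z]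
        (fun i => by fin_cases i <;> assumption)
      obtain ⟨cu, ru, hru, hcu, -, eu⟩ := hline u hu huu hu0
      have o1 : pullForm n q P u z₁ = 0 := by simpa using ou 0
      have o2 : pullForm n q P u z = 0 := by simpa using ou 1
      have hind : ∀ a b : F, a • z₁ + b • u = 0 → a = 0 ∧ b = 0 := fun a b hab => by
        have := congrArg (fun v => pullForm n q P v z) hab
        simp only [H.herm.add_left, H.herm.smul_left, o2, mul_zero, add_zero, zero_left H.herm, mul_eq_zero] at this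
        have ha : a = 0 := this.resolve_right hor
        exact ⟨ha, (smul_eq_zero.mp (by rwa [ha, zero_smul, zero_add] at hab)).resolve_right hu0⟩
      have hind' : ∀ a b : F, a • z + b • u = 0 → a = 0 ∧ b = 0 := fun a b hab => by
        have := congrArg (fun v => pullForm n q P v z₁) hab
        simp only [H.herm.add_left, H.herm.smul_left, o1, mul_zero, add_zero, zero_left H.herm, mul_eq_zero] at this
        have ha : a = 0 := this.resolve_right fun h => hor ((eq_zero_comm H.herm).mp h)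
        exact ⟨ha, (smul_eq_zero.mp (by rwa [ha, zero_smul, zero_add] at hab)).resolve_right hu0⟩
      have q1 := hsum z₁ u c cu r₁ ru hz₁ hu hzz₁ huu ((eq_zero_comm H.herm).mp o1) hind hr₁ hru hc0 hcu hgz₁ eu
      have q2 := hsum z u cz cu rz ru hz hu hzz huu ((eq_zero_comm H.herm).mp o2) hind' hrz hru hcz hcu ez eu
      have := mul_mem q1 (inv_mem q2)
      rwa [inv_div, div_mul_div_comm, mul_comm c cu, mul_div_mul_left _ _ hcu] at this
  refine mem_subGroupF.mpr ⟨c⁻¹, inv_ne_zero hc0, fun a b => ?_⟩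
  have := H.rat_span (p := fun x => IsRatVec F₀ (c⁻¹ • (g : Mat) *ᵥ x))
    (fun x y hx hy => by rw [Matrix.mulVec_add, smul_add]; exact isRat_add hx hy)
    (fun k hk x hx => by rw [Matrix.mulVec_smul, smul_comm]; exact isRat_smul hk hx) hall (isRat_single b) a
  rwa [Pi.smul_apply, Matrix.mulVec_single_one, Matrix.col_apply, smul_eq_mul] at this

end

section
variable {hF : Fintype.card F = q ^ 2} {F₀ : Subfield F} {P : GL (Fin n) F} (H : OrthRatL hF F₀ P)
include H

/-- A rational vector with prescribed products against two independent rational vectors, made isotropic. -/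
theorem OrthRatL.exists_iso_prescribed {a b : Fin n → F} (ha : IsRatVec F₀ a) (hb : IsRatVec F₀ b)
    (hind : ∀ s t : F, s • a + t • b = 0 → s = 0 ∧ t = 0) {A B : F} (hA : A ∈ F₀) (hB : B ∈ F₀) :
    ∃ z, IsRatVec F₀ z ∧ pullForm n q P z z = 0 ∧ pullForm n q P z a = A ∧ pullForm n q P z b = B := by
  have dual : ∀ a b : Fin n → F, IsRatVec F₀ a → IsRatVec F₀ b → (∀ s t : F, s • a + t • b = 0 → s = 0 ∧ t = 0) →
      ∃ p, IsRatVec F₀ p ∧ pullForm n q P p a = 1 ∧ pullForm n q P p b = 0 := by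
    intro a b ha hb hind
    have hb0 : b ≠ 0 := fun h => one_ne_zero (hind 0 1 (by rw [h, smul_zero, zero_smul, add_zero])).2
    obtain ⟨y, hy, hyb⟩ := H.exists_nonorth hb0
    set d := pullForm n q P y a / pullForm n q P y b with hd
    have hdF : d ∈ F₀ := div_mem (H.rat _ _ hy ha) (H.rat _ _ hy hb)
    set a' := a - d • b with ha'
    have ha'0 : a' ≠ 0 := fun h => one_ne_zero (hind 1 (-d) (by rw [one_smul, neg_smul, ← sub_eq_add_neg]; exact h)).1
    obtain ⟨x, hx, hxa⟩ := H.exists_nonorth ha'0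
    set p := x - (pullForm n q P x b / pullForm n q P y b) • y with hp
    have hpr : IsRatVec F₀ p := isRat_sub hx (isRat_smul (div_mem (H.rat _ _ hx hb) (H.rat _ _ hy hb)) hy)
    have hpb : pullForm n q P p b = 0 := by
      rw [hp, sub_left H.herm, H.herm.smul_left, div_mul_cancel₀ _ hyb, sub_self]
    have hpa : pullForm n q P p a = pullForm n q P x a' := by
      rw [hp, ha', sub_left H.herm, H.herm.smul_left, sub_right H.herm, smul_right H.herm, (H.fixed _).mpr hdF, hd]
      field_simp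
    refine ⟨(pullForm n q P p a)⁻¹ • p, isRat_smul (inv_mem (H.rat _ _ hpr ha)) hpr, ?_, ?_⟩
    · rw [H.herm.smul_left, inv_mul_cancel₀ (by rw [hpa]; exact hxa)]
    · rw [H.herm.smul_left, hpb, mul_zero]
  obtain ⟨p, hp, hpa, hpb⟩ := dual a b ha hb hind
  obtain ⟨r, hr, hrb, hra⟩ := dual b a hb ha (fun s t h => (hind t s (by rw [add_comm]; exact h)).symm)
  set x₀ := A • p + B • r with hx₀
  have hx₀r : IsRatVec F₀ x₀ := isRat_add (isRat_smul hA hp) (isRat_smul hB hr)
  have ea : pullForm n q P x₀ a = A := by rw [hx₀, H.herm.add_left, H.herm.smul_left, H.herm.smul_left, hpa, hra]; ring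
  have eb : pullForm n q P x₀ b = B := by rw [hx₀, H.herm.add_left, H.herm.smul_left, H.herm.smul_left, hpb, hrb]; ring
  rcases H.exists_pair_or (le_refl 2) ![a, b] (fun i => by fin_cases i <;> assumption) with
    ⟨e, e', he, he', oe, oe', hee, he'e', hee', he'e⟩ | ⟨-, w, hwl, hwr, hwm⟩
  swap
  · -- the orthogonal space has its radical spanned by the two vectors
    rcases eq_or_ne A 0 with hA0 | hA0
    on_goal 1 => rcases eq_or_ne B 0 with hB0 | hB0
    · exact ⟨0, fun i => zero_mem _, zero_left H.herm _, by rw [zero_left H.herm, hA0],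
        by rw [zero_left H.herm, hB0]⟩
    all_goals
      obtain ⟨k, hk⟩ : ∃ k, pullForm n q P x₀ (w k) ≠ 0 := by
        by_contra hc
        push Not at hc
        have hle2 : Submodule.span F (Set.range w) ≤ Submodule.span F (Set.range ![a, b]) := by
          refine Submodule.span_le.mpr ?_
          rintro _ ⟨k, rfl⟩
          rw [SetLike.mem_coe, ← perp_perp H.herm (Submodule.span F (Set.range ![a, b])), mem_perpW H.herm]
          exact fun y hy => (hwm k).2 y ((mem_perp H.herm _ y).mpr fun i =>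
            (mem_perpW H.herm).mp hy _ (Submodule.subset_span ⟨i, rfl⟩))
        have heq := Submodule.eq_of_le_of_finrank_le hle2 (by
          rw [finrank_span_eq_card hwl]; exact finrank_range_le_card _)
        have hker : Submodule.span F (Set.range w) ≤ LinearMap.ker (fl H.herm x₀) := Submodule.span_le.mpr (by
          rintro _ ⟨k, rfl⟩; exact (eq_zero_comm H.herm).mp (hc k))
        rw [heq] at hker
        have h1 : pullForm n q P a x₀ = 0 := hker (Submodule.subset_span ⟨0, rfl⟩)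
        have h2 : pullForm n q P b x₀ = 0 := hker (Submodule.subset_span ⟨1, rfl⟩)
        rw [H.symm hx₀r ha, ea] at h1
        rw [H.symm hx₀r hb, eb] at h2
        simp_all
      set d := pullForm n q P x₀ (w k) with hd
      have hdF : d ∈ F₀ := H.rat _ _ hx₀r (hwr k)
      set μ := - pullForm n q P x₀ x₀ / (2 * d) with hμ
      have hμF : μ ∈ F₀ := div_mem (neg_mem (H.rat _ _ hx₀r hx₀r)) (mul_mem H.two_mem hdF)
      have hwk := (mem_perp H.herm _ _).mp (hwm k).1
      have w0 := hwk 0; have w1 := hwk 1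
      simp at w0 w1
      have hww := (hwm k).2 _ (hwm k).1
      have hdw : pullForm n q P (w k) x₀ = d := by rw [H.symm hx₀r (hwr k)]
      refine ⟨x₀ + μ • w k, isRat_add hx₀r (isRat_smul hμF (hwr k)), ?_, ?_, ?_⟩
      · simp only [H.herm.add_left, add_right H.herm, H.herm.smul_left, smul_right H.herm, (H.fixed _).mpr hμF, hdw,
          ← hd, hww]
        rw [hμ]
        have := H.two
        field_simp
        ring
      · rw [H.herm.add_left, H.herm.smul_left, ea, w0]; ring
      · rw [H.herm.add_left, H.herm.smul_left, eb, w1]; ring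
  have a0 := oe 0; have a1 := oe 1
  have b0 := oe' 0; have b1 := oe' 1
  simp at a0 a1 b0 b1
  obtain ⟨x₁, hx₁r, hx₁e, hx₁e', ea', eb'⟩ : ∃ x₁, IsRatVec F₀ x₁ ∧ pullForm n q P x₁ e = 0 ∧
      pullForm n q P x₁ e' = 0 ∧ pullForm n q P x₁ a = A ∧ pullForm n q P x₁ b = B := by
    refine ⟨x₀ - pullForm n q P x₀ e' • e - pullForm n q P x₀ e • e',
      isRat_sub (isRat_sub hx₀r (isRat_smul (H.rat _ _ hx₀r he') he)) (isRat_smul (H.rat _ _ hx₀r he) he'), ?_, ?_, ?_, ?_⟩
    · rw [sub_left H.herm, sub_left H.herm, H.herm.smul_left, H.herm.smul_left, hee, he'e]; ring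
    · rw [sub_left H.herm, sub_left H.herm, H.herm.smul_left, H.herm.smul_left, hee', he'e']; ring
    · rw [sub_left H.herm, sub_left H.herm, H.herm.smul_left, H.herm.smul_left, ea, a0, b0]; ring
    · rw [sub_left H.herm, sub_left H.herm, H.herm.smul_left, H.herm.smul_left, eb, a1, b1]; ring
  clear ea eb hx₀r hx₀
  clear_value x₀
  clear x₀
  rename' x₁ => x₀, hx₁r => hx₀r, ea' => ea, eb' => eb
  set μ := - pullForm n q P x₀ x₀ / 2 with hμ
  have hμF : μ ∈ F₀ := div_mem (neg_mem (H.rat _ _ hx₀r hx₀r)) H.two_mem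
  have a2 := (eq_zero_comm H.herm).mp hx₁e
  have b2 := (eq_zero_comm H.herm).mp hx₁e'
  refine ⟨x₀ + e + μ • e', isRat_add (isRat_add hx₀r he) (isRat_smul hμF he'), ?_, ?_, ?_⟩
  · simp only [H.herm.add_left, add_right H.herm, H.herm.smul_left, smul_right H.herm, (H.fixed _).mpr hμF, a2, b2,
      (eq_zero_comm H.herm).mp a2, (eq_zero_comm H.herm).mp b2, hee, he'e', hee', he'e]
    rw [hμ]
    have := H.two
    field_simp
    ring
  · rw [H.herm.add_left, H.herm.add_left, H.herm.smul_left, ea, a0, b0]; ring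
  · rw [H.herm.add_left, H.herm.add_left, H.herm.smul_left, eb, a1, b1]; ring

/-- The orthogonal subfield subgroup is maximal. -/
theorem OrthRatL.maximal :
    Cfsg.Geo.IsMaximalIn (isoSL (pullForm n q P)) (subGroupF (Fin n) F₀ ⊓ isoSL (pullForm n q P)) := by
  classical
  haveI : Nonempty (Fin n) := ⟨⟨0, by have := H.hn; omega⟩⟩
  obtain ⟨ε, hε0, hε⟩ := exists_skew H.herm
  have hεF : ε * ε ∈ F₀ := (H.fixed _).mp (by rw [map_mul, hε, neg_mul_neg])
  refine isMaximalIn_of inf_le_right ?_ fun M h1 h2 g hgM hgH => ?_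
  · obtain ⟨z, y, hz, hy, -, -, hzz, hyy, hzy, hyz⟩ := H.exists_pair (show 0 ≤ 1 by norm_num) Fin.elim0
      (fun i => Fin.elim0 i)
    obtain ⟨w, hw, ow, hww⟩ := H.exists_aniso (by have := H.hn; omega) ![z, y] (fun i => by fin_cases i <;> assumption)
    have w0 := ow 0; have w1 := ow 1
    simp at w0 w1
    set v := z + ε • y with hv
    have hvv : pullForm n q P v v = 0 := by
      simp only [hv, H.herm.add_left, add_right H.herm, H.herm.smul_left, smul_right H.herm, hε, hzz, hyy, hzy, hyz]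
      ring
    refine ⟨uT H.herm hvv ε, ⟨fun a b => uT_iso H.herm hvv hε a b, transGL_mem_sl _ _ _⟩, fun hm => ?_⟩
    have hw0 : w ≠ 0 := fun h => hww (by rw [h, zero_left H.herm])
    have hfixw : (uT H.herm hvv ε : Mat) *ᵥ w = w := by
      rw [uT_mulVec, hv, add_right H.herm, smul_right H.herm, w0, w1, mul_zero, add_zero, mul_zero, zero_smul,
        add_zero]
    have hT := rational_of_fix hm.1 hw hw0 hfixw
    have hr := isRat_sub (mulVec_rat hT hz) hz
    rw [uT_mulVec, add_sub_cancel_left] at hr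
    set k := ε * pullForm n q P z v with hk
    have hk' : k = -(ε * ε) := by rw [hk, hv, add_right H.herm, smul_right H.herm, hzz, hzy, hε]; ring
    have hy0 : y ≠ 0 := fun h => by rw [h, zero_left H.herm] at hyz; exact zero_ne_one hyz
    obtain ⟨p, hp⟩ := Function.ne_iff.mp hy0
    have h3 : k * z p + (k * ε) * y p ∈ F₀ := by
      have := hr p
      rwa [Pi.smul_apply, hv, Pi.add_apply, Pi.smul_apply, smul_eq_mul, smul_eq_mul, mul_add, ← mul_assoc] at this
    have hkF : k ∈ F₀ := hk' ▸ neg_mem hεF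
    have h4 : k * ε * y p ∈ F₀ := by
      have := sub_mem h3 (mul_mem hkF (hz p))
      rwa [add_sub_cancel_left] at this
    have h5 : k * y p ≠ 0 := mul_ne_zero (by rw [hk']; exact neg_ne_zero.mpr (mul_ne_zero hε0 hε0)) hp
    have h6 : ε ∈ F₀ := by
      have := mul_mem h4 (inv_mem (mul_mem hkF (hy p)))
      rwa [show k * ε * y p = ε * (k * y p) by ring, mul_assoc, mul_inv_cancel₀ h5, mul_one] at this
    have := (H.fixed _).mpr h6
    rw [hε] at this
    exact hε0 ((mul_eq_zero.mp (show (2 : F) * ε = 0 by linear_combination -this)).resolve_left H.two)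
  have hiso : ∀ k ∈ M, ∀ a b, pullForm n q P ((k : Mat) *ᵥ a) ((k : Mat) *ᵥ b) = pullForm n q P a b :=
    fun k hk => (mem_isoSL.mp (h2 hk)).1
  have hgS : g ∉ subGroupF (Fin n) F₀ := fun h => hgH ⟨h, h2 hgM⟩
  obtain ⟨z₀, hz₀, hz₀z₀, hz₀0, hz₀C⟩ :
      ∃ z, IsRatVec F₀ z ∧ pullForm n q P z z = 0 ∧ z ≠ 0 ∧ z ∈ centres H.herm M := by
    by_contra hc; push Not at hc
    exact hgS (H.mem_of_no_centre h1 h2 hc hgM)
  -- transitivity on rational isotropic lines
  have hnon : ∀ u w, IsRatVec F₀ u → IsRatVec F₀ w → pullForm n q P u u = 0 → pullForm n q P w w = 0 →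
      pullForm n q P u w ≠ 0 → u ∈ centres H.herm M → w ∈ centres H.herm M := by
    intro u w hu hw huu hww hne hC
    set c := (pullForm n q P u w)⁻¹ with hc
    have hcF : c ∈ F₀ := inv_mem (H.rat _ _ hu hw)
    obtain ⟨r, hr, orr, hrr⟩ := H.exists_aniso (by have := H.hn; omega) ![u, w] (fun i => by fin_cases i <;> assumption)
    have r0 := orr 0; have r1 := orr 1
    simp at r0 r1
    obtain ⟨k, hk, e⟩ := H.move (u := u) (w := c • w) (r := r) huu
      (by rw [H.herm.smul_left, smul_right H.herm, hww, mul_zero, mul_zero]) hu (isRat_smul hcF hw)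
      (by rw [smul_right H.herm, (H.fixed _).mpr hcF, hc, inv_mul_cancel₀ hne]) hr r0
      (by rw [smul_right H.herm, r1, mul_zero]) hrr
    have h3 := centres_conj H.herm hiso (h1 hk) hC
    rw [e, smul_smul] at h3
    have h4 : (- pullForm n q P r r / 2) * c ≠ 0 :=
      mul_ne_zero (div_ne_zero (neg_ne_zero.mpr hrr) H.two) (inv_ne_zero hne)
    have h5 := centres_smul H.herm h3 ((- pullForm n q P r r / 2) * c)⁻¹
    rwa [smul_smul, inv_mul_cancel₀ h4, one_smul] at h5
  have hCr : ∀ w, IsRatVec F₀ w → pullForm n q P w w = 0 → w ∈ centres H.herm M := by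
    intro w hw hww
    rcases eq_or_ne w 0 with rfl | hw0
    · have := centres_smul H.herm hz₀C 0
      rwa [zero_smul] at this
    by_cases hzw : pullForm n q P z₀ w = 0
    swap
    · exact hnon z₀ w hz₀ hw hz₀z₀ hww hzw hz₀C
    obtain ⟨a, ha, haa, hza⟩ := H.partner hz₀ hz₀z₀ hz₀0
    obtain ⟨b, hb, hbb, hwb⟩ := H.partner hw hww hw0
    by_cases h3 : pullForm n q P w a = 0
    swap
    · exact hnon a w ha hw haa hww (fun h => h3 ((eq_zero_comm H.herm).mp h))
        (hnon z₀ a hz₀ ha hz₀z₀ haa (by rw [hza]; exact one_ne_zero) hz₀C)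
    by_cases h4 : pullForm n q P z₀ b = 0
    swap
    · exact hnon b w hb hw hbb hww (fun h => one_ne_zero (hwb.symm.trans ((eq_zero_comm H.herm).mp h)))
        (hnon z₀ b hz₀ hb hz₀z₀ hbb h4 hz₀C)
    set μ := - pullForm n q P a b with hμ
    have hμF : μ ∈ F₀ := neg_mem (H.rat _ _ ha hb)
    set u := a + b + μ • z₀ with hu
    have hur : IsRatVec F₀ u := isRat_add (isRat_add ha hb) (isRat_smul hμF hz₀)
    have e1 : pullForm n q P z₀ u = 1 := by
      rw [hu, add_right H.herm, add_right H.herm, smul_right H.herm, hza, h4, hz₀z₀]; ring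
    have e2 : pullForm n q P w u = 1 := by
      rw [hu, add_right H.herm, add_right H.herm, smul_right H.herm, h3, hwb, (eq_zero_comm H.herm).mp hzw]; ring
    have hba : pullForm n q P b a = pullForm n q P a b := H.symm ha hb
    have haz : pullForm n q P a z₀ = 1 := by rw [H.symm hz₀ ha]; exact hza
    have huu : pullForm n q P u u = 0 := by
      simp only [hu, H.herm.add_left, add_right H.herm, H.herm.smul_left, smul_right H.herm, (H.fixed _).mpr hμF,
        haa, hbb, hba, haz, hza, h4, (eq_zero_comm H.herm).mp h4, hz₀z₀]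
      rw [hμ]; ring
    exact hnon u w hur hw huu hww (fun h => one_ne_zero (e2.symm.trans ((eq_zero_comm H.herm).mp h)))
      (hnon z₀ u hz₀ hur hz₀z₀ huu (by rw [e1]; exact one_ne_zero) hz₀C)
  refine isoSL_le_of_uT hF (by have := H.hn; omega) P fun v hvv d hd => ?_
  suffices hvc : v ∈ centres H.herm M by
    obtain ⟨_, hv'⟩ := hvc
    exact hv' d hd
  obtain ⟨a, b, ha, hb, rfl⟩ := H.decomp hε0 hε v
  have hεε : ε * ε ≠ 0 := mul_ne_zero hε0 hε0
  by_cases hind : ∀ s t : F, s • a + t • b = 0 → s = 0 ∧ t = 0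
  swap
  · push Not at hind
    obtain ⟨s, t, hst, hne⟩ := hind
    -- a multiple of a rational vector
    obtain ⟨k, r, hr, hkr⟩ : ∃ (k : F) (r : Fin n → F), IsRatVec F₀ r ∧ a + ε • b = k • r := by
      by_cases hb0 : b = 0
      · exact ⟨1, a, ha, by rw [hb0, smul_zero, add_zero, one_smul]⟩
      have hs : s ≠ 0 := fun h => by
        rw [h, zero_smul, zero_add, smul_eq_zero] at hst
        exact hne h (hst.resolve_right hb0)
      have : a = (-(t / s)) • b := by
        have := congrArg (fun w => s⁻¹ • w) hst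
        simp only [smul_add, smul_smul, inv_mul_cancel₀ hs, one_smul, smul_zero] at this
        rw [eq_neg_of_add_eq_zero_left this, neg_smul, div_eq_inv_mul]
      exact ⟨-(t / s) + ε, b, hb, by rw [this]; module⟩
    rw [hkr] at hvv ⊢
    rcases eq_or_ne k 0 with rfl | hk
    · rw [zero_smul]
      have := centres_smul H.herm hz₀C 0
      rwa [zero_smul] at this
    rw [H.herm.smul_left, smul_right H.herm] at hvv
    refine centres_smul H.herm (hCr r hr ?_) k
    simpa [hk] using hvv
  -- the invariant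
  have hsym : pullForm n q P b a = pullForm n q P a b := H.symm ha hb
  have hvv' : pullForm n q P a a - ε * ε * pullForm n q P b b = 0 := by
    have := hvv
    simp only [H.herm.add_left, add_right H.herm, H.herm.smul_left, smul_right H.herm, hε, hsym] at this
    linear_combination this
  set c := pullForm n q P a b with hc
  set e := pullForm n q P b b with he
  set W := c + ε * e with hW
  obtain ⟨u, k, hu, hk, huk⟩ : ∃ u k : F, u ≠ 0 ∧ k ≠ 0 ∧ W + u * u = k * k := by
    by_cases hW0 : W = 0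
    · exact ⟨1, 1, one_ne_zero, one_ne_zero, by rw [hW0, zero_add]⟩
    have hq9 : 8 ≤ Fintype.card F := by
      have h3 := Cfsg.Agent.H3.two_le_q hF
      have h4 : q ≠ 2 := fun h => by
        haveI : CharP F 2 := ringChar.of_eq (FiniteField.even_card_iff_char_two.mpr (by rw [hF, h]; norm_num))
        exact H.two CharTwo.two_eq_zero
      have h6 : 3 ≤ q := by omega
      rw [hF]; nlinarith
    obtain ⟨t, ht⟩ : ((Finset.univ : Finset F) \ (insert 0 ((Polynomial.X ^ 2 - Polynomial.C W).roots.toFinset ∪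
        (Polynomial.X ^ 2 - Polynomial.C (-W)).roots.toFinset))).Nonempty := by
      rw [← Finset.card_pos, Finset.card_sdiff_of_subset (Finset.subset_univ _), Finset.card_univ]
      have h5 : ∀ x : F, (Polynomial.X ^ 2 - Polynomial.C x).roots.toFinset.card ≤ 2 := fun x =>
        (Multiset.toFinset_card_le _).trans ((Polynomial.card_roots' _).trans
          (by rw [Polynomial.natDegree_X_pow_sub_C]))
      have := Finset.card_insert_le (0 : F) ((Polynomial.X ^ 2 - Polynomial.C W).roots.toFinset ∪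
        (Polynomial.X ^ 2 - Polynomial.C (-W)).roots.toFinset)
      have := Finset.card_union_le (Polynomial.X ^ 2 - Polynomial.C W).roots.toFinset
        (Polynomial.X ^ 2 - Polynomial.C (-W)).roots.toFinset
      have := h5 W
      have := h5 (-W)
      omega
    simp only [Finset.mem_sdiff, Finset.mem_univ, true_and, Finset.mem_insert, Finset.mem_union, not_or,
      Multiset.mem_toFinset, Polynomial.mem_roots (Polynomial.X_pow_sub_C_ne_zero two_pos _), Polynomial.IsRoot,
      Polynomial.eval_sub, Polynomial.eval_pow, Polynomial.eval_X, Polynomial.eval_C, sub_eq_zero] at ht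
    obtain ⟨ht0, ht1, ht2⟩ := ht
    have h2 := H.two
    refine ⟨(t - W / t) / 2, (t + W / t) / 2, ?_, ?_, by field_simp; ring⟩
    · intro h; refine ht1 ?_
      field_simp at h
      linear_combination h
    · intro h; refine ht2 ?_
      field_simp at h
      linear_combination h
  obtain ⟨A, B, hA, hB, hAB⟩ : ∃ A B : F, A ∈ F₀ ∧ B ∈ F₀ ∧ u = A + ε * B := by
    refine ⟨(u + frobQ hF u) / 2, (u - frobQ hF u) / (2 * ε), (H.fixed _).mp ?_, (H.fixed _).mp ?_, ?_⟩
    · rw [map_div₀, map_add, H.herm.involutive, map_ofNat, add_comm]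
    · rw [map_div₀, map_sub, H.herm.involutive, map_mul, map_ofNat, hε, mul_neg, ← neg_sub u, neg_div_neg_eq]
    · have h2 := H.two
      field_simp
      ring
  obtain ⟨z, hz, hzz, hza, hzb⟩ := H.exists_iso_prescribed ha hb hind hA hB
  have haz : pullForm n q P a z = A := by rw [H.symm hz ha]; exact hza
  have hbz : pullForm n q P b z = B := by rw [H.symm hz hb]; exact hzb
  have hvz : pullForm n q P (a + ε • b) z = u := by rw [H.herm.add_left, H.herm.smul_left, haz, hbz, hAB]
  set κ := ε * u with hκ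
  set v₂ := (a + ε • b) + κ • z with hv₂
  -- rescale to a hyperbolic plane
  obtain ⟨a₃, b₃, ha₃, hb₃, h3⟩ := H.decomp hε0 hε (k⁻¹ • v₂)
  have hσu : frobQ hF u = A - ε * B := by
    rw [hAB, map_add, map_mul, hε, (H.fixed _).mpr hA, (H.fixed _).mpr hB]; ring
  have hσκ : frobQ hF κ = -ε * (A - ε * B) := by rw [hκ, map_mul, hε, hσu]
  have hbar : (fun i => frobQ hF (v₂ i)) = a - ε • b + frobQ hF κ • z := funext fun i => by
    simp only [hv₂, Pi.add_apply, Pi.sub_apply, Pi.smul_apply, smul_eq_mul, map_add, map_mul, hε,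
      H.sigma_rat ha i, H.sigma_rat hb i, H.sigma_rat hz i]
    ring
  clear_value κ
  have hv₂v₂ : pullForm n q P v₂ v₂ = 0 := by
    simp only [hv₂, H.herm.add_left, add_right H.herm, H.herm.smul_left, smul_right H.herm, hε, haz, hbz, hza, hzb,
      hzz, hsym, ← he, hσκ]
    rw [hκ, hAB]
    linear_combination hvv'
  have hbil : pullForm n q P v₂ (fun i => frobQ hF (v₂ i)) = 2 * ε * (k * k) := by
    rw [hbar]
    simp only [hv₂, H.herm.add_left, add_right H.herm, sub_right H.herm, H.herm.smul_left, smul_right H.herm,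
      H.herm.involutive, hε, haz, hbz, hza, hzb, hzz, hsym, ← he]
    rw [hκ, ← huk, hW, hAB]
    linear_combination hvv'
  have hkinv : k⁻¹ ≠ 0 := inv_ne_zero hk
  have h33 : pullForm n q P (a₃ + ε • b₃) (a₃ + ε • b₃) = 0 := by
    rw [← h3, H.herm.smul_left, smul_right H.herm, hv₂v₂, mul_zero, mul_zero]
  have h33' : pullForm n q P (a₃ + ε • b₃) (a₃ - ε • b₃) = 2 * ε := by
    have e : a₃ - ε • b₃ = frobQ hF k⁻¹ • fun i => frobQ hF (v₂ i) := funext fun i => by
      have := congrArg (frobQ hF) (congrFun h3 i)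
      simp only [Pi.smul_apply, Pi.add_apply, smul_eq_mul, map_mul, map_add, hε, H.sigma_rat ha₃ i,
        H.sigma_rat hb₃ i] at this
      simp only [Pi.sub_apply, Pi.smul_apply, smul_eq_mul]
      linear_combination -this
    rw [e, ← h3, H.herm.smul_left, smul_right H.herm, H.herm.involutive, hbil]
    field_simp
  have hsym₃ : pullForm n q P b₃ a₃ = pullForm n q P a₃ b₃ := H.symm ha₃ hb₃
  simp only [H.herm.add_left, add_right H.herm, sub_right H.herm, H.herm.smul_left, smul_right H.herm, hε, hsym₃]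
    at h33 h33'
  have hsplit := H.split_zero hε0 hε
    (c := 2 * pullForm n q P a₃ a₃) (d := 2 * (pullForm n q P a₃ b₃ - 1))
    (mul_mem H.two_mem (H.rat _ _ ha₃ ha₃)) (mul_mem H.two_mem (sub_mem (H.rat _ _ ha₃ hb₃) (one_mem _)))
    (by linear_combination h33 + h33')
  have hQa : pullForm n q P a₃ a₃ = 0 := (mul_eq_zero.mp hsplit.1).resolve_left H.two
  have hc1 : pullForm n q P a₃ b₃ = 1 := sub_eq_zero.mp ((mul_eq_zero.mp hsplit.2).resolve_left H.two)
  have hQb : pullForm n q P b₃ b₃ = 0 := by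
    rw [hQa] at h33
    exact (mul_eq_zero.mp (show (ε * ε) * pullForm n q P b₃ b₃ = 0 by linear_combination -h33)).resolve_left hεε
  have hC3 : a₃ + ε • b₃ ∈ centres H.herm M := by
    have h := centres_pair H.herm hiso (hCr a₃ ha₃ hQa) (hCr b₃ hb₃ hQb) (by rw [hc1]; exact one_ne_zero)
      (k := 1) (l := ε) (by
        simp only [one_smul, H.herm.add_left, add_right H.herm, H.herm.smul_left, smul_right H.herm, hε, hsym₃, hQa,
          hQb]
        ring)
    rwa [one_smul] at h
  rw [← h3] at hC3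
  have hC2 : v₂ ∈ centres H.herm M := by
    have := centres_smul H.herm hC3 k
    rwa [smul_smul, mul_inv_cancel₀ hk, one_smul] at this
  have e5 : (1 : F) • v₂ + (-κ) • z = a + ε • b := by rw [hv₂]; module
  have := centres_pair H.herm hiso hC2 (hCr z hz hzz)
    (by rw [hv₂, H.herm.add_left, H.herm.smul_left, hzz, hvz, mul_zero, add_zero]; exact hu) (k := 1) (l := -κ)
    (by rw [e5]; exact hvv)
  rwa [e5] at this

end

end Cfsg.Agent.H60.SULow
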