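import Cfsg.Agent.H60.SULow.SubOdd
import Cfsg.Agent.H60.SULow.SubOrth
import Cfsg.Agent.H98.MaximalUSubSymp
import Cfsg.Prelude.Def_GeometricClasses

set_option autoImplicit false
set_option linter.style.haveILetI false
set_option linter.unusedSectionVars false

/-!
# Subfield subgroups of `SU`, in the form of the statements, from dimension ten
-/

namespace Cfsg.Agent.H60.SULow

/-- Odd degree subfields, from dimension six. -/
theorem su_subfield_odd_maximal₆ {F : Type*} [Field F] [Fintype F] (n q : ℕ) (hF : Fintype.card F = q ^ 2) (hn : 6 ≤ n) (F₀ : Subfield F) (r : ℕ) (hr : r.Prime) (hro : Odd r) (hcard : Fintype.card F = Nat.card F₀ ^ r) (P : Matrix.GeneralLinearGroup (Fin n) F) (hP : Cfsg.Geo.IsFormRationalStructure (Cfsg.hermForm n F q) F₀ 1 P) : Cfsg.Geo.IsMaximalIn (Cfsg.GU n F q ⊓ Cfsg.Geo.specialLinear (Fin n) F) (Cfsg.Geo.subfieldSubgroup F₀ P ⊓ (Cfsg.GU n F q ⊓ Cfsg.Geo.specialLinear (Fin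 n) F)) := by
  refine Cfsg.Agent.H98.Herm.su_subfield_of_pull F₀ P ?_
  exact OddRatL.maximal (hF := hF) (r := r) ⟨hn, hr, hro, hcard,
    fun u v hu hv => by simpa [Cfsg.Agent.H98.Herm.pullForm] using (hP u v hu hv)⟩

/-- Odd degree subfields. -/
theorem su_subfield_odd_maximal {F : Type*} [Field F] [Fintype F] (n q : ℕ) (hF : Fintype.card F = q ^ 2) (hn : 10 ≤ n) (F₀ : Subfield F) (r : ℕ) (hr : r.Prime) (hro : Odd r) (hcard : Fintype.card F = Nat.card F₀ ^ r) (P : Matrix.GeneralLinearGroup (Fin n) F) (hP : Cfsg.Geo.IsFormRationalStructure (Cfsg.hermForm n F q) F₀ 1 P) : Cfsg.Geo.IsMaximalIn (Cfsg.GU n F q ⊓ Cfsg.Geo.specialLinear (Fin n) F) (Cfsg.Geo.subfieldSubgroup F₀ P ⊓ (Cfsg.GU n F q ⊓ Cfsg.Geo.specialLinear (Fin n) F)) :=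
  su_subfield_odd_maximal₆ n q hF (by omega) F₀ r hr hro hcard P hP

/-- Degree two subfields, orthogonal type, from dimension six. -/
theorem su_subfield_orth_maximal₆ {F : Type*} [Field F] [Fintype F] (n q : ℕ) (hF : Fintype.card F = q ^ 2) (hn : 6 ≤ n) (hodd : Odd q) (F₀ : Subfield F) (hcard : Fintype.card F = Nat.card F₀ ^ 2) (P : Matrix.GeneralLinearGroup (Fin n) F) (hP : Cfsg.Geo.IsFormRationalStructure (Cfsg.hermForm n F q) F₀ 1 P) : Cfsg.Geo.IsMaximalIn (Cfsg.GU n F q ⊓ Cfsg.Geo.specialLinear (Fin n) F) (Cfsg.Geo.subfieldSubgroup F₀ P ⊓ (Cfsg.GU n F q ⊓ Cfsg.Geo.specialLinear (Fin n) F)) := by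
  refine Cfsg.Agent.H98.Herm.su_subfield_of_pull F₀ P ?_
  refine OrthRatL.maximal (hF := hF) ⟨hn, ?_, Cfsg.Agent.H98.Herm.frobQ_fixed_iff hF hcard,
    fun u v hu hv => by simpa [Cfsg.Agent.H98.Herm.pullForm] using (hP u v hu hv)⟩
  intro h2
  haveI : CharP F 2 := CharTwo.of_one_ne_zero_of_two_eq_zero one_ne_zero h2
  have h := FiniteField.even_card_iff_char_two.mp (ringChar.eq F 2)
  rw [hF] at h
  exact absurd (hodd.pow (n := 2)) (Nat.not_odd_iff.mpr h)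

/-- Degree two subfields, orthogonal type. -/
theorem su_subfield_orth_maximal {F : Type*} [Field F] [Fintype F] (n q : ℕ) (hF : Fintype.card F = q ^ 2) (hn : 10 ≤ n) (hodd : Odd q) (F₀ : Subfield F) (hcard : Fintype.card F = Nat.card F₀ ^ 2) (P : Matrix.GeneralLinearGroup (Fin n) F) (hP : Cfsg.Geo.IsFormRationalStructure (Cfsg.hermForm n F q) F₀ 1 P) : Cfsg.Geo.IsMaximalIn (Cfsg.GU n F q ⊓ Cfsg.Geo.specialLinear (Fin n) F) (Cfsg.Geo.subfieldSubgroup F₀ P ⊓ (Cfsg.GU n F q ⊓ Cfsg.Geo.specialLinear (Fin n) F)) :=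
  su_subfield_orth_maximal₆ n q hF (by omega) hodd F₀ hcard P hP

/-- Degree two subfields, symplectic type. -/
theorem su_subfield_symp_maximal {F : Type*} [Field F] [Fintype F] (n q : ℕ) (hF : Fintype.card F = q ^ 2) (hn : 4 ≤ n) (F₀ : Subfield F) (hcard : Fintype.card F = Nat.card F₀ ^ 2) (ζ : F) (hζ0 : ζ ≠ 0) (hζ : ζ + ζ ^ q = 0) (P : Matrix.GeneralLinearGroup (Fin n) F) (hP : Cfsg.Geo.IsFormRationalStructure (Cfsg.hermForm n F q) F₀ ζ P) (halt : ∀ u : Fin n → F, (∀ i, u i ∈ F₀) → Cfsg.hermForm n F q (Matrix.mulVec (P : Matrix (Fin n) (Fin n) F) u) (Matrix.mulVec (P : Matrix (Fin n) (Fin n) F) u) = 0) : Cfsg.Geo.IsMaximalIn (Cfsg.GU n F q ⊓ Cfsg.Geo.specialLinear (Fin n) F) (Cfsg.Geo.subfieldSubgroup F₀ P ⊓ (Cfsg.GU n F q ⊓ Cfsg.Geo.specialLinear (Fin n) F)) := by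
  refine Cfsg.Agent.H98.Herm.su_subfield_of_pull F₀ P ?_
  exact Cfsg.Agent.H98.Herm.isoSL_symp_subfield_maximal hF hn P
    (Cfsg.Agent.H98.Herm.frobQ_fixed_iff hF hcard) hζ0
    (by rw [Cfsg.Agent.H98.Herm.frobQ_apply]; linear_combination hζ)
    (fun u v hu hv => hP u v hu hv) (fun u hu => halt u hu)

end Cfsg.Agent.H60.SULow
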